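import Cfsg.Agent.INV.UM.Defs

/-!
The unitary group: field, form, transvections, root elements.
-/

set_option autoImplicit false
set_option linter.unusedSectionVars false
set_option linter.unusedVariables false

namespace CL.UM

open Matrix Subgroup CL.SC
open scoped commutatorElement

variable {m : ℕ} [NeZero m] {F : Type*} [Field F] [Finite F] [CharP F 2] {φ : F ≃+* F}

instance decLo (i : Fin m) : Decidable (Lo i) := inferInstanceAs (Decidable (_ < _))

theorem Pa.ff (hp : Pa m φ) (a : F) : φ (φ a) = a := DFunLike.congr_fun hp.sq a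

theorem Pa.three (hp : Pa m φ) : 3 ≤ m := by have := hp.six; omega

theorem Pa.k3 (hp : Pa m φ) : 3 ≤ m / 2 := by have := hp.six; omega

theorem Pa.par (hp : Pa m φ) : Par m F := ⟨hp.three, fun h => by have := hp.six; omega⟩

theorem Pa.aux (hp : Pa m φ) : ∃ n, 0 < n ∧ qq F = 2 ^ n ∧ Nat.card F = qq F ^ 2 ∧ (∀ a, φ a = a ^ qq F) ∧
    Nat.card {a : F // φ a = a} = qq F := by
  obtain ⟨n, h0, h1, h2⟩ := aut_two hp.ne hp.sq
  have e : qq F = 2 ^ n := by rw [qq, h1, Nat.sqrt_eq']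
  exact ⟨n, h0, e, e ▸ h1, e ▸ h2⟩

/-- `aut_two` -/
theorem Pa.card (hp : Pa m φ) : Nat.card F = qq F ^ 2 := hp.aux.elim fun _ h => h.2.2.1

theorem Pa.qpow (hp : Pa m φ) : ∃ n, 0 < n ∧ qq F = 2 ^ n := hp.aux.imp fun _ h => ⟨h.1, h.2.1⟩

theorem Pa.q2 (hp : Pa m φ) : 2 ≤ qq F := hp.qpow.elim fun _ h => h.2 ▸ Nat.le_self_pow h.1.ne' 2

theorem Pa.card_fix (hp : Pa m φ) : Nat.card {a : F // φ a = a} = qq F := hp.aux.elim fun _ h => h.2.2.2.2

theorem Pa.pow (hp : Pa m φ) (a : F) : φ a = a ^ qq F := hp.aux.elim fun _ h => h.2.2.2.1 a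

theorem Pa.qa8 (hp : Pa m φ) : 512 ≤ qa m F :=
  (Nat.pow_le_pow_right two_pos (Nat.mul_le_mul hp.k3 hp.k3)).trans (Nat.pow_le_pow_left hp.q2 _)

/-- `a / φ a` with `φ a ≠ a` -/
theorem Pa.om (hp : Pa m φ) : ∃ ω : F, ω * φ ω = 1 ∧ ω ≠ 1 := by
  obtain ⟨a, ha⟩ : ∃ a, φ a ≠ a := not_forall.1 fun h => hp.ne (RingEquiv.ext h)
  have h0 : a ≠ 0 := by rintro rfl; exact ha (map_zero φ)
  have h1 : φ a ≠ 0 := (map_ne_zero φ).2 h0
  exact ⟨a / φ a, by rw [map_div₀, hp.ff]; field_simp, fun e => ha ((div_eq_one_iff_eq h1).1 e).symm⟩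

/-- there are `q + 1 ≥ 5` elements of norm one (`a ^ (q - 1)`, `a` a generator of the units) -/
theorem Pa.om3 (hp : Pa m φ) (h4 : Nat.card F ≠ 4) : ∃ ω : F, ω * φ ω = 1 ∧ ω ^ 3 ≠ 1 := by
  obtain ⟨g, hg⟩ := IsCyclic.exists_ofOrder_eq_natCard (α := Fˣ)
  obtain ⟨n, h0, e⟩ := hp.qpow
  have h1 : 3 ≤ qq F := hp.q2.lt_of_ne fun h => h4 (by rw [hp.card, ← h]; rfl)
  obtain ⟨r, hr⟩ := Nat.exists_eq_add_of_le' (show 1 ≤ qq F by omega)
  rw [Nat.card_units, hp.card, hr, show (r + 1) ^ 2 - 1 = r * (r + 2) from Nat.sub_eq_of_eq_add (by ring)] at hg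
  have h2 : r ≠ 2 := by
    rintro rfl
    exact absurd (hr ▸ e ▸ dvd_pow_self 2 h0.ne' : 2 ∣ 2 + 1) (by decide)
  refine ⟨(g ^ r : Fˣ), ?_, fun h => ?_⟩
  · rw [hp.pow, hr, ← pow_succ', ← Units.val_pow_eq_pow_val, ← pow_mul, ← hg, pow_orderOf_eq_one, Units.val_one]
  · have := Nat.le_of_dvd (by omega) (orderOf_dvd_of_pow_eq_one (x := g) (n := r * 3) (Units.ext (by
      rw [pow_mul, Units.val_pow_eq_pow_val, h, Units.val_one])))
    rw [hg] at this
    have := Nat.le_of_mul_le_mul_left this (by omega)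
    omega

theorem Pa.th (hp : Pa m φ) : ∃ θ : F, θ + φ θ = 1 := exists_trace hp.ne hp.sq (map_one φ)

/-- `a ↦ a * a + a` maps the `2 q` elements with `φ a + a ∈ {0, 1}` two to one into the fixed
field -/
theorem Pa.root (hp : Pa m φ) {c : F} (hc : φ c = c) : ∃ a : F, a * a + a = c := by
  obtain ⟨θ, hθ⟩ := hp.th
  have h2 : (2 : F) = 0 := CharTwo.two_eq_zero
  let K := (φ : F →+* F).eqLocusField (RingHom.id F)
  let f : K →+ K := AddMonoidHom.mk' (fun a => a * a + a) fun a b => Subtype.ext (by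
    push_cast; linear_combination (a : F) * b * h2)
  have hi : f.range.index = 2 := by
    rw [AddSubgroup.index_range, ← SetLike.coe_sort_coe, Nat.card_coe_set_eq,
      show (f.ker : Set K) = {0, 1} from Set.ext fun a => ?_, Set.ncard_pair zero_ne_one]
    change a * a + a = 0 ↔ a = 0 ∨ a = 1
    rw [← mul_add_one, mul_eq_zero, add_eq_zero_iff_eq_neg, show (-1 : K) = 1 from Subtype.ext (CharTwo.neg_eq 1)]
  have hd : θ * θ + θ ∈ K := by
    change φ _ = θ * θ + θ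
    rw [map_add, map_mul]; linear_combination (φ θ - θ) * hθ + (φ θ - θ) * h2
  by_cases h : (⟨c, hc⟩ : K) ∈ f.range
  · exact h.elim fun a e => ⟨a, congrArg Subtype.val e⟩
  obtain ⟨a, e⟩ := (AddSubgroup.add_mem_iff_of_index_two hi (a := ⟨c, hc⟩) (b := ⟨_, hd⟩)).2 (iff_of_false h fun ⟨a, e⟩ => by
    have e1 : (a : F) * a + a = θ * θ + θ := congrArg Subtype.val e
    have e2 : φ a = a := a.2
    rcases mul_eq_zero.1 (show (θ - a) * (θ - (a + 1)) = 0 by linear_combination e1 + (θ * θ - θ * a) * h2) with e | e <;>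
      rw [sub_eq_zero.1 e] at hθ
    · exact one_ne_zero (by rw [← hθ, e2, CharTwo.add_self_eq_zero])
    · exact one_ne_zero (by rw [← hθ, map_add, e2, map_one, CharTwo.add_self_eq_zero]))
  have e1 : (a : F) * a + a = c + (θ * θ + θ) := congrArg Subtype.val e
  exact ⟨a + θ, by linear_combination e1 + (θ * θ + θ + a * θ) * h2⟩

/-- `σ⁻¹ σ'`-type argument: `a + φ a` and `a * φ a` are fixed, so `σ a` is a root of the same
quadratic polynomial as `a`; a field is not the union of two proper subfields -/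
theorem Pa.fix (hp : Pa m φ) {σ : F ≃+* F} (h : ∀ c, φ c = c → σ c = c) : σ = 1 ∨ σ = φ := by
  have k : ∀ a, σ a = a ∨ σ a = φ a := fun a => by
    have h1 := h (a + φ a) (by rw [map_add, hp.ff, add_comm])
    have h2 := h (a * φ a) (by rw [map_mul, hp.ff, mul_comm])
    rw [map_add] at h1
    rw [map_mul] at h2
    exact (mul_eq_zero.1 (show (σ a - a) * (σ a - φ a) = 0 by linear_combination σ a * h1 - h2)).imp
      sub_eq_zero.1 sub_eq_zero.1
  by_contra! n
  obtain ⟨a, ha⟩ : ∃ a, σ a ≠ a := not_forall.1 fun h => n.1 (RingEquiv.ext h)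
  obtain ⟨b, hb⟩ : ∃ a, σ a ≠ φ a := not_forall.1 fun h => n.2 (RingEquiv.ext h)
  rcases k (a + b) with e | e <;> simp only [map_add] at e
  · exact ha (add_right_cancel (e.symm ▸ congrArg (σ a + ·) ((k b).resolve_right hb).symm))
  · exact hb (add_left_cancel ((congrArg (· + σ b) ((k a).resolve_left ha)).symm.trans e))

theorem su_val {g : SL m F} (h : g ∈ SU m φ) : (su φ g : SL m F) = g := by rw [su, dif_pos h]

theorem su_coe (a : SU m φ) : su φ (a : SL m F) = a := Subtype.ext (su_val a.2)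

theorem mem_SU' {g : SL m F} : g ∈ SU m φ ↔ ∀ i j, φ ((g⁻¹ : SL m F) j.rev i.rev) = g i j := Matrix.SpecialLinearGroup.ext_iff _ _

namespace Bas

theorem hf_eq (u v : Fin m → F) : hf φ u v = ad φ v ⬝ᵥ u := Finset.sum_congr rfl fun _ _ => mul_comm _ _

theorem hf_single_left (i : Fin m) (c : F) (v : Fin m → F) : hf φ (Pi.single i c) v = c * φ (v i.rev) := by
  rw [hf_eq, dotProduct_single, mul_comm]; rfl

theorem ad_single (i : Fin m) (c : F) : ad φ (Pi.single i c) = Pi.single i.rev (φ c) := funext fun j => by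
  by_cases h : j = i.rev
  · simp [ad, h]
  · rw [ad, Pi.single_eq_of_ne h, Pi.single_eq_of_ne fun e => h (by rw [← e, Fin.rev_rev]), map_zero]

theorem hf_single_right (u : Fin m → F) (i : Fin m) (c : F) : hf φ u (Pi.single i c) = u i.rev * φ c := by
  rw [hf_eq, ad_single, single_dotProduct, mul_comm]

theorem ad_add (u v : Fin m → F) : ad φ (u + v) = ad φ u + ad φ v := funext fun _ => map_add φ _ _

theorem ad_smul (c : F) (u : Fin m → F) : ad φ (c • u) = φ c • ad φ u := funext fun _ => map_mul φ _ _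

theorem std_x (i j : Fin m) (a : F) : (std φ true : MulAut (SL m F)) (x i j a) = x j.rev i.rev (φ a) :=
  (congrArg (fld φ) (gr_x i j a)).trans (fld_x _ _ _ _)

theorem x_mulVec {i j : Fin m} (h : i ≠ j) (a : F) (v : Fin m → F) :
    ((x i j a : SL m F) : Matrix (Fin m) (Fin m) F) *ᵥ v = v + Pi.single i (a * v j) := by
  rw [x_val h, add_mulVec, one_mulVec, single_mulVec]; rfl

theorem su_un {N : Matrix (Fin m) (Fin m) F} (h : N * N = 0) (hs : ∀ i j, φ (N j.rev i.rev) = N i j) :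
    ((su φ (un (1 + N)) : SL m F) : Matrix (Fin m) (Fin m) F) = 1 + N := by
  have e := un_val (det_one_add h)
  rw [su_val (mem_SU'.2 fun i j => ?_), e]
  rw [inv_eq_of_mul_eq_one_right (a := un (1 + N)) (b := un (1 + N)) (Subtype.ext (by
    rw [Matrix.SpecialLinearGroup.coe_mul, e, mul_add, mul_one, add_mul, one_mul, h, add_zero, add_assoc,
      CharTwo.add_self_eq_zero, add_zero]; rfl))]
  rw [e, Matrix.add_apply, Matrix.add_apply, map_add, hs, one_apply, one_apply]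
  simp [Fin.rev_inj, eq_comm, apply_ite φ]

end Bas

theorem mem_SU (hp : Pa m φ) {g : SL m F} : g ∈ SU m φ ↔ ∀ u v,
    hf φ ((g : Matrix (Fin m) (Fin m) F) *ᵥ u) ((g : Matrix (Fin m) (Fin m) F) *ᵥ v) = hf φ u v :=
  mem_SU'.trans ⟨fun h u v => by
    have e : ∀ w, ad φ ((g : Matrix (Fin m) (Fin m) F) *ᵥ w) = ad φ w ᵥ* ((g⁻¹ : SL m F) : Matrix (Fin m) (Fin m) F) :=
      fun w => funext fun j => by
        simp only [ad, mulVec, vecMul, dotProduct, map_sum, map_mul, ← h, hp.ff, Fin.rev_rev]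
        exact Fintype.sum_equiv Fin.revPerm _ _ fun i => by simp [mul_comm]
    rw [Bas.hf_eq, Bas.hf_eq, e, ← dotProduct_mulVec, mulVec_mulVec, ← Matrix.SpecialLinearGroup.coe_mul, inv_mul_cancel,
      Matrix.SpecialLinearGroup.coe_one, one_mulVec], fun h i j => by
    have := h (((g⁻¹ : SL m F) : Matrix (Fin m) (Fin m) F) *ᵥ Pi.single i.rev 1) (Pi.single j 1)
    rw [mulVec_mulVec, mul_inv_val, one_mulVec, Bas.hf_single_left, Bas.hf_single_right, Fin.rev_rev] at this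
    simp only [mulVec_single_one, map_one, mul_one, one_mul, col_apply] at this
    rw [← this, hp.ff]⟩

theorem hf_eq (u v : Fin m → F) : hf φ u v = ad φ v ⬝ᵥ u := Bas.hf_eq u v

theorem hf_add_left (u u' v : Fin m → F) : hf φ (u + u') v = hf φ u v + hf φ u' v := by simp only [hf_eq, dotProduct_add]

theorem hf_add_right (u v v' : Fin m → F) : hf φ u (v + v') = hf φ u v + hf φ u v' := by simp only [hf_eq, Bas.ad_add, add_dotProduct]

theorem hf_smul_left (c : F) (u v : Fin m → F) : hf φ (c • u) v = c * hf φ u v := by simp only [hf_eq, dotProduct_smul, smul_eq_mul]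

theorem hf_smul_right (c : F) (u v : Fin m → F) : hf φ u (c • v) = φ c * hf φ u v := by simp only [hf_eq, Bas.ad_smul, smul_dotProduct, smul_eq_mul]

theorem hf_conj (hp : Pa m φ) (u v : Fin m → F) : φ (hf φ u v) = hf φ v u := by
  simp only [hf, map_sum, map_mul, hp.ff]
  exact Fintype.sum_equiv Fin.revPerm _ _ fun i => by simp [mul_comm]

theorem hf_single_left (i : Fin m) (c : F) (v : Fin m → F) :
    hf φ (Pi.single i c) v = c * φ (v i.rev) := Bas.hf_single_left i c v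

theorem hf_single_right (u : Fin m → F) (i : Fin m) (c : F) :
    hf φ u (Pi.single i c) = u i.rev * φ c := Bas.hf_single_right u i c

theorem mem_Wv {v : Fin m → F} : v ∈ Wv m F ↔ ∀ i, ¬ Lo i → v i = 0 := forall_congr' fun _ => imp_congr_left not_lt.symm

theorem Lo.rev {i : Fin m} (h : Lo i) : ¬ Lo i.rev := by have := i.2; simp only [Lo, Fin.val_rev] at *; omega

theorem Lo.ne_rev {i j : Fin m} (h : Lo i) (h' : Lo j) : i ≠ j.rev := fun e => h'.rev (e ▸ h)

theorem lo_or (i : Fin m) : Lo i ∨ Lo i.rev ∨ i.rev = i := by have := i.2; simp only [Lo, Fin.ext_iff, Fin.val_rev] at *; omega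

theorem mid_unique {o o' : Fin m} (h : o.rev = o) (h' : o'.rev = o') : o = o' := by
  have := o.2; have := o'.2; simp only [Fin.ext_iff, Fin.val_rev] at *; omega

theorem single_mem_Wv {i : Fin m} (h : Lo i) (c : F) : Pi.single i c ∈ Wv m F := mem_Wv.2 fun j hj => by rw [Pi.single_eq_of_ne fun e : j = i => hj (e ▸ h)]

theorem hf_W {u v : Fin m → F} (hu : u ∈ Wv m F) (hv : v ∈ Wv m F) : hf φ u v = 0 := Finset.sum_eq_zero fun i _ => by
  by_cases h : Lo i
  · rw [mem_Wv.1 hv _ h.rev, map_zero, mul_zero]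
  · rw [mem_Wv.1 hu _ h, zero_mul]

theorem Ind.of_lo {i j : Fin m} (hi : Lo i) (hj : Lo j) (h : i ≠ j) : Ind i j ∧ Ind i j.rev :=
  ⟨⟨h, hi.ne_rev hj, hi.ne_rev hi, hj.ne_rev hj⟩, hi.ne_rev hj, by rwa [Fin.rev_rev], hi.ne_rev hi,
    by rw [Fin.rev_rev]; exact (hj.ne_rev hj).symm⟩

theorem Ind.symm {a b : Fin m} (h : Ind a b) : Ind b a := ⟨h.1.symm, fun e => h.2.1 (by rw [e, Fin.rev_rev]), h.2.2.2, h.2.2.1⟩

theorem Ind.rev_left {a b : Fin m} (h : Ind a b) : Ind a.rev b := h.symm.elim fun a b => ⟨b.1.symm, fun e => h.1 (Fin.rev_injective e), by rw [Fin.rev_rev]; exact h.2.2.1.symm, b.2.1⟩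

theorem Ind.rev_right {a b : Fin m} (h : Ind a b) : Ind a b.rev := h.symm.rev_left.symm

theorem Bas.exists_ind (hp : Pa m φ) (a b : Fin m) :
    ∃ c, Lo c ∧ c ≠ a ∧ c ≠ a.rev ∧ c ≠ b ∧ c ≠ b.rev := by
  have := hp.six
  have := a.2
  have := b.2
  by_contra! h
  have h0 := h ⟨0, by omega⟩
  have h1 := h ⟨1, by omega⟩
  have h2 := h ⟨2, by omega⟩
  simp only [Lo, ne_eq, Fin.ext_iff, Fin.val_rev] at h0 h1 h2
  omega

/-- among `0, 1, 2` -/
theorem Ind.third (hp : Pa m φ) {a b : Fin m} (h : Ind a b) : ∃ c, Lo c ∧ Ind3 a b c := (Bas.exists_ind hp a b).imp fun c k =>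
  ⟨k.1, h, Ind.symm ⟨k.2.2.2.1, k.2.2.2.2, k.1.ne_rev k.1, h.2.2.2⟩, Ind.symm ⟨k.2.1, k.2.2.1, k.1.ne_rev k.1, h.2.2.1⟩⟩

theorem exists_ind (hp : Pa m φ) (a b : Fin m) :
    ∃ c, Lo c ∧ c ≠ a ∧ c ≠ a.rev ∧ c ≠ b ∧ c ≠ b.rev := Bas.exists_ind hp a b

theorem exists_lo3 (hp : Pa m φ) :
    ∃ i j : Fin m, Lo (0 : Fin m) ∧ Lo i ∧ Lo j ∧ (i : ℕ) = 1 ∧ (j : ℕ) = 2 := by
  have := hp.six
  exact ⟨⟨1, by omega⟩, ⟨2, by omega⟩, by simp only [Lo, Fin.val_zero]; omega, by simp only [Lo]; omega,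
    by simp only [Lo]; omega, rfl, rfl⟩

theorem GUm.mul {g g' : GL (Fin m) F} (h : GUm φ g) (h' : GUm φ g') : GUm φ (g * g') := fun u v => by rw [Units.val_mul, ← mulVec_mulVec, ← mulVec_mulVec, h, h']

theorem GUm.inv {g : GL (Fin m) F} (h : GUm φ g) : GUm φ g⁻¹ := fun u v => by rw [← h, mulVec_mulVec, mulVec_mulVec, Units.mul_inv, one_mulVec, one_mulVec]

theorem gum_one : GUm φ (1 : GL (Fin m) F) := fun u v => by simp

theorem gum_toGL (hp : Pa m φ) (a : SU m φ) :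
    GUm φ (Matrix.SpecialLinearGroup.toGL (a : SL m F)) := (mem_SU hp).1 a.2

theorem GUm.inn_mem (hp : Pa m φ) {g : GL (Fin m) F} (h : GUm φ g) (a : SU m φ) :
    inn g (a : SL m F) ∈ SU m φ := (mem_SU hp).2 ((h.mul (gum_toGL hp a)).mul h.inv)

/-- `ad (g v) = ad v ᵥ* g⁻¹` -/
theorem GUm.ad {g : GL (Fin m) F} (h : GUm φ g) (v : Fin m → F) :
    ad φ ((g : Matrix (Fin m) (Fin m) F) *ᵥ v) =
      ad φ v ᵥ* ((g⁻¹ : GL (Fin m) F) : Matrix (Fin m) (Fin m) F) := funext fun j => by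
  have := h (((g⁻¹ : GL (Fin m) F) : Matrix (Fin m) (Fin m) F) *ᵥ Pi.single j 1) v
  rwa [mulVec_mulVec, Units.mul_inv, one_mulVec, hf_eq, hf_eq, dotProduct_mulVec, dotProduct_single, dotProduct_single,
    mul_one, mul_one] at this

theorem tv_val (hp : Pa m φ) {v : Fin m → F} (hv : hf φ v v = 0) :
    ((tv φ v : SL m F) : Matrix (Fin m) (Fin m) F) = 1 + vecMulVec v (ad φ v) :=
  Bas.su_un (by rw [vecMulVec_mul_vecMulVec, ← hf_eq, hv]; simp) fun i j => by simp [vecMulVec_apply, ad, hp.ff, mul_comm]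

theorem pr_val (hp : Pa m φ) {v w : Fin m → F} (hv : v ∈ Wv m F) (hw : w ∈ Wv m F) :
    ((pr φ v w : SL m F) : Matrix (Fin m) (Fin m) F) =
      1 + vecMulVec v (ad φ w) + vecMulVec w (ad φ v) := by
  rw [pr, add_assoc]
  exact Bas.su_un (by simp [add_mul, mul_add, vecMulVec_mul_vecMulVec, ← hf_eq, hf_W, hv, hw]) fun i j => by
    simp [vecMulVec_apply, ad, hp.ff, mul_comm, add_comm]

theorem tv_zero : tv φ (0 : Fin m → F) = 1 := by rw [tv, zero_vecMulVec, un_one]; exact su_coe 1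

theorem tv_sq (hp : Pa m φ) {v : Fin m → F} (hv : hf φ v v = 0) : tv φ v * tv φ v = 1 := Subtype.ext (Subtype.ext (by
  change (tv φ v : SL m F).1 * (tv φ v : SL m F).1 = 1
  rw [tv_val hp hv, mul_add, mul_one, add_mul, one_mul, vecMulVec_mul_vecMulVec, ← hf_eq, hv, zero_smul, vecMulVec_zero,
    add_zero, add_assoc, CharTwo.add_self_eq_zero, add_zero]))

theorem Bas.tv_ent (hp : Pa m φ) {v w : Fin m → F} (hv : hf φ v v = 0) (hw : hf φ w w = 0)
    (h : tv φ v = tv φ w) (i j : Fin m) : v i * φ (v j) = w i * φ (w j) := by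
  have e := (tv_val hp hv).symm.trans (h ▸ tv_val hp hw)
  simpa [vecMulVec_apply, ad] using congrFun (congrFun (add_left_cancel (G := Matrix _ _ F) e) i) j.rev

theorem tv_eq_one (hp : Pa m φ) {v : Fin m → F} (hv : hf φ v v = 0) : tv φ v = 1 ↔ v = 0 :=
  ⟨fun h => funext fun i => by simpa using Bas.tv_ent hp hv (by simp [hf]) (h.trans tv_zero.symm) i i, fun h => h ▸ tv_zero⟩

theorem tv_smul {c : F} (hc : c * φ c = 1) (v : Fin m → F) : tv φ (c • v) = tv φ v := by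
  rw [tv, tv, Bas.ad_smul, smul_vecMulVec, vecMulVec_smul, smul_smul, hc, one_smul]

theorem tv_inj (hp : Pa m φ) {v w : Fin m → F} (hv : hf φ v v = 0) (hw : hf φ w w = 0)
    (h : tv φ v = tv φ w) : ∃ c : F, c * φ c = 1 ∧ w = c • v := by
  by_cases h0 : v = 0
  · exact ⟨1, by simp, by rw [h0, smul_zero, ← tv_eq_one hp hw, ← h, h0, tv_zero]⟩
  obtain ⟨i, hi⟩ := Function.ne_iff.1 h0
  have e := Bas.tv_ent hp hv hw h
  have h1 : φ (v i) ≠ 0 := (map_ne_zero φ).2 hi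
  have h2 : v i ≠ 0 := hi
  refine ⟨w i / v i, by rw [map_div₀, div_mul_div_comm, ← e, div_self (mul_ne_zero h2 h1)], funext fun j => ?_⟩
  have h3 : φ (w i) ≠ 0 := right_ne_zero_of_mul (e i i ▸ mul_ne_zero h2 h1)
  rw [Pi.smul_apply, smul_eq_mul, div_mul_eq_mul_div, eq_div_iff h2]
  exact mul_right_cancel₀ h3 (by linear_combination v j * e i i - v i * e j i)

theorem tv_inn (hp : Pa m φ) {g : GL (Fin m) F} (h : GUm φ g) {v : Fin m → F} (hv : hf φ v v = 0) :
    inn g (tv φ v : SL m F) = tv φ ((g : Matrix (Fin m) (Fin m) F) *ᵥ v) := Subtype.ext (by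
  rw [inn_val, tv_val hp hv, tv_val hp ((h v v).trans hv), h.ad, mul_add, add_mul, mul_one, Units.mul_inv, mul_vecMulVec,
    vecMulVec_mul])

theorem tv_conj (hp : Pa m φ) (g : SU m φ) {v : Fin m → F} (hv : hf φ v v = 0) :
    g * tv φ v * g⁻¹ = tv φ (((g : SL m F) : Matrix (Fin m) (Fin m) F) *ᵥ v) := Subtype.ext ((DFunLike.congr_fun (inn_toGL (g : SL m F)) _).symm.trans (tv_inn hp (gum_toGL hp g) hv))

theorem fs_tv (hp : Pa m φ) (σ : F ≃+* F) {v : Fin m → F} (hv : hf φ v v = 0) :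
    fs φ σ (tv φ v) = tv φ fun i => σ (v i) := Subtype.ext (Subtype.ext (by
  have c : ∀ a, φ (σ a) = σ (φ a) := DFunLike.congr_fun (aut_comm φ σ)
  rw [fs_val, fld_val, tv_val hp hv, tv_val hp (by simpa [hf, c] using congrArg σ hv), map_add, map_one]
  ext i j; simp [vecMulVec_apply, ad, c]))

theorem tv_add (hp : Pa m φ) {v w : Fin m → F} (hv : v ∈ Wv m F) (hw : w ∈ Wv m F) :
    tv φ (v + w) = tv φ v * tv φ w * pr φ v w := Subtype.ext (Subtype.ext (by
  change _ = (tv φ v : SL m F).1 * (tv φ w : SL m F).1 * (pr φ v w : SL m F).1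
  rw [tv_val hp (hf_W hv hv), tv_val hp (hf_W hw hw), tv_val hp (hf_W (add_mem hv hw) (add_mem hv hw)), pr_val hp hv hw]
  simp [add_mul, mul_add, vecMulVec_mul_vecMulVec, ← hf_eq, hf_W, hv, hw, Bas.ad_add, add_vecMulVec, vecMulVec_add]
  abel))

theorem Ind.cm {a b : Fin m} (h : Ind a b) (u v : F) : Commute (x a b u) (x b.rev a.rev v) := x_comm h.2.2.1 h.2.2.2 u v

theorem Ind.ne' {a b : Fin m} (h : Ind a b) : b.rev ≠ a.rev := fun e => h.1 (Fin.rev_injective e).symm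

theorem xs_val (hp : Pa m φ) {a b : Fin m} (h : Ind a b) (u : F) :
    (xs φ a b u : SL m F) = x a b u * x b.rev a.rev (φ u) := su_val (mem_Fx.2 (by
  rw [map_mul, Bas.std_x, Bas.std_x, Fin.rev_rev, Fin.rev_rev, hp.ff, (h.cm _ _).eq]))

theorem xs_mat (hp : Pa m φ) {a b : Fin m} (h : Ind a b) (u : F) :
    ((xs φ a b u : SL m F) : Matrix (Fin m) (Fin m) F) =
      1 + single a b u + single b.rev a.rev (φ u) := by
  rw [xs_val hp h, Matrix.SpecialLinearGroup.coe_mul, x_val h.1, x_val h.ne', mul_add, mul_one, add_mul, one_mul,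
    single_mul_single_of_ne _ _ _ _ h.2.2.2, add_zero]

theorem xs_mulVec (hp : Pa m φ) {a b : Fin m} (h : Ind a b) (u : F) (v : Fin m → F) :
    ((xs φ a b u : SL m F) : Matrix (Fin m) (Fin m) F) *ᵥ v =
      v + Pi.single a (u * v b) + Pi.single b.rev (φ u * v a.rev) := by
  rw [xs_mat hp h, add_mulVec, add_mulVec, one_mulVec, single_mulVec, single_mulVec]; rfl

theorem xs_zero (a b : Fin m) : xs φ a b 0 = 1 := by rw [xs, map_zero, x_zero, x_zero, mul_one]; exact su_coe 1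

theorem xs_add (hp : Pa m φ) {a b : Fin m} (h : Ind a b) (u v : F) :
    xs φ a b (u + v) = xs φ a b u * xs φ a b v := Subtype.ext (by
  rw [Subgroup.coe_mul, xs_val hp h, xs_val hp h, xs_val hp h, map_add, x_add, x_add, (h.cm _ _).mul_mul_mul_comm])

theorem xs_sq (hp : Pa m φ) {a b : Fin m} (h : Ind a b) (u : F) : xs φ a b u * xs φ a b u = 1 := by rw [← xs_add hp h, CharTwo.add_self_eq_zero, xs_zero]

theorem xs_inj (hp : Pa m φ) {a b : Fin m} (h : Ind a b) {u v : F} (e : xs φ a b u = xs φ a b v) :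
    u = v := by
  have := (xs_mat hp h u).symm.trans (e ▸ xs_mat hp h v)
  simpa [h.2.1.symm] using congrFun (congrFun this a) b

theorem xs_flip (hp : Pa m φ) {a b : Fin m} (h : Ind a b) (u : F) :
    xs φ b.rev a.rev (φ u) = xs φ a b u := by rw [xs, xs, Fin.rev_rev, Fin.rev_rev, hp.ff, (h.cm _ _).eq]

theorem xs_cmp (hp : Pa m φ) {a b c d : Fin m} (h : Ind a b) (h' : Ind c d) (hc : Cmp a b c d)
    (u v : F) : Commute (xs φ a b u) (xs φ c d v) := Subtype.ext (by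
  obtain ⟨c1, c2, c3, c4⟩ := hc
  rw [Subgroup.coe_mul, Subgroup.coe_mul, xs_val hp h, xs_val hp h']
  exact (((x_comm c2 c3 _ _).mul_right (x_comm c1 c4 _ _)).mul_left ((x_comm (fun e => c4 (by rw [← e, Fin.rev_rev]))
    (fun e => c1 (by rw [← e, Fin.rev_rev])) _ _).mul_right (x_comm (fun e => c3 (Fin.rev_injective e))
    (fun e => c2 (Fin.rev_injective e)) _ _))).eq)

theorem Bas.cm_mul {G : Type*} [Group G] {a a' b b' : G} (h1 : Commute a b') (h2 : Commute a' b)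
    (h3 : Commute a a') (h4 : Commute b b') : ⁅a * a', b * b'⁆ = ⁅a, b⁆ * ⁅a', b'⁆ := by
  have e : Commute (b * a) ⁅a', b'⁆ := by
    simp only [commutatorElement_def]
    exact ((((h2.symm.mul_left h3).mul_right (h4.mul_left h1)).mul_right (h2.symm.mul_left h3).inv_right).mul_right
      (h4.mul_left h1).inv_right)
  calc _ = a * (a' * b) * b' * (b * b' * (a * a'))⁻¹ := by rw [commutatorElement_def]; group
    _ = a * b * (a' * b') * (b * a * (b' * a'))⁻¹ := by rw [h2.eq, ← h1.symm.mul_mul_mul_comm]; group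
    _ = a * b * (⁅a', b'⁆ * (b * a)⁻¹) := by rw [commutatorElement_def]; group
    _ = _ := by rw [← e.inv_left.eq, commutatorElement_def a]; group

theorem xs_tri (hp : Pa m φ) {a b c : Fin m} (h : Ind3 a b c) (u v : F) :
    ⁅xs φ a b u, xs φ b c v⁆ = xs φ a c (u * v) := Subtype.ext (by
  obtain ⟨h1, h2, h3⟩ := h
  rw [← Subgroup.coe_subtype, map_commutatorElement, Subgroup.coe_subtype, xs_val hp h1, xs_val hp h2, xs_val hp h3,
    Bas.cm_mul (x_comm h1.2.1 h2.2.1 _ _) (x_comm h2.rev_left.1 h1.rev_left.1 _ _) (h1.cm _ _) (h2.cm _ _),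
    commutatorElement_def, x_tri h1.1 h2.1 h3.1, ← commutatorElement_inv, commutatorElement_def,
    x_tri h2.ne' h1.ne' h3.ne', x_inv, map_mul, mul_comm (φ v)])

theorem xs_long (hp : Pa m φ) {a b : Fin m} (h : Ind a b) (u v : F) :
    ⁅xs φ a b u, xs φ a b.rev v⁆ = zl φ a (u * φ v + φ u * v) := Subtype.ext (by
  rw [← Subgroup.coe_subtype, map_commutatorElement, Subgroup.coe_subtype, xs_val hp h, xs_val hp h.rev_right,
    (h.rev_right.cm _ _).eq, Fin.rev_rev, zl, su_val (mem_Fx.2 (by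
      rw [Bas.std_x, Fin.rev_rev, map_add, map_mul, map_mul, hp.ff, hp.ff, add_comm])),
    Bas.cm_mul (x_comm h.2.1 h.1.symm _ _) (x_comm h.ne' h.rev_left.1 _ _) (h.cm _ _) (x_comm h.2.2.2 h.2.2.1.symm _ _),
    commutatorElement_def, x_tri h.1 h.symm.2.1 h.2.2.1, ← commutatorElement_inv, commutatorElement_def,
    x_tri h.2.1 h.ne' h.2.2.1, x_inv, x_add, mul_comm v])

theorem fs_xs (hp : Pa m φ) (σ : F ≃+* F) {a b : Fin m} (h : Ind a b) (u : F) :
    fs φ σ (xs φ a b u) = xs φ a b (σ u) := Subtype.ext (by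
  rw [fs_val, xs_val hp h, xs_val hp h, map_mul, fld_x, fld_x]
  exact congrArg (_ * x _ _ ·) (DFunLike.congr_fun (aut_comm σ φ) u))

theorem mem_Xs (hp : Pa m φ) {a b : Fin m} (h : Ind a b) {g : SU m φ} :
    g ∈ Xs φ a b ↔ ∃ u, g = xs φ a b u :=
  ⟨fun hg => closure_induction (fun _ h => h) ⟨0, (xs_zero a b).symm⟩
    (by rintro _ _ - - ⟨u, rfl⟩ ⟨v, rfl⟩; exact ⟨_, (xs_add hp h u v).symm⟩)
    (by rintro _ - ⟨u, rfl⟩; exact ⟨u, inv_eq_of_mul_eq_one_right (xs_sq hp h u)⟩) hg, fun hg => subset_closure hg⟩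

theorem Xs_flip (hp : Pa m φ) {a b : Fin m} (h : Ind a b) : Xs φ b.rev a.rev = Xs φ a b := congrArg Subgroup.closure (Set.ext fun _ =>
  ⟨fun ⟨u, e⟩ => ⟨φ u, by rw [e, ← xs_flip hp h, hp.ff]⟩, fun ⟨u, e⟩ => ⟨φ u, by rw [e, xs_flip hp h]⟩⟩)

theorem zl_val {a : Fin m} (h : a ≠ a.rev) {c : F} (hc : φ c = c) :
    (zl φ a c : SL m F) = x a a.rev c := su_val (mem_Fx.2 (by rw [Bas.std_x, Fin.rev_rev, hc]))

theorem zl_junk {a : Fin m} (h : a ≠ a.rev) {c : F} (hc : φ c ≠ c) : zl φ a c = 1 := dif_neg fun e => hc (x_inj h (by have := mem_Fx.1 e; rwa [Bas.std_x, Fin.rev_rev] at this))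

theorem zl_zero (a : Fin m) : zl φ a 0 = 1 := by rw [zl, x_zero]; exact su_coe 1

theorem zl_add {a : Fin m} (h : a ≠ a.rev) {c d : F} (hc : φ c = c) (hd : φ d = d) :
    zl φ a (c + d) = zl φ a c * zl φ a d := Subtype.ext (by
  rw [Subgroup.coe_mul, zl_val h hc, zl_val h hd, zl_val h (by rw [map_add, hc, hd]), x_add])

theorem zl_sq (a : Fin m) (c : F) : zl φ a c * zl φ a c = 1 := by
  rw [zl, su]
  split_ifs
  exacts [Subtype.ext (x_sq _ _ _), mul_one _]

theorem zl_inj {a : Fin m} (h : a ≠ a.rev) {c d : F} (hc : φ c = c) (hd : φ d = d)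
    (e : zl φ a c = zl φ a d) : c = d := x_inj h (by rw [← zl_val h hc, ← zl_val h hd, e])

theorem zl_ne_one (hp : Pa m φ) : zl φ (0 : Fin m) 1 ≠ 1 := fun e =>
  have h : (0 : Fin m) ≠ Fin.rev 0 := zero_ne_la (by have := hp.six; omega)
  one_ne_zero (zl_inj h (map_one φ) (map_zero φ) (e.trans (zl_zero 0).symm))

theorem tv_single (hp : Pa m φ) {a : Fin m} (h : a ≠ a.rev) (c : F) :
    tv φ (Pi.single a c) = zl φ a (c * φ c) := Subtype.ext (Subtype.ext (by
  rw [tv_val hp (by rw [hf_single_left, Pi.single_eq_of_ne h.symm, map_zero, mul_zero]),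
    zl_val h (by rw [map_mul, hp.ff, mul_comm]), x_val h, Bas.ad_single, single_eq_single_vecMulVec'']
  ext i j; by_cases h1 : i = a <;> by_cases h2 : j = a.rev <;> simp [vecMulVec_apply, h1, h2]))

theorem xs_zl (hp : Pa m φ) {a b r : Fin m} (h : Ind a b) (h1 : r ≠ a.rev) (h2 : r ≠ b) (u c : F) :
    Commute (xs φ a b u) (zl φ r c) := by
  rw [zl, su]
  split_ifs
  · exact Subtype.ext (by
      rw [Subgroup.coe_mul, Subgroup.coe_mul, xs_val hp h]
      exact ((x_comm (fun e => h1 (by rw [e, Fin.rev_rev])) h2.symm _ _).mul_left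
        (x_comm (fun e => h2 (Fin.rev_injective e).symm) h1.symm _ _)).eq)
  · exact Commute.one_right _

theorem fs_zl (σ : F ≃+* F) {a : Fin m} (h : a ≠ a.rev) {c : F} (hc : φ c = c) :
    fs φ σ (zl φ a c) = zl φ a (σ c) := Subtype.ext (by
  rw [fs_val, zl_val h hc, fld_x, zl_val h (c := σ c) ((DFunLike.congr_fun (aut_comm φ σ) c).trans (congrArg σ hc))])

theorem Bas.us_iff (hp : Pa m φ) {o a : Fin m} (ho : o.rev = o) (ha : a ≠ a.rev) {c d : F} :
    x a o c * x o a.rev (φ c) * x a a.rev d ∈ SU m φ ↔ d + φ d = c * φ c := by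
  have h1 : a ≠ o := fun e => ha (by rw [e, ho])
  have h2 : o ≠ a.rev := fun e => h1 (by rw [← ho, e, Fin.rev_rev])
  have e := x_tri h1 h2 ha c (φ c)
  rw [mul_inv_eq_iff_eq_mul, mul_inv_eq_iff_eq_mul] at e
  rw [SU, mem_Fx, map_mul, map_mul, Bas.std_x, Bas.std_x, Bas.std_x, Fin.rev_rev, ho, hp.ff, e,
    (x_comm ha h2.symm _ _).eq, mul_assoc (x o _ _) (x a a.rev _), (x_comm h1 ha.symm _ _).eq, ← mul_assoc, mul_assoc _ (x a a.rev _),
    mul_right_inj, ← x_add]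
  exact ⟨fun h => by rw [x_inj ha h, add_comm, add_assoc, CharTwo.add_self_eq_zero, add_zero],
    fun h => by rw [← h, add_comm d, add_assoc, CharTwo.add_self_eq_zero, add_zero]⟩

theorem us_val (hp : Pa m φ) {o a : Fin m} (ho : o.rev = o) (ha : a ≠ a.rev) {c d : F}
    (h : d + φ d = c * φ c) :
    (us φ o a c d : SL m F) = x a o c * x o a.rev (φ c) * x a a.rev d := su_val ((Bas.us_iff hp ho ha).2 h)

theorem us_junk (hp : Pa m φ) {o a : Fin m} (ho : o.rev = o) (ha : a ≠ a.rev) {c d : F}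
    (h : d + φ d ≠ c * φ c) : us φ o a c d = 1 := dif_neg (mt (Bas.us_iff hp ho ha).1 h)

theorem us_mulVec (hp : Pa m φ) {o a : Fin m} (ho : o.rev = o) (ha : a ≠ a.rev) {c d : F}
    (h : d + φ d = c * φ c) (v : Fin m → F) :
    ((us φ o a c d : SL m F) : Matrix (Fin m) (Fin m) F) *ᵥ v =
      v + Pi.single a (c * v o + φ d * v a.rev) + Pi.single o (φ c * v a.rev) := by
  have h1 : a ≠ o := fun e => ha (by rw [e, ho])
  have h2 : o ≠ a.rev := fun e => h1 (by rw [← ho, e, Fin.rev_rev])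
  rw [us_val hp ho ha h, Matrix.SpecialLinearGroup.coe_mul, Matrix.SpecialLinearGroup.coe_mul, ← mulVec_mulVec,
    ← mulVec_mulVec, Bas.x_mulVec ha, Bas.x_mulVec h2, Bas.x_mulVec h1]
  simp only [Pi.add_apply, Pi.single_eq_of_ne ha.symm, Pi.single_eq_of_ne h1.symm, Pi.single_eq_same, add_zero]
  rw [add_right_comm, add_assoc v, ← Pi.single_add]
  congr 3
  linear_combination v a.rev * h - (φ d * v a.rev) * (CharTwo.two_eq_zero (R := F)) + (c * φ c * v a.rev) * (CharTwo.two_eq_zero (R := F))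

end CL.UM
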