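import Cfsg.Agent.INV.UM.Wey

/-!
The block groups `AA` and `QW`.
-/

set_option autoImplicit false
set_option linter.unusedSectionVars false
set_option linter.unusedVariables false

namespace CL.UM

open Matrix Subgroup CL.SC
open scoped commutatorElement

variable {m : ℕ} [NeZero m] {F : Type*} [Field F] [Finite F] [CharP F 2] {φ : F ≃+* F}

namespace Blk

theorem lo_rev {i : Fin m} : Lo i.rev ↔ m - m / 2 ≤ (i : ℕ) := by
  have := i.2
  rw [Lo, Fin.val_rev]; omega

theorem hs0 : ∀ i j k : Fin m, ((i : ℕ) < m / 2 ∧ m - m / 2 ≤ (j : ℕ)) →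
    ¬ ((j : ℕ) < m / 2 ∧ m - m / 2 ≤ (k : ℕ)) := fun _ _ _ _ _ => by omega

theorem one_rev {i j : Fin m} (hi : Lo i) (hj : Lo j) : (1 : Matrix (Fin m) (Fin m) F) i j.rev = 0 :=
  one_apply_ne (hi.ne_rev hj)

theorem phi_one (σ : F ≃+* F) (i j : Fin m) :
    σ ((1 : Matrix (Fin m) (Fin m) F) i j) = (1 : Matrix (Fin m) (Fin m) F) i j := by
  rw [one_apply]; split_ifs <;> simp

/-- `g - 1` -/
def NN (g : SU m φ) : Matrix (Fin m) (Fin m) F := ((g : SL m F) : Matrix (Fin m) (Fin m) F) - 1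

theorem val_eq (g : SU m φ) : ((g : SL m F) : Matrix (Fin m) (Fin m) F) = 1 + NN g :=
  (add_sub_cancel _ _).symm

theorem val_mul (g g' : SU m φ) : ((g * g' : SU m φ) : SL m F).1 = (g : SL m F).1 * (g' : SL m F).1 := rfl

theorem NN_zero {g : SU m φ} {i j : Fin m} :
    NN g i j = 0 ↔ (g : SL m F) i j = (1 : Matrix (Fin m) (Fin m) F) i j := sub_eq_zero

theorem NN_ext {g g' : SU m φ} (h : NN g = NN g') : g = g' :=
  Subtype.ext (Subtype.ext (sub_left_injective h))

theorem NN_mul (g g' : SU m φ) : NN (g * g') = NN g + NN g' + NN g * NN g' := by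
  rw [NN, val_mul, val_eq g, val_eq g']; noncomm_ring

theorem NN_en (a : SU m φ) {i j : Fin m} (hi : Lo i) (hj : Lo j) : NN a i j.rev = en a i j := by
  rw [NN, Matrix.sub_apply, one_rev hi hj, sub_zero, en]

/-- the level: `0` on `Wv`, `1` in the middle, `2` above -/
def lv (i : Fin m) : ℕ := if Lo i then 0 else if Lo i.rev then 2 else 1

theorem lv_spec (i : Fin m) : (Lo i ∧ ¬ Lo i.rev ∧ lv i = 0) ∨ (¬ Lo i ∧ Lo i.rev ∧ lv i = 2) ∨
    (¬ Lo i ∧ ¬ Lo i.rev ∧ lv i = 1 ∧ i.rev = i) := by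
  unfold lv
  by_cases h : Lo i
  · exact .inl ⟨h, h.rev, if_pos h⟩
  · by_cases h' : Lo i.rev
    · exact .inr (.inl ⟨h, h', by rw [if_neg h, if_pos h']⟩)
    · exact .inr (.inr ⟨h, h', by rw [if_neg h, if_neg h'], ((lo_or i).resolve_left h).resolve_left h'⟩)

theorem lv0 {i : Fin m} : Lo i ↔ lv i = 0 := by rcases lv_spec i with h | h | h <;> simp [h]

theorem lv2 {i : Fin m} : Lo i.rev ↔ lv i = 2 := by rcases lv_spec i with h | h | h <;> simp [h]

theorem lv1 {i : Fin m} : i.rev = i ↔ lv i = 1 := by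
  rcases lv_spec i with h | h | h
  exacts [iff_of_false (fun e => h.2.1 (e.symm ▸ h.1)) (by omega),
    iff_of_false (fun e => h.1 (e ▸ h.2.1)) (by omega), iff_of_true h.2.2.2 h.2.2.1]

theorem lv_le (i : Fin m) : lv i ≤ 2 := by rcases lv_spec i with h | h | h <;> simp [h]

/-- entries vanish unless the level increases by at least `n` -/
def Up (n : ℕ) (N : Matrix (Fin m) (Fin m) F) : Prop := ∀ i j, lv j < lv i + n → N i j = 0

theorem Up.mul {n n' : ℕ} {N N' : Matrix (Fin m) (Fin m) F} (h : Up n N) (h' : Up n' N') :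
    Up (n + n') (N * N') := fun i j k => by
  rw [Matrix.mul_apply]
  refine Finset.sum_eq_zero fun l _ => ?_
  by_cases e : lv l < lv i + n
  · rw [h i l e, zero_mul]
  · rw [h' l j (by omega), mul_zero]

theorem Up.add {n : ℕ} {N N' : Matrix (Fin m) (Fin m) F} (h : Up n N) (h' : Up n N') :
    Up n (N + N') := fun i j k => by rw [Matrix.add_apply, h i j k, h' i j k, add_zero]

theorem Up.mono {n n' : ℕ} {N : Matrix (Fin m) (Fin m) F} (h : Up n N) (e : n' ≤ n) : Up n' N :=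
  fun i j k => h i j (by omega)

end Blk

open Blk

theorem mem_AA {a : SU m φ} : a ∈ AA m φ ↔
    ∀ i j, ¬ (Lo i ∧ Lo j) → en a i j = (1 : Matrix (Fin m) (Fin m) F) i j.rev := by
  refine mem_A0.trans ⟨fun h i j n => h i j.rev (by rwa [← Blk.lo_rev, Fin.rev_rev]), fun h i j n => ?_⟩
  have := h i j.rev (by rwa [Blk.lo_rev])
  rwa [en, Fin.rev_rev] at this

theorem Blk.AA_up {a : SU m φ} : a ∈ AA m φ ↔ Up 2 (NN a) := by
  refine mem_A0.trans (forall₂_congr fun i j => ?_)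
  have := lv_le j
  rw [← lo_rev, ← Lo, lv0, lv2, NN_zero]
  exact ⟨fun h k => h (by omega), fun h k => h (by omega)⟩

theorem el_AA : El (AA m φ) := fun e he => Subtype.ext (el_Pat hs0 (e : SL m F) he :)

theorem AA_comm {a b : SU m φ} (ha : a ∈ AA m φ) (hb : b ∈ AA m φ) : Commute a b := Subtype.ext (Pat_comm hs0 ha hb)

theorem AA_le_QW : AA m φ ≤ QW m φ := fun _ h => mem_sup_left ((A0_eq.le h).1)

theorem QW_le_UU : QW m φ ≤ UU m φ := fun _ h => sup_le (A_le_U _) (A_le_U _) h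

theorem AA_le_UU : AA m φ ≤ UU m φ := AA_le_QW.trans QW_le_UU

theorem pgroup_UU : IsPGroup 2 (UU m φ) := pgroup_U.comap_subtype

theorem AA_ext {a b : SU m φ} (ha : a ∈ AA m φ) (hb : b ∈ AA m φ)
    (h : ∀ i j, Lo i → Lo j → en a i j = en b i j) : a = b := by
  refine Subtype.ext (Subtype.ext (Matrix.ext fun i j => ?_))
  rw [← Fin.rev_rev j]
  by_cases k : Lo i ∧ Lo j.rev
  exacts [h _ _ k.1 k.2, (mem_AA.1 ha _ _ k).trans (mem_AA.1 hb _ _ k).symm]

theorem en_one {i j : Fin m} (hi : Lo i) (hj : Lo j) : en (1 : SU m φ) i j = 0 := one_rev hi hj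

theorem en_mul {a b : SU m φ} (ha : a ∈ AA m φ) (hb : b ∈ AA m φ) {i j : Fin m} (hi : Lo i)
    (hj : Lo j) : en (a * b) i j = en a i j + en b i j := by
  rw [← NN_en _ hi hj, NN_mul, Matrix.add_apply, Matrix.add_apply, NN_en _ hi hj, NN_en _ hi hj,
    (AA_up.1 ha).mul (AA_up.1 hb) _ _ (by have := lv_le j.rev; omega), add_zero]

theorem en_herm {a : SU m φ} (ha : a ∈ AA m φ) {i j : Fin m} (hi : Lo i) (hj : Lo j) :
    φ (en a i j) = en a j i := by
  have := mem_SU'.1 a.2 j i.rev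
  rwa [Fin.rev_rev, ← coe_inv, inv_eq_of_mul_eq_one_right (el_AA a ha)] at this

theorem exists_en (hp : Pa m φ) (M : Fin m → Fin m → F)
    (h : ∀ i j, Lo i → Lo j → φ (M i j) = M j i) :
    ∃ a ∈ AA m φ, ∀ i j, Lo i → Lo j → en a i j = M i j := by
  let N : Matrix (Fin m) (Fin m) F := fun i j => if Lo i ∧ Lo j.rev then M i j.rev else 0
  have s : Sup (fun i j : Fin m => (i : ℕ) < m / 2 ∧ m - m / 2 ≤ (j : ℕ)) N :=
    fun i j k => if_neg (by rwa [lo_rev])
  have k : un (1 + N) ∈ A0 m F := (mem_Pat' hs0).2 ⟨N, s, rfl⟩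
  have v : ∀ i j, (un (1 + N) : SL m F) i j = (1 + N) i j := fun i j => congrFun (congrFun (s.val hs0) i) j
  refine ⟨⟨un (1 + N), mem_SU'.2 fun i j => ?_⟩, k, fun i j hi hj => ?_⟩
  · rw [inv_eq_of_mul_eq_one_right (el_Pat hs0 _ k), v, v, Matrix.add_apply, Matrix.add_apply, map_add, phi_one]
    congr 1
    · simp [one_apply, eq_comm]
    · simp only [N, Fin.rev_rev, and_comm]
      split_ifs with e
      exacts [h _ _ e.2 e.1, map_zero _]
  · rw [en, v, Matrix.add_apply, one_rev hi hj, zero_add]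
    simp only [N, Fin.rev_rev, hi, hj, and_self, if_true]

/-- `a ↦ a * (std φ true a)` maps `A0` onto `AA` (`exists_trace`); or: `(a, b) ↦ a + θ b` is a
bijection from pairs of hermitian matrices to matrices, `card_Pat` -/
theorem card_AA (hp : Pa m φ) : Nat.card (AA m φ) = qa m F := by
  obtain ⟨θ, hθ⟩ := hp.th
  have t : φ θ = 1 + θ := by rw [← hθ, add_right_comm, CharTwo.add_self_eq_zero, zero_add]
  have b : Function.Bijective fun (p : AA m φ × AA m φ) (r : {i : Fin m // Lo i} × {i : Fin m // Lo i}) =>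
      en p.1.1 r.1 r.2 + θ * en p.2.1 r.1 r.2 := by
    refine ⟨fun ⟨a, b⟩ ⟨a', b'⟩ e => ?_, fun M => ?_⟩
    · have k : ∀ i j, Lo i → Lo j → en a.1 i j = en a'.1 i j ∧ en b.1 i j = en b'.1 i j := fun i j hi hj => by
        have h1 := congrFun e (⟨i, hi⟩, ⟨j, hj⟩)
        have h2 := congrArg φ (congrFun e (⟨j, hj⟩, ⟨i, hi⟩))
        simp only [map_add, map_mul, en_herm a.2 hj hi, en_herm b.2 hj hi, en_herm a'.2 hj hi,
          en_herm b'.2 hj hi, t] at h1 h2
        have h3 : en b.1 i j = en b'.1 i j := by linear_combination h2 - h1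
        exact ⟨by linear_combination h1 - θ * h3, h3⟩
      exact Prod.ext (Subtype.ext (AA_ext a.2 a'.2 fun i j hi hj => (k i j hi hj).1))
        (Subtype.ext (AA_ext b.2 b'.2 fun i j hi hj => (k i j hi hj).2))
    · let M' : Fin m → Fin m → F := fun i j => if h : Lo i ∧ Lo j then M (⟨i, h.1⟩, ⟨j, h.2⟩) else 0
      have h2 : (2 : F) = 0 := CharTwo.two_eq_zero
      obtain ⟨b, hb, eb⟩ := exists_en hp (fun i j => M' i j + φ (M' j i)) fun i j _ _ => by
        rw [map_add, hp.ff, add_comm]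
      obtain ⟨a, ha, ea⟩ := exists_en hp (fun i j => M' i j + θ * (M' i j + φ (M' j i))) fun i j _ _ => by
        rw [map_add, map_mul, map_add, hp.ff, t]; linear_combination φ (M' i j) * h2
      refine ⟨(⟨a, ha⟩, ⟨b, hb⟩), funext fun ⟨⟨i, hi⟩, ⟨j, hj⟩⟩ => ?_⟩
      have : M' i j = M (⟨i, hi⟩, ⟨j, hj⟩) := dif_pos ⟨hi, hj⟩
      simp only [ea i j hi hj, eb i j hi hj, ← this]
      linear_combination θ * (M' i j + φ (M' j i)) * h2
  have := Nat.card_eq_of_bijective _ b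
  rw [Nat.card_prod, Nat.card_fun, Nat.card_prod, hp.card,
    show Nat.card {i : Fin m // Lo i} = m / 2 from card_lt (Nat.div_le_self _ _), ← pow_mul, mul_comm 2,
    pow_mul, ← sq] at this
  exact Nat.pow_left_injective two_ne_zero this

theorem Blk.up_vv {v w : Fin m → F} (hv : v ∈ Wv m F) (hw : w ∈ Wv m F) :
    Up 2 (vecMulVec v (ad φ w)) := fun i j k => by
  have := lv_le j
  rw [vecMulVec_apply, ad]
  by_cases e : Lo i
  · rw [mem_Wv.1 hw _ (by rw [lv2]; rw [lv0] at e; omega), map_zero, mul_zero]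
  · rw [mem_Wv.1 hv _ e, zero_mul]

theorem tv_mem (hp : Pa m φ) {v : Fin m → F} (hv : v ∈ Wv m F) : tv φ v ∈ AA m φ := AA_up.2 (by
  rw [NN, tv_val hp (hf_W hv hv), add_sub_cancel_left]; exact up_vv hv hv)

theorem pr_mem (hp : Pa m φ) {v w : Fin m → F} (hv : v ∈ Wv m F) (hw : w ∈ Wv m F) :
    pr φ v w ∈ AA m φ := AA_up.2 (by
  rw [NN, pr_val hp hv hw, add_assoc, add_sub_cancel_left]; exact (up_vv hv hw).add (up_vv hw hv))

theorem en_tv (hp : Pa m φ) {v : Fin m → F} (hv : v ∈ Wv m F) {i j : Fin m} (hi : Lo i) (hj : Lo j) :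
    en (tv φ v) i j = v i * φ (v j) := by
  rw [← NN_en _ hi hj, NN, tv_val hp (hf_W hv hv), add_sub_cancel_left, vecMulVec_apply, ad, Fin.rev_rev]

theorem en_pr (hp : Pa m φ) {v w : Fin m → F} (hv : v ∈ Wv m F) (hw : w ∈ Wv m F) {i j : Fin m}
    (hi : Lo i) (hj : Lo j) : en (pr φ v w) i j = v i * φ (w j) + w i * φ (v j) := by
  rw [← NN_en _ hi hj, NN, pr_val hp hv hw, add_assoc, add_sub_cancel_left, Matrix.add_apply, vecMulVec_apply,
    vecMulVec_apply, ad, ad, Fin.rev_rev]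

theorem xs_mem_AA (hp : Pa m φ) {i j : Fin m} (hi : Lo i) (hj : Lo j) (h : i ≠ j) (u : F) :
    xs φ i j.rev u ∈ AA m φ := by
  refine mem_subgroupOf.2 ?_
  rw [xs_val hp (Ind.of_lo hi hj h).2, Fin.rev_rev]
  exact mul_mem (x_mem ⟨hi, lo_rev.1 (by rwa [Fin.rev_rev])⟩ _) (x_mem ⟨hj, lo_rev.1 (by rwa [Fin.rev_rev])⟩ _)

theorem en_xs (hp : Pa m φ) {i j : Fin m} (hi : Lo i) (hj : Lo j) (h : i ≠ j) (u : F) {r s : Fin m}
    (hr : Lo r) (hs : Lo s) : en (xs φ i j.rev u) r s =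
      if r = i ∧ s = j then u else if r = j ∧ s = i then φ u else 0 := by
  rw [← NN_en _ hr hs, NN, xs_mat hp (Ind.of_lo hi hj h).2, add_assoc, add_sub_cancel_left, Matrix.add_apply,
    Fin.rev_rev, single_apply, single_apply]
  simp only [Fin.rev_inj, eq_comm (a := r), eq_comm (a := s)]
  split_ifs with h1 h2
  exacts [(h (h1.1.trans h2.1.symm)).elim, add_zero _, zero_add _, add_zero _]

theorem mem_Xs_en (hp : Pa m φ) {i j : Fin m} (hi : Lo i) (hj : Lo j) (h : i ≠ j) {a : SU m φ} :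
    a ∈ Xs φ i j.rev ↔ a ∈ AA m φ ∧ ∀ r s, Lo r → Lo s → ¬ (r = i ∧ s = j) → ¬ (r = j ∧ s = i) →
      en a r s = 0 := by
  rw [mem_Xs hp (Ind.of_lo hi hj h).2]
  refine ⟨?_, fun ⟨ha, k⟩ => ⟨en a i j, AA_ext ha (xs_mem_AA hp hi hj h _) fun r s hr hs => ?_⟩⟩
  · rintro ⟨u, rfl⟩
    exact ⟨xs_mem_AA hp hi hj h _, fun r s hr hs h1 h2 => by rw [en_xs hp hi hj h u hr hs, if_neg h1, if_neg h2]⟩
  · rw [en_xs hp hi hj h _ hr hs]
    split_ifs with h1 h2
    exacts [by rw [h1.1, h1.2], by rw [h2.1, h2.2, en_herm ha hi hj], k r s hr hs h1 h2]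

theorem zl_mem_AA {i : Fin m} (hi : Lo i) (c : F) : zl φ i c ∈ AA m φ := by
  by_cases hc : φ c = c
  · refine mem_subgroupOf.2 ?_
    rw [zl_val (hi.ne_rev hi) hc]
    exact x_mem ⟨hi, lo_rev.1 (by rwa [Fin.rev_rev])⟩ _
  · rw [zl_junk (hi.ne_rev hi) hc]; exact one_mem _

theorem en_zl {i : Fin m} (hi : Lo i) {c : F} (hc : φ c = c) {r s : Fin m} (hr : Lo r) (hs : Lo s) :
    en (zl φ i c) r s = if r = i ∧ s = i then c else 0 := by
  rw [← NN_en _ hr hs, NN, zl_val (hi.ne_rev hi) hc, x_val (hi.ne_rev hi), add_sub_cancel_left, single_apply]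
  simp only [Fin.rev_inj, eq_comm]

theorem AA_gen (hp : Pa m φ) {K : Subgroup (SU m φ)} (h1 : ∀ i c, Lo i → φ c = c → zl φ i c ∈ K)
    (h2 : ∀ i j u, Lo i → Lo j → i ≠ j → xs φ i j.rev u ∈ K) : AA m φ ≤ K := by
  have k : ∀ M : Matrix (Fin m) (Fin m) F, ∀ a ∈ AA m φ,
      (∀ i j, Lo i → Lo j → en a i j = M i j + φ (M j i)) → a ∈ K := fun M => by
    induction M using Matrix.induction_on' with
    | h_zero => exact fun a ha e => AA_ext (one_mem _) ha (fun i j hi hj => by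
        rw [e i j hi hj, en_one hi hj]; simp) ▸ one_mem K
    | h_add M M' ih ih' =>
      intro a ha e
      obtain ⟨b, hb, eb⟩ := exists_en hp (fun i j => M i j + φ (M j i)) fun i j _ _ => by
        rw [map_add, hp.ff, add_comm]
      obtain ⟨b', hb', eb'⟩ := exists_en hp (fun i j => M' i j + φ (M' j i)) fun i j _ _ => by
        rw [map_add, hp.ff, add_comm]
      rw [AA_ext ha (mul_mem hb hb') fun i j hi hj => by
        rw [en_mul hb hb' hi hj, e i j hi hj, eb i j hi hj, eb' i j hi hj, Matrix.add_apply, Matrix.add_apply, map_add]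
        ring]
      exact mul_mem (ih b hb eb) (ih' b' hb' eb')
    | h_std_basis r s u =>
      intro a ha e
      simp only [single_apply] at e
      by_cases l : Lo r ∧ Lo s
      · by_cases rs : r = s
        · subst rs
          have hc : φ (u + φ u) = u + φ u := by rw [map_add, hp.ff, add_comm]
          rw [AA_ext ha (zl_mem_AA l.1 (u + φ u)) fun i j hi hj => by
            rw [e i j hi hj, en_zl l.1 hc hi hj]
            simp only [eq_comm (a := r), and_comm (a := j = r)]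
            split_ifs
            exacts [rfl, by rw [map_zero, add_zero]]]
          exact h1 _ _ l.1 hc
        · rw [AA_ext ha (xs_mem_AA hp l.1 l.2 rs u) fun i j hi hj => by
            rw [e i j hi hj, en_xs hp l.1 l.2 rs u hi hj]
            simp only [eq_comm (a := r), eq_comm (a := s), and_comm (a := j = r)]
            split_ifs with k1 k2
            exacts [(rs (k1.1.symm.trans k2.1)).elim, by rw [map_zero, add_zero], zero_add _,
              by rw [map_zero, add_zero]]]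
          exact h2 _ _ _ l.1 l.2 rs
      · rw [AA_ext ha (one_mem _) fun i j hi hj => by
          rw [e i j hi hj, en_one hi hj, if_neg fun k => l (by rw [k.1, k.2]; exact ⟨hi, hj⟩),
            if_neg fun k => l (by rw [k.1, k.2]; exact ⟨hj, hi⟩), map_zero, add_zero]]
        exact one_mem _
  obtain ⟨θ, hθ⟩ := hp.th
  refine fun a ha => k (fun i j => θ * en a i j) a ha fun i j hi hj => ?_
  rw [map_mul, en_herm ha hj hi, ← add_mul, hθ, one_mul]

/-- `g` stabilises `Wv` -/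
def Sw (g : GL (Fin m) F) : Prop := ∀ v ∈ Wv m F, (g : Matrix (Fin m) (Fin m) F) *ᵥ v ∈ Wv m F

theorem Sw.mul {g g' : GL (Fin m) F} (h : Sw g) (h' : Sw g') : Sw (g * g') := fun v hv => by
  rw [Units.val_mul, ← mulVec_mulVec]; exact h _ (h' v hv)

theorem Sw.inv {g : GL (Fin m) F} (h : Sw g) : Sw g⁻¹ := fun v hv => by
  have e : ∀ u : Fin m → F, ((g⁻¹ : GL (Fin m) F) : Matrix (Fin m) (Fin m) F) *ᵥ
      ((g : Matrix (Fin m) (Fin m) F) *ᵥ u) = u := fun u => by rw [mulVec_mulVec, Units.inv_mul, one_mulVec]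
  obtain ⟨w, hw, rfl⟩ := (((Set.toFinite (Wv m F : Set (Fin m → F))).injOn_iff_bijOn_of_mapsTo h).1
    fun u _ u' _ k => by rw [← e u, show _ *ᵥ u = _ from k, e]).surjOn hv
  rwa [e]

theorem GUm.inv_apply {g : GL (Fin m) F} (hg : GUm φ g) (s j : Fin m) :
    ((g⁻¹ : GL (Fin m) F) : Matrix (Fin m) (Fin m) F) s.rev j.rev =
      φ ((g : Matrix (Fin m) (Fin m) F) j s) := by
  have := congrFun (hg.ad (Pi.single s 1)) j.rev
  rw [show CL.UM.ad φ (Pi.single s (1 : F)) = Pi.single s.rev 1 from funext fun l => by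
    simp [CL.UM.ad, Pi.single_apply, apply_ite φ, Fin.rev_eq_iff], single_one_vecMul, CL.UM.ad,
    Fin.rev_rev, mulVec_single_one] at this
  exact this.symm

theorem Sw.zero {g : GL (Fin m) F} (h : Sw g) {i j : Fin m} (hi : ¬ Lo i) (hj : Lo j) :
    (g : Matrix (Fin m) (Fin m) F) i j = 0 := by
  have := mem_Wv.1 (h _ (single_mem_Wv hj 1)) i hi
  rwa [mulVec_single_one] at this

theorem Sw.up {g : GL (Fin m) F} (h : Sw g) (hg : GUm φ g) : Up 0 (g : Matrix (Fin m) (Fin m) F) :=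
  fun i j k => by
    have := lv_le i
    by_cases e : Lo j
    · exact h.zero (by rw [lv0]; omega) e
    · refine φ.injective ?_
      rw [lv0] at e
      rw [← hg.inv_apply, h.inv.zero (by rw [lv2]; omega) (by rw [lv2]; omega), map_zero]

theorem Blk.NN_inn {g : GL (Fin m) F} {a b : SU m φ} (hb : (b : SL m F) = inn g (a : SL m F)) :
    NN b = (g : Matrix (Fin m) (Fin m) F) * NN a * ((g⁻¹ : GL (Fin m) F) : Matrix (Fin m) (Fin m) F) := by
  rw [NN, NN, hb, inn_val, Matrix.mul_sub, Matrix.sub_mul, Matrix.mul_one, Units.mul_inv]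

theorem Blk.en_inn' {g : GL (Fin m) F} (hg : GUm φ g) {a b : SU m φ}
    (hb : (b : SL m F) = inn g (a : SL m F)) {i j : Fin m} (hi : Lo i) (hj : Lo j) :
    en b i j = ∑ r, ∑ s, (g : Matrix (Fin m) (Fin m) F) i r * NN a r s.rev *
      φ ((g : Matrix (Fin m) (Fin m) F) j s) := by
  rw [← NN_en _ hi hj, NN_inn hb, Matrix.mul_apply, Finset.sum_comm, ← Equiv.sum_comp Fin.revPerm]
  refine Finset.sum_congr rfl fun s _ => ?_
  rw [Matrix.mul_apply, Finset.sum_mul, Fin.revPerm_apply, hg.inv_apply]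

/-- `a - 1 = Σ en a r s • vecMulVec (e r) (ad (e s))`, `GUm.ad` -/
theorem en_inn (hp : Pa m φ) {g : GL (Fin m) F} (hg : GUm φ g) (hs : Sw g) {a b : SU m φ}
    (ha : a ∈ AA m φ) (hb : (b : SL m F) = inn g (a : SL m F)) : b ∈ AA m φ ∧ ∀ i j, Lo i → Lo j →
      en b i j = ∑ r, ∑ s, if Lo r ∧ Lo s then (g : Matrix (Fin m) (Fin m) F) i r * en a r s *
        φ ((g : Matrix (Fin m) (Fin m) F) j s) else 0 := by
  refine ⟨AA_up.2 (NN_inn hb ▸ ((hs.up hg).mul (AA_up.1 ha)).mul (hs.inv.up hg.inv)), fun i j hi hj => ?_⟩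
  rw [en_inn' hg hb hi hj]
  refine Finset.sum_congr rfl fun r _ => Finset.sum_congr rfl fun s _ => ?_
  split_ifs with e
  · rw [NN_en _ e.1 e.2]
  · rw [NN_zero.2 (mem_AA.1 ha r s e), mul_zero, zero_mul]

theorem en_fs (σ : F ≃+* F) (a : SU m φ) (i j : Fin m) : en (fs φ σ a) i j = σ (en a i j) := rfl

theorem fs_mem_AA (σ : F ≃+* F) {a : SU m φ} (h : a ∈ AA m φ) : fs φ σ a ∈ AA m φ := mem_AA.2 fun i j k => by
  rw [en_fs, mem_AA.1 h i j k, phi_one]

theorem fs_mem_QW (σ : F ≃+* F) {a : SU m φ} (h : a ∈ QW m φ) : fs φ σ a ∈ QW m φ := by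
  have : (A m F (m / 2) ⊔ A m F (m - m / 2)).map (fld σ : MulAut (SL m F)).toMonoidHom =
      A m F (m / 2) ⊔ A m F (m - m / 2) := by rw [Subgroup.map_sup, A, A, map_Pat_fld, map_Pat_fld]
  exact this.le (mem_map_of_mem _ h)

theorem fs_mem_UU (σ : F ≃+* F) {a : SU m φ} (h : a ∈ UU m φ) : fs φ σ a ∈ UU m φ := (map_Pat_fld σ _).le (mem_map_of_mem _ h)

theorem Blk.QW_up {g : SU m φ} : g ∈ QW m φ ↔ Up 1 (NN g) := by
  have k : ∀ {a : SL m F}, a ∈ A m F (m / 2) ∨ a ∈ A m F (m - m / 2) → Up 1 (a.1 - 1) := by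
    rintro a (h | h) i j e <;> refine sub_eq_zero.2 (mem_A.1 h i j ?_)
    · rw [← Lo, ← not_lt, ← Lo, lv0, lv0]; omega
    · have := lv_le i
      rw [← lo_rev, ← not_le, ← lo_rev, lv2, lv2]; omega
  refine ⟨fun h => ?_, fun h => ?_⟩
  · obtain ⟨a, ha, b, hb, e⟩ := (coe_mul_of_left_le_normalizer_right _ _
      ((A_le_U _).trans (U_norm_A _))).le h
    have : NN g = a.1 - 1 + (b.1 - 1) + (a.1 - 1) * (b.1 - 1) := by
      rw [NN, show (g : SL m F).1 = a.1 * b.1 from congrArg Subtype.val e.symm]; noncomm_ring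
    exact this ▸ ((k (.inl ha)).add (k (.inr hb))).add (((k (.inl ha)).mul (k (.inr hb))).mono one_le_two)
  · let N : Matrix (Fin m) (Fin m) F := of fun i j => if Lo i then NN g i j else 0
    let M : Matrix (Fin m) (Fin m) F := of fun i j => if Lo i then 0 else NN g i j
    have sN : Sup (fun i j : Fin m => (i : ℕ) < m / 2 ∧ m / 2 ≤ (j : ℕ)) N := fun i j e => by
      beta_reduce at e
      rw [← Lo, ← not_lt, ← Lo, lv0, lv0] at e
      exact ite_eq_right_iff.2 fun l => h i j (by rw [lv0] at l; omega)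
    have sM : Sup (fun i j : Fin m => (i : ℕ) < m - m / 2 ∧ m - m / 2 ≤ (j : ℕ)) M := fun i j e => by
      have := lv_le j
      beta_reduce at e
      rw [← lo_rev, ← not_le, ← lo_rev, lv2, lv2] at e
      exact ite_eq_left_iff.2 fun l => h i j (by rw [lv0] at l; omega)
    have e : (g : SL m F) = un (1 + M) * un (1 + N) := Subtype.ext (by
      have z : M * N = 0 := Matrix.ext fun i j => Matrix.mul_apply.trans <| Finset.sum_eq_zero fun l _ => by
        by_cases e : Lo l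
        · rw [sM i l (by rw [Lo] at e; omega), zero_mul]
        · rw [show N l j = 0 from if_neg e, mul_zero]
      have y : NN g = M + N := Matrix.ext fun i j => by
        simp only [Matrix.add_apply, M, N, of_apply]; split_ifs <;> simp
      rw [show (un (1 + M) * un (1 + N) : SL m F).1 = (un (1 + M) : SL m F).1 * (un (1 + N) : SL m F).1 from rfl,
        sN.val fun _ _ _ _ _ => by omega, sM.val fun _ _ _ _ _ => by omega, val_eq, y, add_mul, mul_add, mul_add,
        z, mul_one, mul_one, one_mul]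
      abel)
    refine mem_subgroupOf.2 (e ▸ mul_mem (mem_sup_right ?_) (mem_sup_left ?_))
    exacts [(mem_Pat' fun _ _ _ _ _ => by omega).2 ⟨M, sM, rfl⟩, (mem_Pat' fun _ _ _ _ _ => by omega).2 ⟨N, sN, rfl⟩]

/-- `QW` consists of the elements which are trivial on `Wv`, `Wv^⊥ / Wv`, `V / Wv^⊥`.  An element
of `A k ⊔ A (m - k)` has this block form (`A (m - k)` is normalised by `A k`), and conversely. -/
theorem mem_QW (hp : Pa m φ) {g : SU m φ} : g ∈ QW m φ ↔ ∀ i j : Fin m,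
    ¬ ((Lo i ∧ ¬ Lo j) ∨ (¬ Lo i.rev ∧ Lo j.rev)) →
      (g : SL m F) i j = (1 : Matrix (Fin m) (Fin m) F) i j := by
  refine QW_up.trans (forall₂_congr fun i j => ?_)
  have := lv_le i
  have := lv_le j
  rw [lv0, lv0, lv2, lv2, NN_zero]
  exact ⟨fun h k => h (by omega), fun h k => h (by omega)⟩

theorem Blk.nv_even (he : ∀ o : Fin m, o.rev ≠ o) (g : SU m φ) : nv g = 0 := funext fun i => by
  simp [nv, he]

theorem Blk.nv_mid {o : Fin m} (ho : o.rev = o) (g : SU m φ) (i : Fin m) :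
    nv g i = if Lo i then (g : SL m F) i o else 0 := by
  rw [nv, Finset.sum_eq_single o (fun b _ n => if_neg fun e => n (mid_unique e ho))
    fun n => (n (Finset.mem_univ _)).elim, if_pos ho]
  rfl

theorem Blk.nv_col {o : Fin m} (ho : o.rev = o) {g : SU m φ} (h : g ∈ QW m φ) (i : Fin m) :
    nv g i = NN g i o := by
  have := lv1.1 ho
  rw [nv_mid ho]
  split_ifs with e
  · rw [NN, Matrix.sub_apply, one_apply_ne (ho ▸ fun k => e.rev (k ▸ ho.symm ▸ (k ▸ e))), sub_zero]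
  · exact (QW_up.1 h i o (by rw [lv0] at e; omega)).symm

theorem Blk.inn_QW {g : GL (Fin m) F} (hg : GUm φ g) (hs : Sw g) {a b : SU m φ}
    (ha : a ∈ QW m φ) (hb : (b : SL m F) = inn g (a : SL m F)) : b ∈ QW m φ ∧ ∀ o : Fin m, o.rev = o →
      nv b = ((g⁻¹ : GL (Fin m) F) : Matrix (Fin m) (Fin m) F) o o •
        ((g : Matrix (Fin m) (Fin m) F) *ᵥ nv a) := by
  have u := (hs.up hg).mul (QW_up.1 ha)
  have k := QW_up.2 (NN_inn hb ▸ u.mul (hs.inv.up hg.inv))
  refine ⟨k, fun o ho => funext fun i => ?_⟩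
  have := lv1.1 ho
  rw [nv_col ho k, NN_inn hb, Matrix.mul_apply, Finset.sum_eq_single o (fun s _ n => ?_)
    fun n => (n (Finset.mem_univ _)).elim, Pi.smul_apply, smul_eq_mul, mul_comm, funext (nv_col ho ha)]
  · rfl
  · rcases lv_spec s with l | l | l
    exacts [mul_eq_zero_of_left (u i s (by omega)) _, mul_eq_zero_of_right _ (hs.inv.up hg.inv s o (by omega)),
      (n (mid_unique l.2.2.2 ho)).elim]

theorem inn_mem_QW (hp : Pa m φ) {g : GL (Fin m) F} (hg : GUm φ g) (hs : Sw g) {a b : SU m φ}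
    (ha : a ∈ QW m φ) (hb : (b : SL m F) = inn g (a : SL m F)) : b ∈ QW m φ ∧
      ∃ c : F, c * φ c = 1 ∧ nv b = c • ((g : Matrix (Fin m) (Fin m) F) *ᵥ nv a) := by
  refine ⟨(inn_QW hg hs ha hb).1, ?_⟩
  by_cases e : ∃ o : Fin m, o.rev = o
  · obtain ⟨o, ho⟩ := e
    refine ⟨_, ?_, (inn_QW hg hs ha hb).2 o ho⟩
    have := hg.inv (Pi.single o 1) (Pi.single o 1)
    rw [hf_single_left, ho, Pi.single_eq_same, map_one, mul_one, mulVec_single_one, hf,
      Finset.sum_eq_single o (fun i _ n => ?_) fun n => (n (Finset.mem_univ _)).elim, ho] at this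
    · exact this
    · have u := hs.inv.up hg.inv
      have o1 := lv1.1 ho
      rcases lv_spec i with k | k | k
      · exact mul_eq_zero_of_right _ (by
          rw [col_apply, u i.rev o (by rw [(lv2 (i := i.rev)).1 (i.rev_rev.symm ▸ k.1)]; omega), map_zero])
      · exact mul_eq_zero_of_left (u i o (by omega)) _
      · exact (n (mid_unique k.2.2.2 ho)).elim
  · exact ⟨1, by simp, by rw [nv_even (not_exists.1 e), nv_even (not_exists.1 e), mulVec_zero, smul_zero]⟩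

theorem Blk.conj_inn (g a : SU m φ) : ((g * a * g⁻¹ : SU m φ) : SL m F) =
    inn (SpecialLinearGroup.toGL (g : SL m F)) (a : SL m F) := by rw [inn_toGL]; rfl

theorem norm_of_sw (hp : Pa m φ) {g : SU m φ}
    (hs : ∀ v ∈ Wv m F, ((g : SL m F) : Matrix (Fin m) (Fin m) F) *ᵥ v ∈ Wv m F) :
    g ∈ normalizer (AA m φ : Set (SU m φ)) ∧ g ∈ normalizer (QW m φ : Set (SU m φ)) :=
  ⟨mem_normalizer_fintype fun _ ha => (en_inn hp (gum_toGL hp g) hs ha (conj_inn g _)).1,
    mem_normalizer_fintype fun _ ha => (inn_QW (gum_toGL hp g) hs ha (conj_inn g _)).1⟩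

theorem UU_sw {g : SU m φ} (h : g ∈ UU m φ) {v : Fin m → F} (hv : v ∈ Wv m F) :
    ((g : SL m F) : Matrix (Fin m) (Fin m) F) *ᵥ v ∈ Wv m F := mem_Wv.2 fun i hi =>
  Finset.sum_eq_zero (s := Finset.univ) (f := fun j => (g : SL m F).1 i j * v j) fun j _ => by
    by_cases e : Lo j
    · have : j < i := by rw [Lo] at hi e; exact Fin.lt_def.2 (by omega)
      exact mul_eq_zero_of_left ((mem_U.1 h i j this.le).trans (one_apply_ne this.ne')) _
    · exact mul_eq_zero_of_right _ (mem_Wv.1 hv j e)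

theorem Lv_sw (hp : Pa m φ) {g : SU m φ} (h : g ∈ Lv m φ) {v : Fin m → F} (hv : v ∈ Wv m F) :
    ((g : SL m F) : Matrix (Fin m) (Fin m) F) *ᵥ v ∈ Wv m F := by
  have : Sw (SpecialLinearGroup.toGL (g : SL m F)) := by
    induction h using closure_induction with
    | mem x hx =>
      obtain ⟨i, j, u, hi, hj, n, rfl⟩ := hx
      intro v hv
      refine (xs_mulVec hp (Ind.of_lo hi hj n).1 u v).symm ▸ add_mem (add_mem hv (single_mem_Wv hi _)) ?_
      rw [mem_Wv.1 hv _ hi.rev, mul_zero, Pi.single_zero]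
      exact zero_mem _
    | one => exact fun v hv => (one_mulVec v).symm ▸ hv
    | mul x y _ _ h1 h2 => rw [coe_mul, map_mul]; exact h1.mul h2
    | inv x _ h1 => rw [coe_inv, map_inv]; exact h1.inv
  exact this v hv

theorem UU_norm (hp : Pa m φ) : UU m φ ≤ normalizer (AA m φ : Set (SU m φ)) := fun _ h => (norm_of_sw hp fun _ => UU_sw h).1

theorem Lv_norm (hp : Pa m φ) : Lv m φ ≤ normalizer (AA m φ : Set (SU m φ)) := fun _ h => (norm_of_sw hp fun _ => Lv_sw hp h).1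

theorem Lv_norm_QW (hp : Pa m φ) : Lv m φ ≤ normalizer (QW m φ : Set (SU m φ)) := fun _ h => (norm_of_sw hp fun _ => Lv_sw hp h).2

theorem dh_norm (hp : Pa m φ) {d : Fin m → F} (h : Dg φ d) :
    dh φ d ∈ normalizer (AA m φ : Set (SU m φ)) ∧ dh φ d ∈ normalizer (QW m φ : Set (SU m φ)) :=
  norm_of_sw hp fun v hv => mem_Wv.2 fun i hi => by
    rw [dh_mulVec hp h, Pi.mul_apply, mem_Wv.1 hv i hi, mul_zero]

theorem xs_mem_Lv {i j : Fin m} (hi : Lo i) (hj : Lo j) (h : i ≠ j) (u : F) :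
    xs φ i j u ∈ Lv m φ := subset_closure ⟨i, j, u, hi, hj, h, rfl⟩

theorem xs_mem_UU (hp : Pa m φ) {a b : Fin m} (h : Ind a b) (hab : a < b) (u : F) :
    xs φ a b u ∈ UU m φ := by
  refine mem_subgroupOf.2 ?_
  rw [xs_val hp h]
  exact mul_mem (x_mem hab _) (x_mem (Fin.rev_lt_rev.2 hab) _)

theorem Blk.dh_conj (hp : Pa m φ) {d : Fin m → F} (h : Dg φ d) (a : SU m φ) (i j : Fin m) :
    ((dh φ d * a * (dh φ d)⁻¹ : SU m φ) : SL m F) i j = d i * (a : SL m F) i j * (d j)⁻¹ := by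
  rw [dh_inv hp h, val_mul, val_mul, dh_val hp h, dh_val hp h.inv, dg_val h.2, dg_val h.inv.2, mul_diagonal,
    diagonal_mul, Pi.inv_apply]

theorem en_dh (hp : Pa m φ) {d : Fin m → F} (h : Dg φ d) (a : SU m φ) (i j : Fin m) :
    en (dh φ d * a * (dh φ d)⁻¹) i j = d i * en a i j * φ (d j) := by
  rw [en, dh_conj hp h, en, inv_eq_of_mul_eq_one_right (h.1 j.rev), Fin.rev_rev]

theorem en_xs_conj (hp : Pa m φ) {p r : Fin m} (h1 : Lo p) (h2 : Lo r) (h : p ≠ r) (u : F)
    {a : SU m φ} (ha : a ∈ AA m φ) {i j : Fin m} (hi : Lo i) (hj : Lo j) :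
    en (xs φ p r u * a * (xs φ p r u)⁻¹) i j = en a i j + (if i = p then u * en a r j else 0) +
      (if j = p then φ u * en a i r else 0) + if i = p ∧ j = p then u * φ u * en a r r else 0 := by
  have k : ∀ {l : Fin m}, Lo l → ∀ v : Fin m → F,
      ∑ s, (xs φ p r u : SL m F).1 l s * v s = v l + if l = p then u * v r else 0 := fun {l} hl v => by
    have := congrFun (xs_mulVec hp (Ind.of_lo h1 h2 h).1 u v) l
    rwa [Pi.add_apply, Pi.add_apply, Pi.single_eq_of_ne (hl.ne_rev h2), add_zero, Pi.single_apply] at this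
  have k' : ∀ v : Fin m → F, ∑ s, v s * φ ((xs φ p r u : SL m F).1 j s) =
      v j + if j = p then φ u * v r else 0 := fun v => by
    have := congrArg φ (k hj fun s => φ (v s))
    simpa only [map_sum, map_mul, map_add, hp.ff, apply_ite φ, map_zero, mul_comm (v _)] using this
  rw [en_inn' (gum_toGL hp _) (conj_inn _ a) hi hj]
  simp only [mul_assoc, ← Finset.mul_sum]
  refine (k hi _).trans ?_
  refine (congrArg₂ (fun y z => y + if i = p then u * z else 0) (k' fun s => NN a i s.rev)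
    (k' fun s => NN a r s.rev)).trans ?_
  rw [NN_en _ hi hj, NN_en _ hi h2, NN_en _ h2 hj, NN_en _ h2 h2]
  split_ifs <;> simp_all <;> ring

theorem mem_cj_pw {w : Equiv.Perm (Fin m)} (hw : Wy w) {a : SU m φ} :
    a ∈ cj (pw φ w) (AA m φ) ↔ ∀ i j, ¬ (Lo (w⁻¹ i) ∧ Lo (w⁻¹ j)) →
      en a i j = (1 : Matrix (Fin m) (Fin m) F) i j.rev := by
  rw [mem_map_equiv, mem_AA, ← (w⁻¹ : Equiv.Perm (Fin m)).forall_congr_right]
  refine forall_congr' fun i => ?_
  rw [← (w⁻¹ : Equiv.Perm (Fin m)).forall_congr_right]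
  refine forall_congr' fun j => imp_congr_right fun _ => ?_
  have : ((MulAut.conj (pw φ w)).symm a : SL m F) = pm F w⁻¹ * a * (pm F w⁻¹)⁻¹ := by
    rw [← pw_val (φ := φ) hw.inv, ← pw_inv hw]; simp
  rw [en, this, pm_conj, ← hw.inv j, inv_inv, Equiv.Perm.coe_inv, Equiv.apply_symm_apply,
    Equiv.apply_symm_apply, en]
  simp [one_apply]

theorem cj_pw_eq {w w' : Equiv.Perm (Fin m)} (hw : Wy w) (hw' : Wy w')
    (h : ∀ i, Lo (w⁻¹ i) ↔ Lo (w'⁻¹ i)) : cj (pw φ w) (AA m φ) = cj (pw φ w') (AA m φ) := by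
  ext a
  simp only [mem_cj_pw hw, mem_cj_pw hw', h]

theorem nv_mem (g : SU m φ) : nv g ∈ Wv m F := mem_Wv.2 fun _ hi => if_neg hi

theorem Blk.nv_row (hp : Pa m φ) {o : Fin m} (ho : o.rev = o) {g : SU m φ} (h : g ∈ QW m φ)
    (j : Fin m) : NN g o j = φ (nv g j.rev) := by
  have o1 := lv1.1 ho
  by_cases e : Lo j.rev
  · have := (mem_SU hp).1 g.2 (Pi.single o 1) (Pi.single j 1)
    have j2 := lv2.1 e
    have n : o ≠ j := fun k => by rw [k] at o1; omega
    have u := QW_up.1 h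
    rw [hf_single_left, ho, Pi.single_eq_of_ne n, map_zero, mul_zero, val_eq, add_mulVec, add_mulVec,
      one_mulVec, one_mulVec, mulVec_single_one, mulVec_single_one, hf_add_left, hf_add_right, hf_add_right,
      hf_single_left, hf_single_left, hf_single_right, ho, Pi.single_eq_of_ne n, hf,
      Finset.sum_eq_zero fun i _ => ?_] at this
    · rw [nv_col ho h, ← hp.ff (NN g o j)]
      refine congrArg φ (CharTwo.add_eq_zero.1 ?_)
      simpa using this
    · by_cases l : Lo i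
      · exact mul_eq_zero_of_right _ (by
          rw [col_apply, u i.rev j (by rw [(lv2 (i := i.rev)).1 (i.rev_rev.symm ▸ l)]; omega), map_zero])
      · exact mul_eq_zero_of_left (u i o (by rw [lv0] at l; omega)) _
  · have := lv_le j
    rw [mem_Wv.1 (nv_mem g) _ e, map_zero, QW_up.1 h o j (by rw [lv2] at e; omega)]

theorem Blk.NN_NN (hp : Pa m φ) {g g' : SU m φ} (h : g ∈ QW m φ) (h' : g' ∈ QW m φ) :
    NN g * NN g' = vecMulVec (nv g) (ad φ (nv g')) := Matrix.ext fun i j => by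
  have k : ∀ l : Fin m, l.rev ≠ l → NN g i l * NN g' l j = 0 := fun l n => by
    have := lv_le j
    rcases lv_spec l with k | k | k
    exacts [mul_eq_zero_of_left (QW_up.1 h i l (by omega)) _,
      mul_eq_zero_of_right _ (QW_up.1 h' l j (by omega)), (n k.2.2.2).elim]
  rw [Matrix.mul_apply, vecMulVec_apply, ad]
  by_cases e : ∃ o : Fin m, o.rev = o
  · obtain ⟨o, ho⟩ := e
    rw [Finset.sum_eq_single o (fun l _ n => k l fun e => n (mid_unique e ho))
      fun n => (n (Finset.mem_univ _)).elim, nv_col ho h, nv_row hp ho h']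
  · rw [Finset.sum_eq_zero fun l _ => k l (not_exists.1 e l), nv_even (not_exists.1 e), Pi.zero_apply, zero_mul]

theorem nv_mul (hp : Pa m φ) {g g' : SU m φ} (h : g ∈ QW m φ) (h' : g' ∈ QW m φ) :
    nv (g * g') = nv g + nv g' := by
  by_cases e : ∃ o : Fin m, o.rev = o
  · obtain ⟨o, ho⟩ := e
    funext i
    rw [Pi.add_apply, nv_col ho (mul_mem h h'), nv_col ho h, nv_col ho h', NN_mul, Matrix.add_apply,
      (QW_up.1 h).mul (QW_up.1 h') i o (by rw [lv1.1 ho]; omega), add_zero, Matrix.add_apply]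
  · rw [nv_even (not_exists.1 e), nv_even (not_exists.1 e), nv_even (not_exists.1 e), add_zero]

theorem nv_eq_zero (hp : Pa m φ) {g : SU m φ} (h : g ∈ QW m φ) : nv g = 0 ↔ g ∈ AA m φ := by
  refine ⟨fun e => AA_up.2 fun i j k => ?_, fun ha => ?_⟩
  · rcases lv_spec i with l | l | l
    · rcases lv_spec j with l' | l' | l'
      exacts [QW_up.1 h i j (by omega), by omega, by rw [← nv_col l'.2.2.2 h, e, Pi.zero_apply]]
    · exact QW_up.1 h i j (by have := lv_le j; omega)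
    · rw [nv_row hp l.2.2.2 h, e, Pi.zero_apply, map_zero]
  · by_cases e : ∃ o : Fin m, o.rev = o
    · obtain ⟨o, ho⟩ := e
      exact funext fun i => (nv_col ho h i).trans (AA_up.1 ha i o (by rw [lv1.1 ho]; omega))
    · exact nv_even (not_exists.1 e) g

theorem Blk.NN_add_self (N : Matrix (Fin m) (Fin m) F) : N + N = 0 :=
  Matrix.ext fun _ _ => CharTwo.add_self_eq_zero _

theorem Blk.ad_zero : ad φ (0 : Fin m → F) = 0 := funext fun _ => map_zero φ

theorem QW_sq (hp : Pa m φ) {g : SU m φ} (h : g ∈ QW m φ) : g * g = tv φ (nv g) := NN_ext (by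
  rw [NN_mul, NN_NN hp h h, NN_add_self, zero_add, NN, tv_val hp (hf_W (nv_mem g) (nv_mem g)),
    add_sub_cancel_left])

theorem QW_comm (hp : Pa m φ) {g g' : SU m φ} (h : g ∈ QW m φ) (h' : g' ∈ QW m φ) :
    ⁅g, g'⁆ = pr φ (nv g) (nv g') := by
  have p := pr_mem hp (nv_mem g) (nv_mem g')
  rw [commutatorElement_def, mul_inv_eq_iff_eq_mul, mul_inv_eq_iff_eq_mul, mul_assoc]
  refine NN_ext ?_
  rw [NN_mul, NN_mul, NN_NN hp h h', NN_NN hp (AA_le_QW p) (mul_mem h' h), (nv_eq_zero hp (AA_le_QW p)).2 p,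
    zero_vecMulVec, add_zero, NN_mul, NN_NN hp h' h, NN, NN, NN, pr_val hp (nv_mem g) (nv_mem g'),
    ← add_zero (_ + vecMulVec _ _), ← NN_add_self (vecMulVec (nv g') (ad φ (nv g)))]
  abel

theorem QW_cent (hp : Pa m φ) {g a : SU m φ} (h : g ∈ QW m φ) (ha : a ∈ AA m φ) : Commute g a :=
  NN_ext (by rw [NN_mul, NN_mul, NN_NN hp h (AA_le_QW ha), NN_NN hp (AA_le_QW ha) h,
    (nv_eq_zero hp (AA_le_QW ha)).2 ha, zero_vecMulVec, ad_zero, vecMulVec_zero, add_comm (NN g)])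

theorem QW_inv (hp : Pa m φ) {g : SU m φ} (h : g ∈ QW m φ) (h2 : g * g = 1) : g ∈ AA m φ :=
  (nv_eq_zero hp h).1 ((tv_eq_one hp (hf_W (nv_mem g) (nv_mem g))).1 ((QW_sq hp h).symm.trans h2))

theorem QW_even (hp : Pa m φ) (he : ∀ o : Fin m, o.rev ≠ o) : QW m φ = AA m φ :=
  le_antisymm (fun g h => (nv_eq_zero hp h).1 (nv_even he g)) AA_le_QW

theorem us_mem_QW (hp : Pa m φ) {o a : Fin m} (ho : o.rev = o) (ha : Lo a) (c d : F) :
    us φ o a c d ∈ QW m φ := by
  by_cases h : d + φ d = c * φ c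
  · have o1 := lv1.1 ho
    have l1 : m / 2 ≤ (o : ℕ) := not_lt.1 fun e => by rw [← Lo, lv0] at e; omega
    have l2 : (o : ℕ) < m - m / 2 := not_le.1 fun e => by rw [← lo_rev, lv2] at e; omega
    have l3 := lo_rev.1 (a.rev_rev.symm ▸ ha)
    refine mem_subgroupOf.2 ?_
    rw [us_val hp ho (ha.ne_rev ha) h]
    exact mul_mem (mul_mem (mem_sup_left (x_mem ⟨ha, l1⟩ _)) (mem_sup_right (x_mem ⟨l2, l3⟩ _)))
      (mem_sup_left (x_mem ⟨ha, by omega⟩ _))
  · rw [us_junk hp ho (ha.ne_rev ha) h]; exact one_mem _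

theorem nv_us (hp : Pa m φ) {o a : Fin m} (ho : o.rev = o) (ha : Lo a) {c d : F}
    (h : d + φ d = c * φ c) : nv (us φ o a c d) = Pi.single a c := by
  funext i
  have := congrFun (us_mulVec hp ho (ha.ne_rev ha) h (Pi.single o 1)) i
  rw [val_eq, add_mulVec, one_mulVec, mulVec_single_one, Pi.single_eq_same,
    Pi.single_eq_of_ne fun e : a.rev = o => ha.rev (by rw [e, ← ho, ← e, Fin.rev_rev]; exact ha), mul_zero,
    mul_zero, mul_one, add_zero, Pi.single_zero, add_zero, Pi.add_apply, Pi.add_apply] at this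
  exact (nv_col ho (us_mem_QW hp ho ha c d) i).trans (add_left_cancel this)

theorem nv_sur (hp : Pa m φ) {o : Fin m} (ho : o.rev = o) {v : Fin m → F} (hv : v ∈ Wv m F) :
    ∃ g ∈ QW m φ, nv g = v := by
  rw [← Finset.univ_sum_single v]
  refine Finset.sum_induction _ (fun v => ∃ g ∈ QW m φ, nv g = v) ?_
    ⟨1, one_mem _, (nv_eq_zero hp (one_mem _)).2 (one_mem _)⟩ fun i _ => ?_
  · rintro _ _ ⟨g, h, rfl⟩ ⟨g', h', rfl⟩
    exact ⟨_, mul_mem h h', nv_mul hp h h'⟩
  · by_cases e : Lo i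
    · obtain ⟨d, hd⟩ := exists_trace hp.ne hp.sq (a := v i * φ (v i)) (by rw [map_mul, hp.ff, mul_comm])
      exact ⟨_, us_mem_QW hp ho e _ d, nv_us hp ho e hd⟩
    · exact ⟨1, one_mem _, by rw [mem_Wv.1 hv i e, Pi.single_zero, (nv_eq_zero hp (one_mem _)).2 (one_mem _)]⟩

theorem nv_dh (hp : Pa m φ) {o : Fin m} (ho : o.rev = o) {d : Fin m → F} (h : Dg φ d) (g : SU m φ) :
    nv (dh φ d * g * (dh φ d)⁻¹) = (d o)⁻¹ • (d * nv g) := funext fun i => by
  rw [Pi.smul_apply, Pi.mul_apply, nv_mid ho, nv_mid ho, dh_conj hp h, smul_eq_mul]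
  split_ifs
  exacts [mul_comm _ _, by rw [mul_zero, mul_zero]]

theorem Blk.Lv_mid (hp : Pa m φ) {o : Fin m} (ho : o.rev = o) {l : SU m φ} (hl : l ∈ Lv m φ) :
    ((l : SL m F) : Matrix (Fin m) (Fin m) F) *ᵥ Pi.single o 1 = Pi.single o 1 := by
  induction hl using closure_induction with
  | mem x hx =>
    obtain ⟨i, j, u, hi, hj, n, rfl⟩ := hx
    have o1 := lv1.1 ho
    rw [xs_mulVec hp (Ind.of_lo hi hj n).1, Pi.single_eq_of_ne fun e : j = o => by
      rw [e, lv0] at hj; omega, Pi.single_eq_of_ne fun e : i.rev = o => hi.rev (by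
        rw [e, ← ho, ← e, Fin.rev_rev]; exact hi), mul_zero, mul_zero, Pi.single_zero, Pi.single_zero,
      add_zero, add_zero]
  | one => exact one_mulVec _
  | mul x y _ _ h1 h2 => rw [val_mul, ← mulVec_mulVec, h2, h1]
  | inv x _ h1 =>
    nth_rewrite 1 [← h1]
    rw [mulVec_mulVec, ← val_mul, inv_mul_cancel]
    exact one_mulVec _

theorem nv_Lv (hp : Pa m φ) {l g : SU m φ} (hl : l ∈ Lv m φ) (h : g ∈ QW m φ) :
    nv (l * g * l⁻¹) = ((l : SL m F) : Matrix (Fin m) (Fin m) F) *ᵥ nv g := by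
  by_cases e : ∃ o : Fin m, o.rev = o
  · obtain ⟨o, ho⟩ := e
    have k := congrFun (Lv_mid hp ho (inv_mem hl)) o
    rw [mulVec_single_one, Pi.single_eq_same] at k
    rw [(inn_QW (gum_toGL hp l) (fun _ => Lv_sw hp hl) h (conj_inn l g)).2 o ho, ← map_inv]
    exact (congrArg (· • _) k).trans (one_smul _ _)
  · rw [nv_even (not_exists.1 e), nv_even (not_exists.1 e), mulVec_zero]

/-- `pr v w = 1` for all `w` forces `v = 0` -/
theorem QW_center (hp : Pa m φ) {g : SU m φ} (h : g ∈ QW m φ) (hc : ∀ g' ∈ QW m φ, Commute g g') :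
    g ∈ AA m φ := by
  refine (nv_eq_zero hp h).1 ?_
  by_cases e : ∃ o : Fin m, o.rev = o
  · obtain ⟨o, ho⟩ := e
    funext i
    by_cases hi : Lo i
    · obtain ⟨j, hj, n, -⟩ := exists_ind hp i i
      obtain ⟨g', h', e⟩ := nv_sur hp ho (single_mem_Wv hj 1)
      have := en_pr hp (nv_mem g) (nv_mem g') hi hj
      rw [← QW_comm hp h h', commutatorElement_eq_one_iff_commute.2 (hc g' h'), en_one hi hj, e,
        Pi.single_eq_same, Pi.single_eq_of_ne n.symm, map_one, mul_one, zero_mul, add_zero] at this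
      exact this.symm
    · exact mem_Wv.1 (nv_mem g) i hi
  · exact nv_even (not_exists.1 e) g

end CL.UM
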