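import Cfsg.Agent.INV.SC.Bas2

/-!
Standard components of type `U_m(q)`, `q` even: notation and configurations.
`F` has `q ^ 2` elements, `φ` is its involution, `k = m / 2`, `i' = i.rev`.  The hermitian form is
`hf u v = Σ u i * φ (v i')`.  `AA` is the group of the hermitian `k × k` matrices
`(i, j) ↦ a i j'` (`i, j < k`), of order `q ^ (k * k)`.
-/

set_option autoImplicit false
set_option linter.unusedSectionVars false

namespace CL.UM

open Matrix Subgroup CL.SC
open scoped commutatorElement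

section mat

variable {m : ℕ} {F : Type*} [Field F]

/-- the special unitary group -/
def SU (m : ℕ) (φ : F ≃+* F) : Subgroup (SL m F) := Fx (std φ true)

open Classical in
/-- `g` as an element of `SU` (`1` if it is not unitary) -/
noncomputable def su (φ : F ≃+* F) (g : SL m F) : SU m φ :=
  if h : g ∈ SU m φ then ⟨g, h⟩ else 1

/-- the admissible parameters -/
structure Pa (m : ℕ) (φ : F ≃+* F) : Prop where
  ne : φ ≠ 1
  sq : φ * φ = 1
  six : 6 ≤ m
  ex : ¬ (m = 6 ∧ Nat.card F = 4)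

/-- `q` -/
noncomputable def qq (F : Type*) : ℕ := Nat.sqrt (Nat.card F)

/-- the order of `AA` -/
noncomputable def qa (m : ℕ) (F : Type*) : ℕ := qq F ^ (m / 2 * (m / 2))

/-- the hermitian form -/
def hf (φ : F ≃+* F) (u v : Fin m → F) : F := ∑ i, u i * φ (v i.rev)

/-- the linear form `hf · w` -/
def ad (φ : F ≃+* F) (w : Fin m → F) : Fin m → F := fun j => φ (w j.rev)

/-- the transvection `x ↦ x + hf x v • v` -/
noncomputable def tv (φ : F ≃+* F) (v : Fin m → F) : SU m φ := su φ (un (1 + vecMulVec v (ad φ v)))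

/-- `x ↦ x + hf x w • v + hf x v • w` -/
noncomputable def pr (φ : F ≃+* F) (v w : Fin m → F) : SU m φ :=
  su φ (un (1 + vecMulVec v (ad φ w) + vecMulVec w (ad φ v)))

/-- the span of the first `k` basis vectors -/
def Wv (m : ℕ) (F : Type*) [Field F] : Submodule F (Fin m → F) where
  carrier := {v | ∀ i : Fin m, m / 2 ≤ (i : ℕ) → v i = 0}
  add_mem' := fun ha hb i hi => by rw [Pi.add_apply, ha i hi, hb i hi, add_zero]
  zero_mem' := fun _ _ => rfl
  smul_mem' := fun c v ha i hi => by rw [Pi.smul_apply, ha i hi, smul_zero]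

/-- the hermitian block group -/
def AA (m : ℕ) (φ : F ≃+* F) : Subgroup (SU m φ) := (A0 m F).subgroupOf (SU m φ)

/-- the unitriangular group -/
def UU (m : ℕ) (φ : F ≃+* F) : Subgroup (SU m φ) := (U m F).subgroupOf (SU m φ)

/-- the unipotent radical of the stabiliser of `Wv` (equal to `AA` for even `m`) -/
def QW (m : ℕ) (φ : F ≃+* F) : Subgroup (SU m φ) :=
  (A m F (m / 2) ⊔ A m F (m - m / 2)).subgroupOf (SU m φ)

/-- the entry `(i, j')` -/
def en {φ : F ≃+* F} (a : SU m φ) (i j : Fin m) : F := (a : SL m F) i j.rev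

/-- the middle column (`0` for even `m`) -/
def nv {φ : F ≃+* F} (g : SU m φ) : Fin m → F :=
  fun i => if (i : ℕ) < m / 2 then ∑ o : Fin m, if o.rev = o then (g : SL m F) i o else 0 else 0

/-- short root elements -/
noncomputable def xs (φ : F ≃+* F) (a b : Fin m) (u : F) : SU m φ :=
  su φ (x a b u * x b.rev a.rev (φ u))

/-- long root elements (`φ c = c`) -/
noncomputable def zl (φ : F ≃+* F) (a : Fin m) (c : F) : SU m φ := su φ (x a a.rev c)

/-- root elements through the middle index `o` (`d + φ d = c * φ c`) -/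
noncomputable def us (φ : F ≃+* F) (o a : Fin m) (c d : F) : SU m φ :=
  su φ (x a o c * x o a.rev (φ c) * x a a.rev d)

/-- `a, b` lie in different pairs and are not the middle index -/
def Ind (a b : Fin m) : Prop := a ≠ b ∧ a ≠ b.rev ∧ a ≠ a.rev ∧ b ≠ b.rev

def Ind3 (a b c : Fin m) : Prop := Ind a b ∧ Ind b c ∧ Ind a c

/-- the roots `(a, b)`, `(c, d)` lie in a common conjugate of `AA` -/
def Cmp (a b c d : Fin m) : Prop := a ≠ c.rev ∧ a ≠ d ∧ b ≠ c ∧ b ≠ d.rev

/-- indices below `k` -/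
def Lo (i : Fin m) : Prop := (i : ℕ) < m / 2

/-- the Weyl group -/
def Wy (w : Equiv.Perm (Fin m)) : Prop := ∀ i, w i.rev = (w i).rev

noncomputable def pw (φ : F ≃+* F) (w : Equiv.Perm (Fin m)) : SU m φ := su φ (pm F w)

def flip (r : Fin m) : Equiv.Perm (Fin m) := Equiv.swap r r.rev

def dsw (a b : Fin m) : Equiv.Perm (Fin m) := Equiv.swap a b * Equiv.swap a.rev b.rev

/-- the diagonals of the torus -/
def Dg (φ : F ≃+* F) (d : Fin m → F) : Prop := (∀ i, d i * φ (d i.rev) = 1) ∧ ∏ i, d i = 1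

/-- the diagonals with entries of norm one -/
def D1 (φ : F ≃+* F) (d : Fin m → F) : Prop := Dg φ d ∧ ∀ i, d i.rev = d i

noncomputable def dh (φ : F ≃+* F) (d : Fin m → F) : SU m φ := su φ (dg d)

def H1 (m : ℕ) (φ : F ≃+* F) : Subgroup (SU m φ) := closure {g | ∃ d, D1 φ d ∧ g = dh φ d}

def H2 (φ : F ≃+* F) (a b : Fin m) : Subgroup (SU m φ) :=
  closure {g | ∃ d, D1 φ d ∧ d a = d b ∧ g = dh φ d}

/-- the derived Levi subgroup `SL_k(F)` -/
def Lv (m : ℕ) (φ : F ≃+* F) : Subgroup (SU m φ) :=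
  closure {g | ∃ i j u, Lo i ∧ Lo j ∧ i ≠ j ∧ g = xs φ i j u}

def Xs (φ : F ≃+* F) (a b : Fin m) : Subgroup (SU m φ) := closure {g | ∃ u, g = xs φ a b u}

/-- isometries -/
def GUm (φ : F ≃+* F) (g : GL (Fin m) F) : Prop :=
  ∀ u v, hf φ ((g : Matrix (Fin m) (Fin m) F) *ᵥ u) ((g : Matrix (Fin m) (Fin m) F) *ᵥ v) = hf φ u v

/-- `α` has type `σ` -/
def Ty {φ : F ≃+* F} (α : MulAut (SU m φ)) (σ : F ≃+* F) : Prop :=
  ∃ g : GL (Fin m) F, GUm φ g ∧ ∀ a : SU m φ, (α a : SL m F) = inn g (fld σ (a : SL m F))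

/-- the elements of rank one of `AA` -/
def Rk {φ : F ≃+* F} (a : SU m φ) : Prop := ∃ v ∈ Wv m F, v ≠ 0 ∧ a = tv φ v

/-- `α` normalises `AA` -/
def NA {φ : F ≃+* F} (α : MulAut (SU m φ)) : Prop := ∀ a ∈ AA m φ, α a ∈ AA m φ

/-- the commutators of `α` with `AA` -/
def im {φ : F ≃+* F} (α : MulAut (SU m φ)) : Set (SU m φ) := {y | ∃ a ∈ AA m φ, y = α a * a⁻¹}

/-- the transvection exchanging `e o` and `θ e r + e r'` (`θ + φ θ = 1`) -/
noncomputable def gg (φ : F ≃+* F) (θ : F) (o r : Fin m) : SU m φ :=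
  tv φ (Pi.single o 1 + Pi.single r θ + Pi.single r.rev 1)

/-- the subgroup `SL` on the indices different from the middle one -/
def S0 (m : ℕ) (F : Type*) [Field F] : Subgroup (SL m F) := Pat F fun i j => i ≠ i.rev ∧ j ≠ j.rev

variable [NeZero m]

/-- transvections -/
def IsTv {φ : F ≃+* F} (a : SU m φ) : Prop := IsConj (zl φ 0 1) a

variable [Finite F] [CharP F 2]

theorem fld_mem {φ : F ≃+* F} (σ : F ≃+* F) (a : SU m φ) : fld σ (a : SL m F) ∈ SU m φ := by
  have h : (std φ true : MulAut (SL m F)) * std σ false = std σ false * std φ true := by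
    rw [std_mul, std_mul, aut_comm]; rfl
  have h2 : std φ true (a : SL m F) = a := a.2
  have := congrArg (fun β : MulAut (SL m F) => β a) h
  simp only [MulAut.mul_apply, h2, std_false] at this
  exact this

/-- field automorphisms -/
def fs (φ : F ≃+* F) : (F ≃+* F) →* MulAut (SU m φ) where
  toFun σ :=
    { toFun := fun a => ⟨fld σ a, fld_mem σ a⟩
      invFun := fun a => ⟨fld σ⁻¹ a, fld_mem σ⁻¹ a⟩
      left_inv := fun a => Subtype.ext (by
        change fld σ⁻¹ (fld σ (a : SL m F)) = a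
        rw [map_inv, MulAut.inv_apply_self])
      right_inv := fun a => Subtype.ext (by
        change fld σ (fld σ⁻¹ (a : SL m F)) = a
        rw [map_inv, MulAut.apply_inv_self])
      map_mul' := fun a b => Subtype.ext (map_mul (fld σ) (a : SL m F) b) }
  map_one' := MulEquiv.ext fun a => Subtype.ext (by
    change fld 1 (a : SL m F) = a
    rw [map_one, MulAut.one_apply])
  map_mul' σ τ := MulEquiv.ext fun a => Subtype.ext (by
    change fld (σ * τ) (a : SL m F) = fld σ (fld τ a)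
    rw [map_mul, MulAut.mul_apply])

theorem fs_val {φ : F ≃+* F} (σ : F ≃+* F) (a : SU m φ) : (fs φ σ a : SL m F) = fld σ a := rfl

end mat

section frame

variable {H G : Type*} [Group H] [Group G]

/-- quasisimple with centre of odd order -/
structure Qs (H : Type*) [Group H] : Prop where
  perf : commutator H = ⊤
  odd : Odd (Nat.card (center H))
  nrm : ∀ N : Subgroup H, N.Normal → N ≤ center H ∨ N = ⊤
  nt : center H ≠ ⊤

/-- a frame: a homomorphism with central kernel -/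
def Fu (π : H →* G) : Prop := π.ker ≤ center H

/-- `n` acts on the frame as `α` -/
def Au (π : H →* G) (n : G) (α : MulAut H) : Prop := ∀ a, n * π a * n⁻¹ = π (α a)

/-- the conjugate frame -/
def tu (g : G) (π : H →* G) : H →* G := (MulAut.conj g).toMonoidHom.comp π

theorem tu_apply (g : G) (π : H →* G) (a : H) : tu g π a = g * π a * g⁻¹ := rfl

/-- the frame composed with an automorphism -/
def ru (π : H →* G) (α : MulAut H) : H →* G := π.comp α.toMonoidHom

theorem ru_apply (π : H →* G) (α : MulAut H) (a : H) : ru π α a = π (α a) := rfl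

/-- `k` centralises `t` and the frame -/
def Kt (ρ : H →* G) (t k : G) : Prop := Commute k t ∧ ∀ a, Commute k (ρ a)

/-- the basic configuration -/
structure St (ρ : H →* G) (t : G) : Prop where
  fr : Fu ρ
  t2 : orderOf t = 2
  tc : ∀ a, Commute t (ρ a)
  nrm : ∀ g, Commute g t → g ∈ normalizer (ρ.range : Set G)
  inv : ∀ k, Kt ρ t k → k * k = 1 → k = 1 ∨ k = t

/-- the join of all doublings of `V` -/
def Hat (t : G) (V : Subgroup G) : Subgroup G := ⨆ (B : Subgroup G) (_ : Dbl t V B), B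

/-- the central product of the frame and its conjugate -/
def G0 (t : G) (π : H →* G) : Subgroup G := π.range ⊔ (tu t π).range

/-- the product of a subgroup of the first and a subgroup of the second factor -/
def pq (t : G) (π : H →* G) (P R : Subgroup H) : Subgroup G := P.map π ⊔ R.map (tu t π)

/-- the normaliser of both factors -/
def M0 (t : G) (π : H →* G) : Subgroup G :=
  normalizer (π.range : Set G) ⊓ normalizer ((tu t π).range : Set G)

/-- the normaliser of the product of the factors -/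
abbrev Mw (t : G) (π : H →* G) : Subgroup G := normalizer (G0 t π : Set G)

/-- pure elements: those in one of the two factors -/
def Pu (t : G) (π : H →* G) (w : G) : Prop := w ∈ π.range ∨ w ∈ (tu t π).range

/-- the abstract wreathed configuration -/
structure Wa (ρ : H →* G) (t : G) (π : H →* G) : Prop extends St ρ t where
  frπ : Fu π
  comm : ∀ a b, Commute (π a) (tu t π b)
  diag : ∀ a, π a * tu t π a = ρ a

/-- 2-elements -/
def Two (y : G) : Prop := ∃ n, y ^ 2 ^ n = 1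

end frame

section grp

variable {m : ℕ} [NeZero m] {F : Type*} [Field F] [Finite F] [CharP F 2] {φ : F ≃+* F}
variable {G : Type*} [Group G]

/-- the image of `AA` -/
abbrev Ar (ρ : SU m φ →* G) : Subgroup G := (AA m φ).map ρ

/-- after the fusion analysis -/
structure St1 (ρ : SU m φ →* G) (t : G) : Prop extends St ρ t where
  mv : ∃ y, y * t * y⁻¹ = t * ρ (zl φ 0 1) ∧ Commute y (ρ (zl φ 0 1)) ∧
    y ∈ normalizer (Ar ρ : Set G)

/-- `y` centralises `ρ(AA)` and translates `t` by `a` -/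
def Lm (ρ : SU m φ →* G) (t y : G) (a : SU m φ) : Prop :=
  a ∈ AA m φ ∧ (∀ b ∈ AA m φ, Commute y (ρ b)) ∧ y * t * y⁻¹ = t * ρ a

/-- all translations of `t ρ(AA)` are induced -/
structure St2 (ρ : SU m φ →* G) (t : G) : Prop extends St ρ t where
  r2 : ∀ k, Kt ρ t k → k * k ≠ t
  trn : ∀ a ∈ AA m φ, ∃ y, Lm ρ t y a

/-- the 2-elements inducing translations form a group -/
structure Pp (ρ : SU m φ →* G) (t : G) (P : Subgroup G) : Prop extends St2 ρ t where
  mem : ∀ y, y ∈ P ↔ Two y ∧ ∃ a, Lm ρ t y a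
  sur : ∀ a ∈ AA m φ, ∃ y ∈ P, Lm ρ t y a
  ker : ∀ y ∈ P, Commute y t → ∃ g ∈ QW m φ, y = ρ g ∨ y = t * ρ g

/-- those centralising `ρ(QW)` -/
structure Pq (ρ : SU m φ →* G) (t : G) (P : Subgroup G) : Prop extends St2 ρ t where
  mem : ∀ y, y ∈ P ↔ Two y ∧ (∀ g ∈ QW m φ, Commute y (ρ g)) ∧ ∃ a, Lm ρ t y a
  sur : ∀ a ∈ AA m φ, ∃ y ∈ P, Lm ρ t y a
  ker : ∀ y ∈ P, Commute y t → ∃ g ∈ AA m φ, y = ρ g ∨ y = t * ρ g
  max : ∀ y a, Two y → Lm ρ t y a → ∃ p ∈ P, ∃ g ∈ QW m φ, y = p * ρ g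

/-- the abelian group of order `|AA| ^ 2` -/
structure Ab (ρ : SU m φ →* G) (t : G) (W : Subgroup G) : Prop extends St2 ρ t where
  le : Ar ρ ≤ W
  comm : ∀ y ∈ W, ∀ y' ∈ W, Commute y y'
  lam : ∀ y ∈ W, ∃ a, Lm ρ t y a
  ker : ∀ y ∈ W, Commute y t → y ∈ Ar ρ
  sur : ∀ a ∈ AA m φ, ∃ y ∈ W, Lm ρ t y a
  nW : ∀ n, Commute n t → n ∈ normalizer (Ar ρ : Set G) → n ∈ normalizer (W : Set G)
  cq : ∀ y ∈ W, ∀ g ∈ QW m φ, Commute y (ρ g)
  max : ∀ y a, Two y → Lm ρ t y a → ∃ p ∈ W, ∃ g ∈ QW m φ, y = p * ρ g ∨ y = p * t * ρ g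

/-- the unique doubling -/
structure St3 (ρ : SU m φ →* G) (t : G) : Prop extends Ab ρ t (Hat t (Ar ρ)) where
  dbl : Dbl t (Ar ρ) (Hat t (Ar ρ))
  uq : ∀ B, Dbl t (Ar ρ) B → B = Hat t (Ar ρ)

/-- the component of `W` at the root `(a, b)` -/
def Xh (ρ : SU m φ →* G) (W : Subgroup G) (a b : Fin m) : Subgroup G :=
  ⁅W ⊓ centralizer (((H2 φ a b).map ρ : Subgroup G) : Set G), (H1 m φ).map ρ⁆

/-- the doubling of a conjugate of `AA` -/
def Hs (ρ : SU m φ →* G) (t : G) (s : SU m φ) : Subgroup G := Hat t ((cj s (AA m φ)).map ρ)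

/-- the root `(a, b)` lies in the conjugate of `AA` under `w` -/
def Va (w : Equiv.Perm (Fin m)) (a b : Fin m) : Prop := Wy w ∧ Lo (w⁻¹ a) ∧ Lo (w⁻¹ b.rev)

/-- the doubled root groups -/
noncomputable def XX (ρ : SU m φ →* G) (t : G) (a b : Fin m) : Subgroup G :=
  ⨆ (w : Equiv.Perm (Fin m)) (_ : Va w a b), Xh ρ (Hs ρ t (pw φ w)) a b

/-- the group generated by the doublings -/
def GG (ρ : SU m φ →* G) (t : G) : Subgroup G := ⨆ s, Hs ρ t s

/-- the relations between the doubled root groups -/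
structure Rel (ρ : SU m φ →* G) (t : G) (X : Fin m → Fin m → Subgroup G) : Prop
    extends St ρ t where
  d : ∀ a b, Ind a b → Dbl t ((Xs φ a b).map ρ) (X a b)
  sym : ∀ a b, X b.rev a.rev = X a b
  cmp : ∀ a b c d, Ind a b → Ind c d → Cmp a b c d → ∀ y ∈ X a b, ∀ y' ∈ X c d, Commute y y'
  tri : ∀ a b c, Ind3 a b c → ⁅X a b, X b c⁆ ≤ X a c
  wey : ∀ w a b, Wy w → cj (ρ (pw φ w)) (X a b) = X (w a) (w b)
  tor : ∀ d a b, Dg φ d → ρ (dh φ d) ∈ normalizer (X a b : Set G)
  lng : ∀ a b r, Ind a b → r ≠ r.rev → r ≠ a.rev → r ≠ b → ∀ y ∈ X a b,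
    (∀ c, Commute y (ρ (zl φ r c))) ∧ ∀ o c d, o.rev = o → Commute y (ρ (us φ o r c d))

/-- coordinates: the root elements of one half -/
structure Co (ρ : SU m φ →* G) (t : G) (ε : Bool) (y : Fin m → Fin m → F → G) : Prop
    extends St ρ t where
  add : ∀ a b, Ind a b → ∀ u v, y a b (u + v) = y a b u * y a b v
  diag : ∀ a b, Ind a b → ∀ u, y a b u * (t * y a b u * t⁻¹) = ρ (xs φ a b u)
  flp : ∀ a b, Ind a b → ∀ u, y b.rev a.rev (φ u) = cond ε (t * y a b u * t⁻¹) (y a b u)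
  tri : ∀ a b c, Ind3 a b c → ∀ u v, ⁅y a b u, y b c v⁆ = y a c (u * v)
  tri0 : ∀ a b c, Ind3 a b c → ∀ u v, Commute (y a b u) (t * y b c v * t⁻¹)
  cmp : ∀ a b c d, Ind a b → Ind c d → Cmp a b c d → ∀ u v,
    Commute (y a b u) (y c d v) ∧ Commute (y a b u) (t * y c d v * t⁻¹)
  lng : ∀ a b r, Ind a b → r ≠ r.rev → r ≠ a.rev → r ≠ b → ∀ u,
    (∀ c, Commute (y a b u) (ρ (zl φ r c))) ∧ ∀ o c d, o.rev = o → Commute (y a b u) (ρ (us φ o r c d))

/-- the field case -/
structure Fld (ρ : SU m φ →* G) (t : G) (π : SL m F →* G) : Prop extends St3 ρ t where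
  frπ : Fr π
  act : Ac π t (std φ true)
  emb : ∀ a : SU m φ, π a = ρ a

/-- the wreathed case -/
structure Wr (ρ : SU m φ →* G) (t : G) (π : SU m φ →* G) : Prop extends Wa ρ t π where
  s3 : St3 ρ t

/-- standard action -/
def Sa (π : SU m φ →* G) (s : G) : Prop := ∃ a ∈ UU m φ, ∃ σ, Au π s (MulAut.conj a * fs φ σ)

/-- the wreathed case with the unique fixed point and a standard Sylow subgroup -/
structure Ws (ρ : SU m φ →* G) (t : G) (π : SU m φ →* G) (S : Sylow 2 G) : Prop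
    extends Wr ρ t π where
  uf : UF (Mw t π) t
  tS : t ∈ S
  US : ∀ a ∈ UU m φ, π a ∈ S
  sd : ∀ s ∈ S, s ∈ normalizer (π.range : Set G) → Sa π s

/-- the product of the two block groups -/
abbrev At (t : G) (π : SU m φ →* G) : Subgroup G := pq t π (AA m φ) (AA m φ)

/-- pure transvections -/
def PuT (t : G) (π : SU m φ →* G) (w : G) : Prop := ∃ r, IsTv r ∧ (w = π r ∨ w = tu t π r)

end grp

end CL.UM
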