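import Cfsg.Agent.INV.UM.Defs
import Cfsg.Agent.INV.SC.Gen

/-!
Frames of an abstract quasisimple group with centre of odd order (copy the proofs of INV/SC/K0, Base).
-/

set_option autoImplicit false
set_option linter.unusedSectionVars false
set_option linter.unusedVariables false

namespace CL.UM

open Matrix Subgroup CL.SC
open scoped commutatorElement

variable {H G : Type*} [Group H] [Finite H] [Group G] [Finite G] {ρ π : H →* G} {t : G}

theorem FrA.comm_center {K : Type*} [Group K] {a b a' b' : K} (ha : a⁻¹ * a' ∈ center K)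
    (hb : b⁻¹ * b' ∈ center K) : ⁅a', b'⁆ = ⁅a, b⁆ := by
  have e1 := mem_center_iff.1 ha
  have e2 := mem_center_iff.1 hb
  rw [← mul_inv_cancel_left a a', ← mul_inv_cancel_left b b']
  generalize a⁻¹ * a' = y at *
  generalize b⁻¹ * b' = z at *
  calc _ = a * (y * (b * (z * (y⁻¹ * a⁻¹) * z⁻¹) * b⁻¹)) := by rw [commutatorElement_def]; group
    _ = a * (y * b * y⁻¹ * a⁻¹ * b⁻¹) := by rw [← e2]; group
    _ = _ := by rw [← e1, commutatorElement_def]; group

theorem FrA.aut_center {K : Type*} [Group K] (α : MulAut K) {a : K} : α a ∈ center K ↔ a ∈ center K :=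
  SetLike.ext_iff.1 (Subgroup.characteristic_iff_comap_eq.1
    (inferInstance : (center K).Characteristic) α) a

theorem Qs.eq_one (hq : Qs H) {c : H} (h : c ∈ center H) (hc : Two c) : c = 1 := by
  obtain ⟨n, hn⟩ := hc
  exact orderOf_eq_one_iff.1 (Nat.eq_one_of_dvd_coprimes
    ((Nat.coprime_two_right.2 hq.odd).pow_right n) ((center H).orderOf_dvd_natCard h)
    (orderOf_dvd_of_pow_eq_one hn))

/-- `b ↦ α b * b⁻¹` is a homomorphism from the perfect group to the centre -/
theorem Qs.aut_eq_one (hq : Qs H) {α : MulAut H} (h : ∀ b, α b * b⁻¹ ∈ center H) : α = 1 := by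
  have : ⊤ ≤ α.toMonoidHom.eqLocus (MonoidHom.id H) := by
    rw [← hq.perf, commutator_def, Subgroup.commutator_le]
    intro a _ b _
    change α _ = _
    have z : ∀ a, a⁻¹ * α a ∈ center H := fun a => Subgroup.Normal.mem_comm inferInstance (h a)
    rw [map_commutatorElement α, FrA.comm_center (z a) (z b)]
    rfl
  exact MulEquiv.ext fun a => this (mem_top a)

theorem FrA.aut_ext (hq : Qs H) {α β : MulAut H} (h : ∀ a, (α a)⁻¹ * β a ∈ center H) : α = β := by
  refine inv_mul_eq_one.1 (hq.aut_eq_one fun b => ?_)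
  have := (FrA.aut_center α⁻¹).2 (h b)
  rw [map_mul, map_inv, MulAut.inv_apply_self] at this
  exact Subgroup.Normal.mem_comm inferInstance this

theorem Qs.center_of_comm (hq : Qs H) {a : H} (h : ∀ b, a * b * a⁻¹ * b⁻¹ ∈ center H) :
    a ∈ center H := by
  have e := hq.aut_eq_one (α := MulAut.conj a) fun b => by simpa [mul_assoc] using h b
  exact mem_center_iff.2 fun b => by
    have := congrArg (fun β : MulAut H => β b) e
    simp only [MulAut.conj_apply, MulAut.one_apply] at this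
    exact (mul_inv_eq_iff_eq_mul.1 this).symm

theorem two_of_sq {K : Type*} [Group K] {a : K} (h : a * a = 1) : Two a := ⟨1, by rw [pow_one, pow_two, h]⟩

theorem two_of_pgroup {K : Type*} [Group K] {P : Subgroup K} (h : IsPGroup 2 P) {a : K} (ha : a ∈ P) :
    Two a :=
  (h ⟨a, ha⟩).imp fun _ e => congrArg Subtype.val e

theorem pgroup_of_two {K : Type*} [Group K] {P : Subgroup K} (h : ∀ a ∈ P, Two a) : IsPGroup 2 P :=
  fun a => (h a a.2).imp fun _ e => Subtype.ext e

theorem Two.map {K K' : Type*} [Group K] [Group K'] {a : K} (h : Two a) (f : K →* K') : Two (f a) :=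
  h.imp fun _ e => by rw [← map_pow, e, map_one]

theorem Two.conj {K : Type*} [Group K] {a : K} (h : Two a) (g : K) : Two (g * a * g⁻¹) :=
  h.imp fun _ e => by rw [conj_pow, e, mul_one, mul_inv_cancel]

theorem Two.inv {K : Type*} [Group K] {a : K} (h : Two a) : Two a⁻¹ := h.imp fun _ e => by rw [inv_pow, e, inv_one]

theorem Two.mul {K : Type*} [Group K] {a b : K} (h : Two a) (h' : Two b) (hc : Commute a b) :
    Two (a * b) := by
  obtain ⟨n, hn⟩ := h
  obtain ⟨k, hk⟩ := h'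
  exact ⟨n + k, by rw [hc.mul_pow, pow_add, pow_mul, hn, one_pow, mul_comm (2 ^ n), pow_mul, hk, one_pow,
    one_mul]⟩

theorem Two.of_sq {K : Type*} [Group K] {a : K} (h : Two (a * a)) : Two a := by
  obtain ⟨n, hn⟩ := h
  exact ⟨n + 1, by rw [pow_succ', pow_mul, pow_two, hn]⟩

theorem Two.eq_one {a : G} (h : Two a) (h' : Odd (orderOf a)) : a = 1 := by
  obtain ⟨n, hn⟩ := h
  exact orderOf_eq_one_iff.1 (Nat.eq_one_of_dvd_coprimes
    ((Nat.coprime_two_right.2 h').pow_right n) dvd_rfl (orderOf_dvd_of_pow_eq_one hn))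

/-- the 2-part and the odd part -/
theorem exists_parts (y : G) : ∃ a ∈ zpowers y, ∃ o ∈ zpowers y, Two a ∧ Odd (orderOf o) ∧
    y = a * o := by
  obtain ⟨a, b, hb, e⟩ := Nat.exists_eq_two_pow_mul_odd (orderOf_pos y).ne'
  obtain ⟨k, c, hc⟩ := exists_dvd_odd hb a
  have h0 : y ^ ((2 : ℤ) ^ a * b) = 1 := by
    have := pow_orderOf_eq_one y
    rw [e, ← zpow_natCast] at this
    simpa using this
  refine ⟨y ^ ((b : ℤ) * c), zpow_mem_zpowers _ _, y ^ (-(2 ^ a * k)), zpow_mem_zpowers _ _, ⟨a, ?_⟩,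
    hb.of_dvd_nat (orderOf_dvd_of_pow_eq_one ?_), ?_⟩
  · rw [← zpow_natCast, ← _root_.zpow_mul, show (b : ℤ) * c * ((2 ^ a : ℕ) : ℤ) = 2 ^ a * b * c by
      push_cast; ring, _root_.zpow_mul, h0, _root_.one_zpow]
  · rw [← zpow_natCast, ← _root_.zpow_mul, show -(2 ^ a * k) * (b : ℤ) = 2 ^ a * b * (-k) by ring, _root_.zpow_mul, h0,
      _root_.one_zpow]
  · rw [← _root_.zpow_add, ← hc, show (2 : ℤ) ^ a * k + 1 + -(2 ^ a * k) = 1 by ring, zpow_one]

theorem Fu.tu (h : Fu π) (g : G) : Fu (tu g π) := fun a ha => h (by simpa [tu_apply] using ha)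

theorem Fu.ru (h : Fu π) (α : MulAut H) : Fu (ru π α) := fun a ha => (FrA.aut_center α).1 (h ha)

theorem range_ru (π : H →* G) (α : MulAut H) : (ru π α).range = π.range := by
  rw [ru, MonoidHom.range_comp, MonoidHom.range_eq_top.2 α.surjective, MonoidHom.range_eq_map]

theorem range_tu (g : G) (π : H →* G) : (tu g π).range = cj g π.range := MonoidHom.range_comp _ _

theorem map_ru (π : H →* G) (α : MulAut H) (P : Subgroup H) :
    P.map (ru π α) = (P.map α.toMonoidHom).map π := (Subgroup.map_map _ _ _).symm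

theorem map_tu (g : G) (π : H →* G) (P : Subgroup H) : P.map (tu g π) = cj g (P.map π) := (Subgroup.map_map _ _ _).symm

theorem ru_conj (π : H →* G) (s : H) : ru π (MulAut.conj s) = tu (π s) π := MonoidHom.ext fun a => by
  simp [ru_apply, tu_apply]

theorem map_cj (π : H →* G) (s : H) (P : Subgroup H) : (cj s P).map π = cj (π s) (P.map π) := by
  rw [← map_tu, ← ru_conj, map_ru]

theorem norm_map {P : Subgroup H} {a : H} (h : a ∈ normalizer (P : Set H)) :
    π a ∈ normalizer ((P.map π : Subgroup G) : Set G) := by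
  rw [← cj_eq_iff, ← map_cj, cj_eq_iff.2 h]

theorem Fu.eq_one (hq : Qs H) (h : Fu π) {a : H} (ha : Two a) (h1 : π a = 1) : a = 1 := hq.eq_one (h h1) ha

theorem Fu.cen (h : Fu π) {a b : H} (hab : π a = π b) : a⁻¹ * b ∈ center H :=
  h (by rw [MonoidHom.mem_ker, map_mul, map_inv, hab, inv_mul_cancel])

theorem Fu.inj (hq : Qs H) (h : Fu π) {a b : H} (ha : Two a) (hb : Two b) (hab : π a = π b) :
    a = b := by
  have z := h.cen hab
  refine inv_mul_eq_one.1 (hq.eq_one z (ha.inv.mul hb ?_))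
  have c : Commute a (a⁻¹ * b) := mem_center_iff.1 z a
  have := (Commute.refl a).mul_right c
  rw [mul_inv_cancel_left] at this
  exact this.inv_left

theorem Qs.conj_inj (hq : Qs H) {a b : H} (ha : Two a) (hb : Two b)
    (h : (MulAut.conj a : MulAut H) = MulAut.conj b) : a = b :=
  Fu.inj (π := QuotientGroup.mk' (center H)) hq (QuotientGroup.ker_mk' _).le ha hb
    (QuotientGroup.eq.2 (mem_center_iff.2 fun g => by
      have := congrArg (fun β : MulAut H => β g) h
      simp only [MulAut.conj_apply] at this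
      calc g * (a⁻¹ * b) = a⁻¹ * (a * g * a⁻¹) * b := by group
        _ = a⁻¹ * b * g := by rw [this]; group))

theorem Fu.mem_map (hq : Qs H) (h : Fu π) {P : Subgroup H} (hP : IsPGroup 2 P) {a : H} (ha : Two a) :
    π a ∈ P.map π ↔ a ∈ P := ⟨fun ⟨b, hb, e⟩ => h.inj hq (two_of_pgroup hP hb) ha e ▸ hb,
    fun e => ⟨a, e, rfl⟩⟩

theorem Fu.card_map (hq : Qs H) (h : Fu π) {P : Subgroup H} (hP : IsPGroup 2 P) :
    Nat.card (P.map π) = Nat.card P := (Nat.card_eq_of_bijective (π.subgroupMap P)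
    ⟨fun a b e => Subtype.ext (h.inj hq (two_of_pgroup hP a.2) (two_of_pgroup hP b.2)
      (congrArg Subtype.val e)), π.subgroupMap_surjective P⟩).symm

theorem Fu.lift (hq : Qs H) (h : Fu π) {y : G} (hy : y ∈ π.range) (h2 : Two y) :
    ∃ a, Two a ∧ π a = y := by
  obtain ⟨b, rfl⟩ := hy
  obtain ⟨a, ha, o, ho, h3, h4, e⟩ := exists_parts b
  refine ⟨a, h3, ?_⟩
  have c : Commute (π a) (π b) := by
    obtain ⟨n, rfl⟩ := ha
    exact ((Commute.refl b).zpow_left n).map π
  have e2 : π o = (π a)⁻¹ * π b := by rw [e, map_mul, inv_mul_cancel_left]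
  have : π o = 1 := Two.eq_one (e2 ▸ (h3.map π).inv.mul h2 c.inv_left) (h4.of_dvd_nat (orderOf_map_dvd π o))
  rw [e, map_mul, this, mul_one]

theorem Fu.lift_inv (hq : Qs H) (h : Fu π) {y : G} (hy : y ∈ π.range) (h2 : y * y = 1) :
    ∃ a, a * a = 1 ∧ π a = y := by
  obtain ⟨a, ha, rfl⟩ := h.lift hq hy (two_of_sq h2)
  exact ⟨a, h.eq_one hq (ha.mul ha (Commute.refl a)) (by rw [map_mul, h2]), rfl⟩

theorem Fu.commute (hq : Qs H) (h : Fu π) {a b : H} (ha : Two a) (hab : Commute (π a) (π b)) :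
    Commute a b := by
  have := h.inj hq (a := b * a * b⁻¹) (b := a) (ha.conj b) ha
    (by rw [map_mul, map_mul, map_inv, ← hab.eq, mul_inv_cancel_right])
  exact (mul_inv_eq_iff_eq_mul.1 this).symm

theorem Fu.center (hq : Qs H) (h : Fu π) {a : H} (ha : ∀ b, Commute (π a) (π b)) : a ∈ center H :=
  hq.center_of_comm fun b => h (by
    rw [MonoidHom.mem_ker, map_mul, map_mul, map_mul, map_inv, map_inv, (ha b).eq]; simp)

theorem Fu.odd (hq : Qs H) (h : Fu π) {y : G} (hy : y ∈ π.range) (hc : ∀ b, Commute y (π b)) :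
    Odd (orderOf y) := by
  obtain ⟨a, rfl⟩ := hy
  exact (hq.odd.of_dvd_nat ((Subgroup.center H).orderOf_dvd_natCard (h.center hq hc))).of_dvd_nat
    (orderOf_map_dvd π a)

theorem Fu.conj_eq (hq : Qs H) (h : Fu π) {a b s : H} (ha : Two a) (hb : Two b)
    (hs : π s * π a * (π s)⁻¹ = π b) : s * a * s⁻¹ = b :=
  h.inj hq (ha.conj s) hb (by rw [map_mul, map_mul, map_inv, hs])

theorem perfect_range (hq : Qs H) (π : H →* G) : ⁅π.range, π.range⁆ = π.range := by
  rw [← map_commutator_eq, hq.perf, MonoidHom.range_eq_map]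

theorem Fu.odd_relIndex (hq : Qs H) (h : Fu π) {P : Subgroup H} (hP : Odd P.index) :
    Odd ((P.map π).relIndex π.range) := by
  rw [MonoidHom.range_eq_map, Subgroup.relIndex_map_map, top_sup_eq, Subgroup.relIndex_top_right]
  exact hP.of_dvd_nat (Subgroup.index_dvd_of_le le_sup_left)

theorem Fu.normal (hq : Qs H) (h : Fu π) {N : Subgroup G} (hN : π.range ≤ normalizer (N : Set G)) :
    π.range ≤ N ∨ ∀ y ∈ N, y ∈ π.range → ∀ b, Commute y (π b) := by
  have : (N.comap π).Normal := ⟨fun a ha s => by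
    rw [mem_comap, map_mul, map_mul, map_inv]
    exact (mem_normalizer_iff.1 (hN ⟨s, rfl⟩) _).1 ha⟩
  rcases hq.nrm (N.comap π) this with e | e
  · refine .inr ?_
    rintro _ hy ⟨a, rfl⟩ b
    exact (show Commute a b from (mem_center_iff.1 (e hy) b).symm).map π
  · refine .inl ?_
    rintro _ ⟨a, rfl⟩
    exact (e.ge (mem_top a) : a ∈ N.comap π)

theorem Au.unique (hq : Qs H) (h : Fu π) {n : G} {α β : MulAut H} (h1 : Au π n α) (h2 : Au π n β) :
    α = β := FrA.aut_ext hq fun a => h.cen ((h1 a).symm.trans (h2 a))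

theorem Au.mul {n n' : G} {α β : MulAut H} (h1 : Au π n α) (h2 : Au π n' β) :
    Au π (n * n') (α * β) := fun a => by
  rw [MulAut.mul_apply, ← h1, ← h2]; group

theorem Au.inv {n : G} {α : MulAut H} (h1 : Au π n α) : Au π n⁻¹ α⁻¹ := fun a => by
  have := h1 (α⁻¹ a)
  rw [MulAut.apply_inv_self] at this
  rw [← this]; group

theorem au_one {n : G} : Au π n 1 ↔ ∀ a, Commute n (π a) := forall_congr' fun a => mul_inv_eq_iff_eq_mul

theorem Au.pow {n : G} {α : MulAut H} (h1 : Au π n α) (k : ℕ) : Au π (n ^ k) (α ^ k) := by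
  induction k with
  | zero => exact fun a => by simp
  | succ k ih => rw [pow_succ, pow_succ]; exact ih.mul h1

theorem au_self (π : H →* G) (a : H) : Au π (π a) (MulAut.conj a) := fun b => by simp

theorem Au.mem {n : G} {α : MulAut H} (h : Au π n α) : n ∈ normalizer (π.range : Set G) :=
  mem_normalizer_iff.2 fun y =>
    ⟨fun ⟨a, e⟩ => ⟨α a, by rw [← h, e]⟩, fun ⟨a, e⟩ => ⟨α⁻¹ a, by rw [← h.inv, e]; group⟩⟩

theorem Au.tu {n : G} {α : MulAut H} (h : Au π n α) (g : G) : Au (tu g π) (g * n * g⁻¹) α := fun a => by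
  rw [tu_apply, tu_apply, ← h]; group

theorem Au.ru {n : G} {α : MulAut H} (h : Au π n α) (β : MulAut H) :
    Au (ru π β) n (β⁻¹ * α * β) := fun a => by
  rw [ru_apply, ru_apply, h, MulAut.mul_apply, MulAut.mul_apply, MulAut.apply_inv_self]

theorem Au.pow_eq_one (hq : Qs H) (h : Fu π) {n : G} {α : MulAut H} (h1 : Au π n α) {k : ℕ}
    (hn : n ^ k = 1) : α ^ k = 1 :=
  (h1.pow k).unique hq h (au_one.2 fun a => hn ▸ Commute.one_left _)

theorem Au.sq (hq : Qs H) (h : Fu π) {n : G} {α : MulAut H} (h1 : Au π n α) (hn : n * n = 1) :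
    α * α = 1 := (h1.mul h1).unique hq h (au_one.2 fun a => hn ▸ Commute.one_left _)

theorem Au.commute {n : G} {α : MulAut H} (h1 : Au π n α) {a : H} (ha : α a = a) :
    Commute n (π a) := mul_inv_eq_iff_eq_mul.1 ((h1 a).trans (by rw [ha]))

theorem Au.fix (hq : Qs H) (h : Fu π) {n : G} {α : MulAut H} (h1 : Au π n α) {a : H} (ha : Two a) :
    Commute n (π a) ↔ α a = a := ⟨fun e => h.inj hq (ha.map α.toMonoidHom) ha
    (by rw [← h1, e.eq, mul_inv_cancel_right]), h1.commute⟩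

theorem Au.cj {n : G} {α : MulAut H} (h1 : Au π n α) (P : Subgroup H) :
    cj n (P.map π) = (P.map α.toMonoidHom).map π := by
  rw [← map_tu, ← map_ru, show CL.UM.tu n π = CL.UM.ru π α from MonoidHom.ext h1]

theorem Au.norm (hq : Qs H) (h : Fu π) {n : G} {α : MulAut H} (h1 : Au π n α) {P : Subgroup H}
    (hP : IsPGroup 2 P) :
    n ∈ normalizer ((P.map π : Subgroup G) : Set G) ↔ ∀ a ∈ P, α a ∈ P := by
  refine ⟨fun hn a ha => ?_, fun hn => mem_norm_of_le ?_⟩
  · refine (h.mem_map hq hP ((two_of_pgroup hP ha).map α.toMonoidHom)).1 ?_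
    have := (mem_normalizer_iff.1 hn (π a)).1 ⟨a, ha, rfl⟩
    rwa [h1] at this
  · rintro _ ⟨a, ha, rfl⟩
    exact ⟨_, hn a ha, (h1 a).symm⟩

/-- conjugate by `π y` -/
theorem Au.isConj {w : G} {α : MulAut H} (h : Au π w α) (y : H) :
    IsConj w (π (y * (α y)⁻¹) * w) := isConj_iff.2 ⟨π y, by
  rw [map_mul, map_inv, ← h y]; group⟩

/-- every automorphism of the central quotient lifts -/
def Lf (H : Type*) [Group H] : Prop :=
  ∀ β : MulAut (H ⧸ center H), ∃ α : MulAut H, ∀ a : H, β (a : H ⧸ center H) = (α a : H)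

/-- Two frames, one inside the other: `π'` induces an injective, hence bijective endomorphism of
the central quotient; lift it; `a ↦ (π' a)⁻¹ * π (α a)` is a homomorphism to the centre. -/
theorem Fu.exists_ru (hq : Qs H) (hl : Lf H) {π' : H →* G} (h : Fu π) (h' : Fu π')
    (hle : π'.range ≤ π.range) : ∃ α, π' = CL.UM.ru π α := by
  choose c hc using fun a => hle (⟨a, rfl⟩ : π' a ∈ π'.range)
  have q : ∀ {a b : H}, π a = π b → (a : H ⧸ Subgroup.center H) = b :=
    fun e => QuotientGroup.eq.2 (h.cen e)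
  let f : H →* H ⧸ Subgroup.center H := MonoidHom.mk' (fun a => (c a : H ⧸ Subgroup.center H))
    fun a b => (q (b := c a * c b) (by rw [map_mul, hc, hc, hc, map_mul]))
  have k1 : f.ker ≤ Subgroup.center H := fun a e => h'.center hq fun b => by
    have := (show Commute (c a) (c b) from
      (mem_center_iff.1 ((QuotientGroup.eq_one_iff (c a)).1 e) _).symm).map π
    rwa [hc, hc] at this
  have k2 : Subgroup.center H ≤ f.ker := by
    have e1 : Nat.card (Subgroup.center H) * (Subgroup.center H).index = Nat.card f.ker * f.ker.index := by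
      rw [card_mul_index, card_mul_index]
    have e2 : f.ker.index ≤ (Subgroup.center H).index := by
      rw [index_ker]
      exact card_le_card_group _
    refine (eq_of_le_of_card_ge k1 (Nat.le_of_mul_le_mul_right (e1.le.trans (Nat.mul_le_mul_left _ e2))
      (Nat.pos_of_ne_zero index_ne_zero_of_finite))).ge
  have f2 : Subgroup.center H = f.ker := le_antisymm k2 k1
  have f1 : Function.Surjective f := MonoidHom.range_eq_top.1 (eq_top_of_card_eq _ (by
    rw [← index_ker, ← f2]; rfl))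
  obtain ⟨α, hα⟩ := hl (QuotientGroup.liftEquiv _ f1 f2)
  have z : ∀ a, (c a)⁻¹ * α a ∈ Subgroup.center H := fun a => QuotientGroup.eq.1 (hα a)
  have : ⊤ ≤ π'.eqLocus (CL.UM.ru π α) := by
    rw [← hq.perf, commutator_def, Subgroup.commutator_le]
    intro a _ b _
    show π' _ = π (α _)
    rw [map_commutatorElement α, FrA.comm_center (z a) (z b), map_commutatorElement, map_commutatorElement,
      hc, hc]
  exact ⟨α, MonoidHom.ext fun a => this (mem_top a)⟩

theorem Fu.exists_au (hq : Qs H) (hl : Lf H) (h : Fu π) {n : G}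
    (hn : n ∈ normalizer (π.range : Set G)) : ∃ α, Au π n α := by
  obtain ⟨α, e⟩ := h.exists_ru hq hl (h.tu n) (by rw [range_tu, cj_eq_iff.2 hn])
  exact ⟨α, fun a => DFunLike.congr_fun e a⟩

theorem Fu.exists_hom (hq : Qs H) (hl : Lf H) (h : Fu π) :
    ∃ θ : normalizer (π.range : Set G) →* MulAut H,
      ∀ n : normalizer (π.range : Set G), Au π (n : G) (θ n) := by
  choose θ hθ using fun n : normalizer (π.range : Set G) => h.exists_au hq hl n.2
  exact ⟨MonoidHom.mk' θ fun a b => (hθ (a * b)).unique hq h ((hθ a).mul (hθ b)), hθ⟩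

theorem Fu.le_or_cent (hq : Qs H) (hl : Lf H) (h : Fu π) {N : Subgroup G}
    (h1 : π.range ≤ normalizer (N : Set G)) (h2 : N ≤ normalizer (π.range : Set G)) :
    π.range ≤ N ∨ ∀ y ∈ N, ∀ a, Commute y (π a) := by
  refine (h.normal hq h1).imp_right fun k y hy => ?_
  obtain ⟨α, hα⟩ := h.exists_au hq hl (h2 hy)
  refine au_one.1 (hq.aut_eq_one (α := α) (fun b => h.center hq (k _ ?_ ⟨_, rfl⟩)) ▸ hα)
  rw [map_mul, map_inv, ← hα]
  simpa only [mul_assoc] using mul_mem hy ((mem_normalizer_iff.1 (h1 ⟨b, rfl⟩) _).1 (inv_mem hy))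

theorem St.tt (h : St ρ t) : t * t = 1 := by rw [← sq, ← h.t2, pow_orderOf_eq_one]

theorem St.ne_one (h : St ρ t) : t ≠ 1 := fun e => by simpa [e] using h.t2

theorem St.conj (h : St ρ t) (g : G) : St (tu g ρ) (g * t * g⁻¹) := by
  have c : ∀ {a b : G}, Commute a (g * b * g⁻¹) → Commute (g⁻¹ * a * g) b := fun {a b} e => by
    simpa [mul_assoc] using e.map (MulAut.conj g⁻¹)
  refine ⟨h.fr.tu g, (orderOf_injective (MulAut.conj g).toMonoidHom (MulAut.conj g).injective t).trans h.t2,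
    fun a => (h.tc a).map (MulAut.conj g), fun y hy => ?_, fun k hk e => ?_⟩
  · rw [range_tu, ← cj_eq_iff, ← cj_mul', show y * g = g * (g⁻¹ * y * g) by group, cj_mul',
      cj_eq_iff.2 (h.nrm _ (c hy))]
  · rcases h.inv _ ⟨c hk.1, fun a => c (hk.2 a)⟩ (by
      rw [show g⁻¹ * k * g * (g⁻¹ * k * g) = g⁻¹ * (k * k) * g by group, e]; group) with e | e
    · exact Or.inl (by rw [← conj_eq_one_iff (a := g⁻¹), inv_inv, e])
    · exact Or.inr (by rw [← e]; group)

theorem St.aut (h : St ρ t) (α : MulAut H) : St (ru ρ α) t :=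
  ⟨h.fr.ru α, h.t2, fun a => h.tc _, fun g hg => range_ru ρ α ▸ h.nrm g hg,
    fun k hk => h.inv k ⟨hk.1, fun a => by simpa [ru_apply] using hk.2 (α.symm a)⟩⟩

theorem St.not_mem (hq : Qs H) (h : St ρ t) : t ∉ ρ.range := fun e => by
  obtain ⟨a, ha, rfl⟩ := h.fr.lift_inv hq e h.tt
  exact h.ne_one (by rw [hq.eq_one (h.fr.center hq h.tc) (two_of_sq ha), map_one])

theorem St.au (hq : Qs H) (hl : Lf H) (h : St ρ t) {g : G} (hg : Commute g t) : ∃ α, Au ρ g α :=
  h.fr.exists_au hq hl (h.nrm g hg)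

theorem St.kt (h : St ρ t) {n : G} (hn : Commute n t) {a : H} (hac : Au ρ n (MulAut.conj a)) :
    Kt ρ t ((ρ a)⁻¹ * n) :=
  ⟨(h.tc a).symm.inv_left.mul_left hn,
    au_one.1 (inv_mul_cancel (MulAut.conj a) ▸ (au_self ρ a).inv.mul hac)⟩

theorem Kt.mul {k k' : G} (h : Kt ρ t k) (h' : Kt ρ t k') : Kt ρ t (k * k') :=
  ⟨h.1.mul_left h'.1, fun a => (h.2 a).mul_left (h'.2 a)⟩

theorem Kt.pow {k : G} (h : Kt ρ t k) (n : ℕ) : Kt ρ t (k ^ n) := ⟨h.1.pow_left n, fun a => (h.2 a).pow_left n⟩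

theorem Kt.inv {k : G} (h : Kt ρ t k) : Kt ρ t k⁻¹ := ⟨h.1.inv_left, fun a => (h.2 a).inv_left⟩

theorem St.kt_two (hq : Qs H) (h : St ρ t) {a : H} (ha : Two a) (hk : Kt ρ t (ρ a)) : a = 1 :=
  hq.eq_one (h.fr.center hq hk.2) ha

theorem St.kt_eq (h : St ρ t) (r2 : ∀ k, Kt ρ t k → k * k ≠ t) {k : G} (hk : Kt ρ t k) (h2 : Two k) :
    k = 1 ∨ k = t := by
  obtain ⟨n, hn⟩ := h2
  induction n generalizing k with
  | zero => exact Or.inl (by simpa using hn)
  | succ n ih =>
    exact h.inv k hk ((ih (hk.mul hk) (by rwa [← sq, ← pow_mul, ← pow_succ'])).resolve_right (r2 k hk))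

theorem St.inner' (h : St ρ t) {e : G} (he : e * e = 1) (hc : Commute e t) {a : H} (ha : a * a = 1)
    (hac : Au ρ e (MulAut.conj a)) : e = ρ a ∨ e = t * ρ a := by
  have k := h.kt hc hac
  have e1 : (ρ a)⁻¹ = ρ a := inv_eq_of_mul_eq_one_right (by rw [← map_mul, ha, map_one])
  refine (h.inv _ k ?_).imp (fun e => (inv_mul_eq_one.1 e).symm) fun e => ?_
  · have := (k.2 a).eq
    rw [e1] at this ⊢
    rw [← mul_assoc, this, ← mul_assoc, ← map_mul, ha, map_one, one_mul, he]
  · rw [(h.tc a).eq, ← e, mul_inv_cancel_left]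

theorem St.inner2 (h : St ρ t) (r2 : ∀ k, Kt ρ t k → k * k ≠ t) {e : G} (he : Two e)
    (hc : Commute e t) {a : H} (ha : Two a) (hac : Au ρ e (MulAut.conj a)) :
    e = ρ a ∨ e = t * ρ a := by
  have k := h.kt hc hac
  have c : Commute (ρ a) e := by
    have := (Commute.refl (ρ a)).mul_left (k.2 a)
    rw [mul_inv_cancel_left] at this
    exact this.symm
  refine (h.kt_eq r2 k ((ha.map ρ).inv.mul he c.inv_left)).imp (fun e => (inv_mul_eq_one.1 e).symm) fun e => ?_
  rw [(h.tc a).eq, ← e, mul_inv_cancel_left]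

theorem St.exists_f (hq : Qs H) (hl : Lf H) (h : St ρ t) {E : Subgroup G} (hE : El E)
    (hc : ∀ e ∈ E, Commute e t) : ∃ f : E →* MulAut H, (∀ e : E, Au ρ e (f e)) ∧ El f.range ∧
      Nat.card E ≤ 2 * Nat.card f.range := by
  obtain ⟨θ, hθ⟩ := h.fr.exists_hom hq hl
  let f := θ.comp (inclusion fun e he => h.nrm e (hc e he))
  have hf : ∀ e : E, Au ρ e (f e) := fun e => hθ (inclusion _ e)
  refine ⟨f, hf, by rintro _ ⟨e, rfl⟩; exact (hf e).sq hq h.fr (hE e e.2), ?_⟩
  rw [← f.ker.card_mul_index, index_ker]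
  refine Nat.mul_le_mul_right _ ?_
  rw [← h.t2, ← Nat.card_zpowers, ← card_map_of_injective E.subtype_injective]
  refine card_le_of_le ?_
  rintro _ ⟨e, he, rfl⟩
  rcases h.inv e ⟨hc e e.2, au_one.1 ((show f e = 1 from he) ▸ hf e)⟩ (hE e e.2) with e | e <;> simp [e]

theorem St.odd_cent (h : St ρ t) {K : Subgroup G} (hle : ρ.range ≤ K)
    (hn : t ∈ normalizer (K : Set G)) (ht : t ∉ centralizer (K : Set G)) :
    Odd (Nat.card (centralizer (K : Set G))) := by
  refine odd_of_no_inv h.tt (mem_norm_of_le fun y hy u hu => ?_) fun c hc e ct =>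
    (h.inv c ⟨ct, fun a => (hc _ (hle ⟨a, rfl⟩)).symm⟩ e).resolve_right fun e => ht (e ▸ hc)
  have := hy _ ((mem_normalizer_iff''.1 hn u).1 hu)
  calc u * (t * y * t⁻¹) = t * (t⁻¹ * u * t * y) * t⁻¹ := by group
    _ = t * y * t⁻¹ * u := by rw [this]; group

theorem le_Hat {V B : Subgroup G} (h : Dbl t V B) : B ≤ Hat t V := le_iSup₂_of_le (f := fun (B : Subgroup G) (_ : Dbl t V B) => B) B h le_rfl

theorem FrA.cj_Hat_le (g t : G) (V : Subgroup G) : cj g (Hat t V) ≤ Hat (g * t * g⁻¹) (cj g V) := by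
  rw [Hat, cj, Subgroup.map_iSup]
  refine iSup_le fun B => ?_
  rw [Subgroup.map_iSup]
  exact iSup_le fun h => le_Hat (h.cj g)

theorem cj_Hat (g t : G) (V : Subgroup G) : cj g (Hat t V) = Hat (g * t * g⁻¹) (cj g V) := by
  refine le_antisymm (FrA.cj_Hat_le g t V) fun y hy => ?_
  have := FrA.cj_Hat_le g⁻¹ _ _ (cj_mem (g := g⁻¹) hy)
  rw [← cj_mul', inv_mul_cancel, cj_one, inv_inv,
    show g⁻¹ * (g * t * g⁻¹) * g = t by group] at this
  exact mem_cj.2 this

/-- `y ↦ [y, t]` is a homomorphism -/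
theorem card_dbl {V B : Subgroup G} (h : Dbl t V B) (hc : ∀ v ∈ V, Commute t v) :
    Nat.card B = Nat.card V ^ 2 := by
  let f : B →* V := MonoidHom.mk' (fun y => ⟨_, h.lam y y.2⟩) fun a b => Subtype.ext (by
    change (a : G) * b * t * ((a : G) * b)⁻¹ * t⁻¹ = a * t * (a : G)⁻¹ * t⁻¹ * (b * t * (b : G)⁻¹ * t⁻¹)
    have c := (h.sq.comm a.2 (h.le (h.lam b b.2))).eq
    have c2 := (hc _ (h.lam b b.2)).eq
    have c3 := (h.sq.comm (h.le (h.lam a a.2)) (h.le (h.lam b b.2))).eq
    generalize hv : (b : G) * t * (b : G)⁻¹ * t⁻¹ = v at c c2 c3 ⊢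
    calc _ = (a : G) * ((b : G) * t * (b : G)⁻¹ * t⁻¹) * t * (a : G)⁻¹ * t⁻¹ := by group
      _ = v * (a * t * (a : G)⁻¹ * t⁻¹) := by rw [hv, c]; group
      _ = _ := c3.symm)
  have f1 : f.range = ⊤ := MonoidHom.range_eq_top.2 fun v => by
    obtain ⟨y, hy, e⟩ := h.sur v v.2
    exact ⟨⟨y, hy⟩, Subtype.ext e⟩
  have f2 : f.ker = V.subgroupOf B := ext fun y => by
    refine ⟨fun e => h.ker y y.2 ?_, fun e => Subtype.ext ?_⟩
    · exact mul_inv_eq_iff_eq_mul.1 (mul_inv_eq_one.1 (congrArg Subtype.val e))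
    · change (y : G) * t * (y : G)⁻¹ * t⁻¹ = 1
      rw [← (hc y e).eq]; group
  rw [← f.ker.card_mul_index, index_ker, f1, f2, card_top,
    Nat.card_congr (subgroupOfEquivOfLe h.le).toEquiv, sq]

/-- the action on a normalised 2-subgroup -/
theorem Fu.exists_act (hq : Qs H) (h : Fu π) {P : Subgroup H} (hP : IsPGroup 2 P) :
    ∃ θ : normalizer ((P.map π : Subgroup G) : Set G) →* MulAut P,
      ∀ (n : normalizer ((P.map π : Subgroup G) : Set G)) (a : P),
        (n : G) * π a * (n : G)⁻¹ = π (θ n a) := by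
  have b : Function.Bijective (π.subgroupMap P) :=
    ⟨fun a b e => Subtype.ext (h.inj hq (two_of_pgroup hP a.2) (two_of_pgroup hP b.2)
      (congrArg Subtype.val e)), π.subgroupMap_surjective P⟩
  let e : P ≃* P.map π := MulEquiv.ofBijective _ b
  refine ⟨(MulAut.congr e.symm).toMonoidHom.comp (P.map π).normalizerMonoidHom, fun n a => ?_⟩
  have k : ∀ y : P.map π, π (e.symm y) = y := fun y => congrArg Subtype.val (e.apply_symm_apply y)
  exact (k ((P.map π).normalizerMonoidHom n (e a))).symm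

/-- Transfer: as `UF.not_mem_commutator` in INV/SC/Gen. -/
theorem not_mem_commutator_of {P : Subgroup G} (hP : Odd P.index) {A : Type*} [CommGroup A]
    (τ : P →* A) {w : G} (hw : w * w = 1) {c : A} (hc : c ≠ 1) (hc2 : c * c = 1)
    (h : ∀ g (hg : g * w * g⁻¹ ∈ P), τ ⟨_, hg⟩ = c) : w ∉ commutator G := fun hm => by
  have := Fintype.ofFinite (Quotient (MulAction.orbitRel (zpowers w) (G ⧸ P)))
  have h0 : MonoidHom.transfer τ w = 1 := Abelianization.commutator_subset_ker _ hm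
  have key : ∀ (n : ℕ) (g : G) (hg : g⁻¹ * w ^ n * g ∈ P), τ ⟨_, hg⟩ = c ^ n :=
    fun n g hg => by
    rcases Nat.even_or_odd' n with ⟨m, rfl | rfl⟩
    · simp only [pow_mul, pow_two, hw, hc2, one_pow, mul_one, inv_mul_cancel]
      exact map_one τ
    · simp only [pow_succ, pow_mul, pow_zero, one_mul, hw, hc2, one_pow] at hg ⊢
      have := h g⁻¹ (by rwa [inv_inv])
      simpa only [inv_inv] using this
  rw [MonoidHom.transfer_eq_prod_quotient_orbitRel_zpowers_quot,
    Finset.prod_congr rfl fun q _ => key _ _ _, Finset.prod_pow_eq_pow_sum,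
    ← index_eq_sum_minimalPeriod] at h0
  obtain ⟨m, hm⟩ := hP
  rw [hm, pow_succ, pow_mul, pow_two, hc2, one_pow, one_mul] at h0
  exact hc h0

end CL.UM
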