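import Cfsg.Agent.INV.UM.Blk

/-!
The action of the Levi subgroup on the hermitian matrices.
-/

set_option autoImplicit false
set_option linter.unusedSectionVars false
set_option linter.unusedVariables false

namespace CL.UM

open Matrix Subgroup CL.SC
open scoped commutatorElement

variable {m : ℕ} [NeZero m] {F : Type*} [Field F] [Finite F] [CharP F 2] {φ : F ≃+* F}

theorem Hm.lo0 (hp : Pa m φ) : Lo (0 : Fin m) := (exists_lo3 hp).elim fun _ h => h.elim fun _ h => h.1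

theorem Hm.xs_pr (hp : Pa m φ) {i j : Fin m} (hi : Lo i) (hj : Lo j) (h : i ≠ j) (u : F) :
    xs φ i j.rev u = pr φ (Pi.single i u) (Pi.single j 1) :=
  AA_ext (xs_mem_AA hp hi hj h u) (pr_mem hp (single_mem_Wv hi u) (single_mem_Wv hj 1)) fun r s hr hs => by
    rw [en_xs hp hi hj h u hr hs, en_pr hp (single_mem_Wv hi u) (single_mem_Wv hj 1) hr hs]
    by_cases h1 : r = i <;> by_cases h2 : s = j <;> by_cases h3 : r = j <;> by_cases h4 : s = i <;>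
      simp_all

/-- `zl i c = tv (s e i)`, `pr v w = tv (v + w) * tv v * tv w`, `AA_gen` -/
theorem tv_gen (hp : Pa m φ) {K : Subgroup (SU m φ)} (h : ∀ v ∈ Wv m F, tv φ v ∈ K) : AA m φ ≤ K :=
  AA_gen hp (fun i c hi hc => by
    obtain ⟨s, rfl⟩ := exists_norm hp.ne hp.sq hc
    exact tv_single hp (hi.ne_rev hi) s ▸ h _ (single_mem_Wv hi s)) fun i j u hi hj hij => by
    have h1 := single_mem_Wv hi u
    have h2 := single_mem_Wv (F := F) hj 1
    rw [Hm.xs_pr hp hi hj hij, ← inv_mul_eq_iff_eq_mul.2 (tv_add hp h1 h2)]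
    exact mul_mem (inv_mem (mul_mem (h _ h1) (h _ h2))) (h _ (add_mem h1 h2))

theorem five (hp : Pa m φ) {θ : F} (hθ : θ + φ θ = 1) {v w : Fin m → F} (hv : v ∈ Wv m F)
    (hw : w ∈ Wv m F) :
    tv φ v * tv φ w * tv φ (v + w) * tv φ (v + θ • w) * tv φ (v + (1 + θ) • w) = 1 := by
  have m1 := tv_mem hp hv
  have m2 := tv_mem hp hw
  have w3 := add_mem hv hw
  have w4 := add_mem hv (Submodule.smul_mem _ θ hw)
  have w5 := add_mem hv (Submodule.smul_mem _ (1 + θ) hw)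
  have m3 := mul_mem (mul_mem m1 m2) (tv_mem hp w3)
  have m4 := mul_mem m3 (tv_mem hp w4)
  refine AA_ext (mul_mem m4 (tv_mem hp w5)) (one_mem _) fun i j hi hj => ?_
  rw [en_mul m4 (tv_mem hp w5) hi hj, en_mul m3 (tv_mem hp w4) hi hj, en_mul (mul_mem m1 m2) (tv_mem hp w3) hi hj,
    en_mul m1 m2 hi hj, en_one hi hj, en_tv hp hv hi hj, en_tv hp hw hi hj, en_tv hp w3 hi hj, en_tv hp w4 hi hj,
    en_tv hp w5 hi hj]
  simp only [Pi.add_apply, Pi.smul_apply, smul_eq_mul, map_add, map_mul, map_one]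
  linear_combination w i * φ (w j) * hθ + (2 * v i * φ (v j) + (1 + φ θ) * v i * φ (w j) + (1 + θ) * w i * φ (v j) +
    (2 + θ * φ θ) * w i * φ (w j)) * (CharTwo.two_eq_zero (R := F))

/-- the elements of the Levi subgroup fixing `e i` -/
def Lf0 (φ : F ≃+* F) (i : Fin m) : Subgroup (SU m φ) :=
  closure {g | ∃ p r u, Lo p ∧ Lo r ∧ p ≠ r ∧ r ≠ i ∧ g = xs φ p r u}

theorem Lf0_le (i : Fin m) : Lf0 φ i ≤ Lv m φ := closure_mono fun _ ⟨p, r, u, h1, h2, h3, _, e⟩ => ⟨p, r, u, h1, h2, h3, e⟩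

theorem Hm.xs_W (hp : Pa m φ) {p r : Fin m} (h1 : Lo p) (h2 : Lo r) (h : p ≠ r) (u : F) {v : Fin m → F}
    (hv : v ∈ Wv m F) : ((xs φ p r u : SL m F) : Matrix (Fin m) (Fin m) F) *ᵥ v = v + Pi.single p (u * v r) := by
  rw [xs_mulVec hp (Ind.of_lo h1 h2 h).1, mem_Wv.1 hv _ h1.rev, mul_zero, Pi.single_zero, add_zero]

theorem Hm.mul_mulVec (g h : SU m φ) (v : Fin m → F) : (((g * h : SU m φ) : SL m F) : Matrix (Fin m) (Fin m) F) *ᵥ v =
    ((g : SL m F) : Matrix (Fin m) (Fin m) F) *ᵥ (((h : SL m F) : Matrix (Fin m) (Fin m) F) *ᵥ v) :=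
  (mulVec_mulVec _ _ _).symm

theorem Hm.trans (hp : Pa m φ) {K : Subgroup (SU m φ)} {ok : Fin m → Prop}
    (hK : ∀ p r u, Lo p → Lo r → p ≠ r → ok r → xs φ p r u ∈ K) (h2 : ∀ j, ∃ c, Lo c ∧ c ≠ j ∧ ok c)
    {v w : Fin m → F} (hv : v ∈ Wv m F) (hw : w ∈ Wv m F) (hv0 : ∃ j, ok j ∧ v j ≠ 0) (hw0 : ∃ j, ok j ∧ w j ≠ 0) :
    ∃ l ∈ K, ((l : SL m F) : Matrix (Fin m) (Fin m) F) *ᵥ v = w := by
  let R : (Fin m → F) → (Fin m → F) → Prop := fun v w => ∃ l ∈ K, ((l : SL m F) : Matrix (Fin m) (Fin m) F) *ᵥ v = w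
  have tr : ∀ {u v w}, R u v → R v w → R u w := by
    rintro u _ _ ⟨a, ha, rfl⟩ ⟨b, hb, rfl⟩
    exact ⟨_, mul_mem hb ha, Hm.mul_mulVec _ _ _⟩
  have lo : ∀ {v j}, v ∈ Wv m F → v j ≠ 0 → Lo j := fun hv h => not_not.1 fun n => h (mem_Wv.1 hv _ n)
  have mv : ∀ {v w j}, v ∈ Wv m F → w ∈ Wv m F → ok j → v j ≠ 0 → w j = v j → R v w := fun {v w j} hv hw hj h0 e => by
    have key : ∀ s : Finset (Fin m), j ∉ s → ∀ w ∈ Wv m F, (∀ p ∉ s, w p = v p) → R v w := fun s => by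
      induction s using Finset.induction_on with
      | empty => exact fun _ w _ h => ⟨1, one_mem _, (one_mulVec v).trans (funext fun p => (h p (by simp)).symm)⟩
      | insert p s _ ih =>
        intro h1 w hw h
        simp only [Finset.mem_insert, not_or] at h1 h
        have h3 : Function.update w p (v p) ∈ Wv m F := mem_Wv.2 fun i hi => by
          by_cases e : i = p
          · rw [e, Function.update_self]; exact mem_Wv.1 hv _ (e ▸ hi)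
          · rw [Function.update_of_ne e]; exact mem_Wv.1 hw _ hi
        refine tr (ih h1.2 _ h3 fun i hi => by
          by_cases e : i = p
          · rw [e, Function.update_self]
          · rw [Function.update_of_ne e, h i ⟨e, hi⟩]) ?_
        by_cases hl : Lo p
        · refine ⟨_, hK p j ((w p - v p) / v j) hl (lo hv h0) (Ne.symm h1.1) hj, ?_⟩
          rw [Hm.xs_W hp hl (lo hv h0) (Ne.symm h1.1) _ h3, Function.update_of_ne h1.1, h j h1, div_mul_cancel₀ _ h0]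
          ext i
          by_cases e : i = p <;> simp [e]
        · exact ⟨1, one_mem _, by rw [mem_Wv.1 hv _ hl, ← mem_Wv.1 hw _ hl, Function.update_eq_self]; exact one_mulVec w⟩
    exact key (Finset.univ.erase j) (by simp) w hw fun p h => by rwa [show p = j by simpa using h]
  have ne : ∀ {v w j j'}, v ∈ Wv m F → w ∈ Wv m F → ok j → ok j' → v j ≠ 0 → w j' ≠ 0 → j ≠ j' → R v w :=
    fun {v w j j'} hv hw hj hj' h0 h0' n =>
      have h := add_mem (single_mem_Wv (lo hv h0) (v j)) (single_mem_Wv (lo hw h0') (w j'))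
      tr (mv hv h hj h0 (by simp [n])) (mv h hw hj' (by simpa [n.symm] using h0') (by simp [n.symm]))
  obtain ⟨j, hj, h0⟩ := hv0
  obtain ⟨j', hj', h0'⟩ := hw0
  by_cases e : j = j'
  · obtain ⟨c, c1, c2, c3⟩ := h2 j
    exact tr (ne hv (single_mem_Wv c1 1) hj c3 h0 (by simp) c2.symm)
      (ne (single_mem_Wv c1 1) hw c3 hj' (by simp) h0' (e ▸ c2))
  · exact ne hv hw hj hj' h0 h0' e

theorem Lf0_fix (hp : Pa m φ) {i : Fin m} (hi : Lo i) {g : SU m φ} (h : g ∈ Lf0 φ i) (c : F) :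
    ((g : SL m F) : Matrix (Fin m) (Fin m) F) *ᵥ Pi.single i c = Pi.single i c := by
  induction h using closure_induction with
  | mem _ h =>
    obtain ⟨p, r, u, h1, h2, h3, h4, rfl⟩ := h
    rw [Hm.xs_W hp h1 h2 h3 u (single_mem_Wv hi c), Pi.single_eq_of_ne h4, mul_zero, Pi.single_zero, add_zero]
  | one => exact one_mulVec _
  | mul _ _ _ _ h1 h2 => rw [Hm.mul_mulVec, h2, h1]
  | inv g _ h => rw [← h, ← Hm.mul_mulVec, inv_mul_cancel, h]; exact one_mulVec _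

/-- column operations -/
theorem Lv_trans (hp : Pa m φ) {v w : Fin m → F} (hv : v ∈ Wv m F) (hw : w ∈ Wv m F) (hv0 : v ≠ 0)
    (hw0 : w ≠ 0) : ∃ l ∈ Lv m φ, ((l : SL m F) : Matrix (Fin m) (Fin m) F) *ᵥ v = w :=
  Hm.trans hp (ok := fun _ => True) (fun _ _ u h1 h2 h3 _ => xs_mem_Lv h1 h2 h3 u)
    (fun j => (exists_ind hp j j).imp fun _ h => ⟨h.1, h.2.1, trivial⟩) hv hw
    ((Function.ne_iff.1 hv0).imp fun _ h => ⟨trivial, h⟩) ((Function.ne_iff.1 hw0).imp fun _ h => ⟨trivial, h⟩)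

theorem Lf0_trans (hp : Pa m φ) {i : Fin m} (hi : Lo i) {v w : Fin m → F} (hv : v ∈ Wv m F)
    (hw : w ∈ Wv m F) (hv0 : ∃ j, j ≠ i ∧ v j ≠ 0) (hw0 : ∃ j, j ≠ i ∧ w j ≠ 0) :
    ∃ l ∈ Lf0 φ i, ((l : SL m F) : Matrix (Fin m) (Fin m) F) *ᵥ v = w :=
  Hm.trans hp (ok := (· ≠ i)) (K := Lf0 φ i) (fun p r u h1 h2 h3 h4 => Subgroup.subset_closure ⟨p, r, u, h1, h2, h3, h4, rfl⟩)
    (fun j => (exists_ind hp j i).imp fun _ h => ⟨h.1, h.2.1, h.2.2.2.1⟩) hv hw hv0 hw0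

theorem rk_conj (hp : Pa m φ) {a : SU m φ} (h : Rk a) : ∃ l ∈ Lv m φ, l * zl φ 0 1 * l⁻¹ = a := by
  obtain ⟨v, hv, h0, rfl⟩ := h
  have h1 := single_mem_Wv (F := F) (Hm.lo0 hp) 1
  obtain ⟨l, hl, rfl⟩ := Lv_trans hp h1 hv (by simp) h0
  exact ⟨l, hl, by rw [← tv_conj hp l (hf_W h1 h1), tv_single hp ((Hm.lo0 hp).ne_rev (Hm.lo0 hp)), map_one, mul_one]⟩

theorem rk_zl (hp : Pa m φ) {i : Fin m} (hi : Lo i) {c : F} (hc : φ c = c) (h0 : c ≠ 0) :
    Rk (zl φ i c) := by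
  obtain ⟨s, rfl⟩ := exists_norm hp.ne hp.sq hc
  exact ⟨_, single_mem_Wv hi s, by simpa using left_ne_zero_of_mul h0, (tv_single hp (hi.ne_rev hi) s).symm⟩

theorem Rk.mem (hp : Pa m φ) {a : SU m φ} (h : Rk a) : a ∈ AA m φ := h.elim fun _ h => h.2.2 ▸ tv_mem hp h.1

theorem Rk.row (hp : Pa m φ) {a : SU m φ} (h : Rk a) {i j : Fin m} (hi : Lo i) (hj : Lo j)
    (h0 : en a i i = 0) : en a i j = 0 ∧ en a j i = 0 := by
  obtain ⟨v, hv, -, rfl⟩ := h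
  rw [en_tv hp hv hi hi] at h0
  simp [en_tv hp hv hi hj, en_tv hp hv hj hi, show v i = 0 by simpa using h0]

theorem Rk.minor (hp : Pa m φ) {a : SU m φ} (h : Rk a) {i j r s : Fin m} (hi : Lo i) (hj : Lo j)
    (hr : Lo r) (hs : Lo s) : en a i j * en a r s = en a i s * en a r j := by
  obtain ⟨v, hv, -, rfl⟩ := h
  rw [en_tv hp hv hi hj, en_tv hp hv hr hs, en_tv hp hv hi hs, en_tv hp hv hr hj]; ring

/-- an element fixed by all `xs p r u` has row and column `r` equal to zero: entry `(p, j)`,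
`j ≠ p`, gives `en a r j = 0`; entry `(p, p)` gives `u c + φ (u c) = 0` for all `u` -/
theorem fix_row (hp : Pa m φ) {p r : Fin m} (h1 : Lo p) (h2 : Lo r) (h : p ≠ r) {a : SU m φ}
    (ha : a ∈ AA m φ) (hc : ∀ u, Commute (xs φ p r u) a) {j : Fin m} (hj : Lo j) :
    en a r j = 0 ∧ en a j r = 0 := by
  have e : ∀ u {j}, Lo j → _ := fun u {j} hj => en_xs_conj hp h1 h2 h u ha h1 hj
  simp only [(hc _).mul_inv_cancel] at e
  have k : ∀ {j}, Lo j → j ≠ p → en a r j = 0 := fun hj n => by simpa [n] using e 1 hj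
  have k2 : en a r j = 0 := by
    by_cases n : j = p
    · obtain ⟨θ, hθ⟩ := hp.th
      by_contra h0
      have := e (θ / en a r j) hj
      rw [n] at h0 this
      simp only [k h2 h.symm, ← en_herm ha h2 h1, if_true, and_self, mul_zero, add_zero, ← map_mul,
        div_mul_cancel₀ _ h0, add_assoc, hθ] at this
      simp at this
    · exact k hj n
  exact ⟨k2, by rw [← en_herm ha h2 hj, k2, map_zero]⟩

theorem fix_Lv (hp : Pa m φ) {a : SU m φ} (ha : a ∈ AA m φ) (hc : ∀ l ∈ Lv m φ, Commute l a) :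
    a = 1 :=
  AA_ext ha (one_mem _) fun r j hr hj => by
    obtain ⟨p, h1, h2, -⟩ := exists_ind hp r r
    rw [(fix_row hp h1 hr h2 ha (fun u => hc _ (xs_mem_Lv h1 hr h2 u)) hj).1, en_one hr hj]

theorem fix_row0 (hp : Pa m φ) {a : SU m φ} (ha : a ∈ AA m φ)
    (hc : ∀ r u, Lo r → r ≠ 0 → Commute (xs φ 0 r u) a) : ∃ c, φ c = c ∧ a = zl φ 0 c := by
  have h0 := Hm.lo0 hp
  refine ⟨_, en_herm ha h0 h0, AA_ext ha (zl_mem_AA h0 _) fun r s hr hs => ?_⟩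
  rw [en_zl h0 (en_herm ha h0 h0) hr hs]
  by_cases h1 : r = 0
  · by_cases h2 : s = 0
    · simp [h1, h2]
    · rw [if_neg fun e => h2 e.2, (fix_row hp h0 hs (Ne.symm h2) ha (fun u => hc _ u hs h2) hr).2]
  · rw [if_neg fun e => h1 e.1, (fix_row hp h0 hr (Ne.symm h1) ha (fun u => hc _ u hr h1) hs).1]

/-- Let `1 ≠ a ∈ K`, with row `r` non-zero, `p ≠ r`.  `b = [xs p r u, a]` is supported on row and
column `p`, with `en b p j = u * en a r j` for `j ≠ p`.  If `en a r j ≠ 0` choose `p ≠ r, j`.  Then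
`[xs s j u', b]`, `s ≠ p, j`, is `xs p s' c` with `c ≠ 0` (`en b j j = 0`).  Then `[xs p s u, xs p s' c] = zl p c'`
with `c' ≠ 0` for suitable `u`; `rk_conj`, `tv_gen`. -/
theorem irr (hp : Pa m φ) {K : Subgroup (SU m φ)} (hK : K ≤ AA m φ)
    (hn : ∀ l ∈ Lv m φ, ∀ a ∈ K, l * a * l⁻¹ ∈ K) : K = ⊥ ∨ K = AA m φ := by
  refine or_iff_not_imp_left.2 fun h => ?_
  obtain ⟨⟨a, ha⟩, h1⟩ := ne_bot_iff_exists_ne_one.1 h
  obtain ⟨r, j, hr, hj, h0⟩ : ∃ r j, Lo r ∧ Lo j ∧ en a r j ≠ 0 := by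
    by_contra! n
    exact h1 (Subtype.ext (AA_ext (hK ha) (one_mem _) fun i j hi hj => (n i j hi hj).trans (en_one hi hj).symm))
  have cm : ∀ {p r} u {a}, Lo p → Lo r → p ≠ r → a ∈ K → ∃ b ∈ K, ∀ {i j}, Lo i → Lo j → en b i j =
      (if i = p then u * en a r j else 0) + (if j = p then φ u * en a i r else 0) +
        if i = p ∧ j = p then u * φ u * en a r r else 0 := fun {p r} u {a} h1 h2 h ha => by
    have hm := hn _ (xs_mem_Lv h1 h2 h u) a ha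
    refine ⟨_, mul_mem hm ha, fun hi hj => ?_⟩
    rw [en_mul (hK hm) (hK ha) hi hj, en_xs_conj hp h1 h2 h u (hK ha) hi hj]
    linear_combination en a _ _ * (CharTwo.two_eq_zero (R := F))
  obtain ⟨p, p1, p2, -, p3, -⟩ := exists_ind hp r j
  obtain ⟨s, s1, s2, -, s3, -⟩ := exists_ind hp p j
  obtain ⟨θ, hθ⟩ := hp.th
  obtain ⟨b, hb, eb⟩ := cm 1 p1 hr p2 ha
  obtain ⟨c, hc, ec⟩ := cm 1 s1 hj s3 hb
  obtain ⟨d, hd, ed⟩ := cm (φ (θ / en a r j)) p1 s1 s2.symm hc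
  have e : d = zl φ p 1 := AA_ext (hK hd) (zl_mem_AA p1 1) fun i l hi hl => by
    rw [en_zl p1 (map_one φ) hi hl, ed hi hl, ec s1 hl, ec hi s1, ec s1 s1, eb hj hl, eb s1 hj, eb hj hj, eb hj s1,
      eb hi hj, ← en_herm (hK ha) hr hj]
    by_cases h2 : i = p <;> by_cases h3 : l = p <;> simp [h2, h3, s2, s2.symm, p3.symm, hp.ff, h0, add_comm, hθ]
  obtain ⟨l, hl, e1⟩ := rk_conj hp (rk_zl hp p1 (map_one φ) one_ne_zero)
  have h2 : zl φ 0 1 ∈ K := by simpa [e, ← e1, mul_assoc] using hn _ (inv_mem hl) _ hd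
  refine le_antisymm hK (tv_gen hp fun v hv => ?_)
  by_cases h3 : v = 0
  · rw [h3, tv_zero]; exact one_mem _
  · obtain ⟨l, hl, e⟩ := rk_conj hp ⟨v, hv, h3, rfl⟩
    exact e ▸ hn l hl _ h2

theorem irr_W (hp : Pa m φ) (V : AddSubgroup (Fin m → F)) (hV : ∀ v ∈ V, v ∈ Wv m F)
    (hn : ∀ l ∈ Lv m φ, ∀ v ∈ V, ((l : SL m F) : Matrix (Fin m) (Fin m) F) *ᵥ v ∈ V) :
    V = ⊥ ∨ ∀ v ∈ Wv m F, v ∈ V :=
  or_iff_not_imp_left.2 fun h w hw => by
    obtain ⟨⟨v, hv⟩, h0⟩ := AddSubgroup.ne_bot_iff_exists_ne_zero.1 h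
    by_cases h1 : w = 0
    · exact h1 ▸ zero_mem _
    · obtain ⟨l, hl, rfl⟩ := Lv_trans hp (hV v hv) hw (fun e => h0 (Subtype.ext e)) h1
      exact hn l hl v hv

theorem Hm.dh_iff (hp : Pa m φ) {d : Fin m → F} (hd : D1 φ d) {a : SU m φ} (ha : a ∈ AA m φ) :
    Commute (dh φ d) a ↔ ∀ r s, Lo r → Lo s → d r = d s ∨ en a r s = 0 := by
  refine ⟨fun h r s _ _ => ?_, fun h => mul_inv_eq_iff_eq_mul.1 (AA_ext
    ((mem_normalizer_iff.1 (dh_norm hp hd.1).1 a).1 ha) ha fun r s hr hs => ?_)⟩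
  · have := en_dh hp hd.1 a r s
    rw [h.mul_inv_cancel] at this
    exact (mul_eq_zero.1 (show (d r - d s) * en a r s = 0 by
      linear_combination -d s * this - d r * en a r s * hd.norm s)).imp_left sub_eq_zero.1
  · rw [en_dh hp hd.1]
    rcases h r s hr hs with e | e
    · rw [e, mul_right_comm, hd.norm, one_mul]
    · rw [e, mul_zero, zero_mul]

theorem fix_H2 (hp : Pa m φ) {i j : Fin m} (hi : Lo i) (hj : Lo j) (h : i ≠ j) {a : SU m φ}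
    (ha : a ∈ AA m φ) : (∀ g ∈ H2 φ i j, Commute g a) ↔ ∀ r s, Lo r → Lo s → r ≠ s →
      ¬ (r = i ∧ s = j) → ¬ (r = j ∧ s = i) → en a r s = 0 := by
  refine ⟨fun hc r s hr hs h1 h2 h3 => ?_, fun hc g hg => ?_⟩
  · obtain ⟨d, d1, d2, d3⟩ := sep3 hp hi hj hr hs h h1 h2 h3
    exact ((Hm.dh_iff hp d1 ha).1 (hc _ ((mem_H2 hp).2 ⟨d, d1, d2, rfl⟩)) r s hr hs).resolve_left d3
  · obtain ⟨d, d1, d2, rfl⟩ := (mem_H2 hp).1 hg
    refine (Hm.dh_iff hp d1 ha).2 fun r s hr hs => or_iff_not_imp_left.2 fun n => hc r s hr hs ?_ ?_ ?_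
    exacts [fun e => n (e ▸ rfl), fun e => n (e.1 ▸ e.2 ▸ d2), fun e => n (e.1 ▸ e.2 ▸ d2.symm)]

theorem fix_H1 (hp : Pa m φ) {a : SU m φ} (ha : a ∈ AA m φ) :
    (∀ g ∈ H1 m φ, Commute g a) ↔ ∀ r s, Lo r → Lo s → r ≠ s → en a r s = 0 := by
  refine ⟨fun hc r s hr hs h1 => ?_, fun hc g hg => ?_⟩
  · obtain ⟨d, d1, d2, -⟩ := sep0 hp (Ind.of_lo hr hs h1).1
    exact ((Hm.dh_iff hp d1 ha).1 (hc _ ((mem_H1 hp).2 ⟨d, d1, rfl⟩)) r s hr hs).resolve_left d2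
  · obtain ⟨d, d1, rfl⟩ := (mem_H1 hp).1 hg
    exact (Hm.dh_iff hp d1 ha).2 fun r s hr hs => or_iff_not_imp_left.2 fun n => hc r s hr hs fun e => n (e ▸ rfl)

/-- `xs p r u = [dh d, xs p r u']` -/
theorem xs_eq_comm (hp : Pa m φ) {p r : Fin m} (h : Ind p r) {d : Fin m → F} (hd : Dg φ d)
    (hne : d p ≠ d r) (u : F) : ∃ u', xs φ p r u = ⁅dh φ d, xs φ p r u'⁆ := by
  have h1 := hd.ne r
  have h2 : d p + d r ≠ 0 := fun e => hne (CharTwo.add_eq_zero.1 e)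
  refine ⟨u * d r / (d p + d r), ?_⟩
  rw [commutatorElement_def, dh_xs hp hd h, inv_eq_of_mul_eq_one_right (xs_sq hp h _), ← xs_add hp h]
  congr 1
  field_simp

/-- an element of rank at least three -/
theorem exists_rk3 (hp : Pa m φ) : ∃ b ∈ AA m φ, ∀ v ∈ Wv m F, ∀ w ∈ Wv m F,
    b * tv φ v ≠ tv φ w := by
  obtain ⟨b, hb, e⟩ := exists_en hp (fun i j => if i = j then 1 else 0) fun i j _ _ => by simp [apply_ite φ, eq_comm]
  obtain ⟨i, j, h0, hi, hj, e1, e2⟩ := exists_lo3 hp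
  refine ⟨b, hb, fun v hv w hw h => ?_⟩
  have k : ∀ {r s}, Lo r → Lo s → w r * φ (w s) - v r * φ (v s) = if r = s then 1 else 0 := fun hr hs => by
    rw [← en_tv hp hw hr hs, ← h, en_mul hb (tv_mem hp hv) hr hs, en_tv hp hv hr hs, e _ _ hr hs, add_sub_cancel_right]
  have n1 : 0 ≠ i := fun e => by simp [← e] at e1
  have n2 : 0 ≠ j := fun e => by simp [← e] at e2
  have n3 : i ≠ j := fun e => by simp [← e, e1] at e2
  have : det (of fun r s => w (![0, i, j] r) * φ (w (![0, i, j] s)) - v (![0, i, j] r) * φ (v (![0, i, j] s))) = 0 := by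
    simp only [det_fin_three, of_apply]; ring
  simp [det_fin_three, k, h0, hi, hj, n1, n2, n3, n1.symm, n2.symm, n3.symm] at this

/-- the group centralising the highest root group -/
def Gz (m : ℕ) [NeZero m] (φ : F ≃+* F) : Subgroup (SU m φ) :=
  closure {g | ∃ a b u, Ind a b ∧ b ≠ 0 ∧ a ≠ la ∧ g = xs φ a b u}

theorem Gz_comm (hp : Pa m φ) {g : SU m φ} (h : g ∈ Gz m φ) (c : F) : Commute g (zl φ 0 c) :=
  mem_centralizer_singleton_iff.1 ((closure_le (centralizer {zl φ 0 c})).2 (by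
    rintro _ ⟨a, b, u, h1, h2, h3, rfl⟩
    exact mem_centralizer_singleton_iff.2 (xs_zl hp h1 (fun e => h3 (by rw [la, e, Fin.rev_rev])) h2.symm u c)) h)

/-- `xs a b u = [xs a c u, xs c b 1]` if the third pair is not that of `0`; if neither `a` nor `b`
lies in the pair of `0` use `xs_eq_comm` with `hd a b ω`, which lies in the group (`xs_weyl`) -/
theorem Gz_perfect (hp : Pa m φ) : Gz m φ ≤ ⁅Gz m φ, Gz m φ⁆ := (closure_le _).2 (by
  rintro _ ⟨a, b, u, h1, h2, h3, rfl⟩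
  have k : ∀ {a b} u, Ind a b → b ≠ 0 → a ≠ la → xs φ a b u ∈ Gz m φ := fun {a b} u h1 h2 h3 =>
    subset_closure ⟨a, b, u, h1, h2, h3, rfl⟩
  by_cases h : a = 0 ∨ b = la
  · obtain ⟨c, -, -, c1, c2⟩ := h1.third hp
    rw [SetLike.mem_coe, ← mul_one u, ← xs_tri hp ⟨c2, c1.symm, h1⟩]
    refine commutator_mem_commutator (k _ c2 ?_ h3) (k _ c1.symm h2 ?_) <;> rcases h with rfl | rfl
    exacts [c2.1.symm, fun e => c1.2.1 (by rw [e]), c2.symm.2.1, c1.1.symm]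
  obtain ⟨ω, w1, w2⟩ := hp.om
  have w0 := left_ne_zero_of_mul_eq_one w1
  obtain ⟨h4, h5⟩ := not_or.1 h
  obtain ⟨u', e⟩ := xs_eq_comm hp h1 (dg_hd hp h1 w0) (by
    simp only [hd, if_true, if_neg h1.1.symm]
    exact fun e => w2 (eq_one_of_pow (n := 1) (by rw [pow_one, sq]; nth_rw 2 [e]; exact mul_inv_cancel₀ w0))) u
  rw [SetLike.mem_coe, e, ← mul_inv_eq_iff_eq_mul.2 (xs_weyl hp h1 w0), pw_dsw hp h1]
  exact commutator_mem_commutator (mul_mem (mul_mem (mul_mem (k _ h1 h2 h3) (k _ h1.symm h4 h5)) (k _ h1 h2 h3))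
    (inv_mem (mul_mem (mul_mem (k _ h1 h2 h3) (k _ h1.symm h4 h5)) (k _ h1 h2 h3)))) (k _ h1 h2 h3))

/-- `AA_gen`; `zl i c = [xs i j u, xs i j' 1]` with `j ≠ 0, i` -/
theorem AA_le_Gz (hp : Pa m φ) : AA m φ ≤ Gz m φ := by
  have h0 := Hm.lo0 hp
  have k : ∀ {i j} u, Lo i → Lo j → i ≠ j → xs φ i j.rev u ∈ Gz m φ := fun {i j} u hi hj h =>
    subset_closure ⟨i, _, u, (Ind.of_lo hi hj h).2, (h0.ne_rev hj).symm, hi.ne_rev h0, rfl⟩
  refine AA_gen hp (fun i c hi hc => ?_) fun i j u => k u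
  obtain ⟨j, hj, j1, -, j2, -⟩ := exists_ind hp 0 i
  obtain ⟨θ, rfl⟩ := exists_trace hp.ne hp.sq hc
  have h1 : xs φ i j θ ∈ Gz m φ := subset_closure ⟨i, j, θ, (Ind.of_lo hi hj j2.symm).1, j1, hi.ne_rev h0, rfl⟩
  have := xs_long hp (Ind.of_lo hi hj j2.symm).1 θ 1
  rw [map_one, mul_one, mul_one, commutatorElement_def] at this
  exact this ▸ mul_mem (mul_mem (mul_mem h1 (k 1 hi hj j2.symm)) (inv_mem h1)) (inv_mem (k 1 hi hj j2.symm))

end CL.UM
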