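import Cfsg.Agent.INV.UM.Bas

/-!
Additive groups of isotropic vectors.
-/

set_option autoImplicit false
set_option linter.unusedSectionVars false
set_option linter.unusedVariables false

namespace CL.UM

open Matrix Subgroup CL.SC
open scoped commutatorElement

variable {m : ℕ} [NeZero m] {F : Type*} [Field F] [Finite F] [CharP F 2] {φ : F ≃+* F}

/-- the vectors supported strictly between `i` and `i'` -/
def Mid (i : Fin m) (v : Fin m → F) : Prop := ∀ j, ¬ (i < j ∧ j < i.rev) → v j = 0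

namespace J0

theorem card_le {V : Type*} [AddCommGroup V] [Finite V] (f : V →+ F) (E : AddSubgroup V) {p : F → Prop}
    (h : ∀ y ∈ E, p (f y)) : Nat.card E ≤ Nat.card ↥(E ⊓ f.ker) * Nat.card {a // p a} := by
  rw [← AddSubgroup.card_mul_index (f.ker.addSubgroupOf E), ← AddSubgroup.inf_addSubgroupOf_left,
    Nat.card_congr (AddSubgroup.addSubgroupOfEquivOfLe inf_le_left).toEquiv,
    AddSubgroup.inf_addSubgroupOf_left]
  refine Nat.mul_le_mul_left _ ((AddSubgroup.relIndex_ker E f).trans_le ?_)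
  exact Nat.card_le_card_of_injective (fun x => ⟨x, by obtain ⟨_, y, hy, rfl⟩ := x; exact h y hy⟩)
    fun x y e => Subtype.ext (Subtype.mk.inj e)

/-- `hf · w` -/
def hl (φ : F ≃+* F) (w : Fin m → F) : (Fin m → F) →ₗ[F] F where
  toFun u := hf φ u w
  map_add' u u' := hf_add_left u u' w
  map_smul' c u := hf_smul_left c u w

theorem two_le {W : Submodule F (Fin m → F)} (h : ∀ u ∈ W, ∀ w ∈ W, hf φ u w = 0) :
    2 * Module.finrank F W ≤ m := by
  have h1 := Subspace.finrank_add_finrank_dualAnnihilator_eq W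
  have : Finite W.dualAnnihilator := Module.finite_of_finite F
  have h2 : Nat.card W ≤ Nat.card W.dualAnnihilator := Nat.card_le_card_of_injective
    (fun w => ⟨hl φ w, (Submodule.mem_dualAnnihilator _).2 fun u hu => h u hu w w.2⟩) fun w w' e => by
      ext i
      have := LinearMap.congr_fun (congrArg Subtype.val e) (Pi.single i.rev 1)
      simpa [hl, hf_single_left] using this
  rw [Module.natCard_eq_pow_finrank (K := F), Module.natCard_eq_pow_finrank (K := F)
    (V := W.dualAnnihilator), Nat.pow_le_pow_iff_right Finite.one_lt_card] at h2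
  simp only [Module.finrank_fintype_fun_eq_card, Fintype.card_fin] at h1
  omega

theorem fix (hp : Pa m φ) {E : AddSubgroup (Fin m → F)} (h : ∀ v ∈ E, hf φ v v = 0) {u v : Fin m → F}
    (hu : u ∈ E) (hv : v ∈ E) : φ (hf φ u v) = hf φ u v := by
  have := h _ (E.add_mem hu hv)
  rw [hf_add_left, hf_add_right, hf_add_right, h u hu, h v hv, zero_add, add_zero,
    CharTwo.add_eq_zero] at this
  rw [hf_conj hp, this]

theorem main (hp : Pa m φ) (n : ℕ) : ∀ (W : Submodule F (Fin m → F)) (E : AddSubgroup (Fin m → F)),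
    m / 2 ≤ Module.finrank F W + n → (∀ u ∈ W, ∀ w ∈ W, hf φ u w = 0) →
    (∀ u ∈ E, ∀ w ∈ W, hf φ u w = 0) → (∀ v ∈ E, hf φ v v = 0) →
    Nat.card E ≤ Nat.card ↥(E ⊓ W.toAddSubgroup) * qq F ^ (2 * n) := by
  have step : ∀ (W : Submodule F (Fin m → F)) (v : Fin m → F), hf φ v v = 0 → ∀ u, (∀ w ∈ W, hf φ u w = 0) →
      hf φ u v = 0 → ∀ w ∈ W ⊔ Submodule.span F {v}, hf φ u w = 0 := fun W v _ u h1 h2 w hw => by
    obtain ⟨w', hw', _, hv, rfl⟩ := Submodule.mem_sup.1 hw
    obtain ⟨c, rfl⟩ := Submodule.mem_span_singleton.1 hv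
    rw [hf_add_right, hf_smul_right, h1 w' hw', h2, mul_zero, add_zero]
  have sy : ∀ u v : Fin m → F, hf φ u v = 0 → hf φ v u = 0 := fun u v e => by
    rw [← hf_conj hp, e, map_zero]
  have iso : ∀ (W : Submodule F (Fin m → F)) (v : Fin m → F), hf φ v v = 0 → (∀ u ∈ W, ∀ w ∈ W, hf φ u w = 0) →
      (∀ w ∈ W, hf φ v w = 0) → ∀ u ∈ W ⊔ Submodule.span F {v}, ∀ w ∈ W ⊔ Submodule.span F {v},
        hf φ u w = 0 := fun W v a b c u hu => step W v a u
    (fun w hw => sy _ _ (step W v a w (b w hw) (sy _ _ (c w hw)) u hu)) (sy _ _ (step W v a v c a u hu))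
  have q2 := hp.q2
  have triv : ∀ (W : Submodule F (Fin m → F)) (E : AddSubgroup (Fin m → F)) n, (∀ v ∈ E, v ∈ W) →
      Nat.card E ≤ Nat.card ↥(E ⊓ W.toAddSubgroup) * qq F ^ (2 * n) := fun W E n h => by
    rw [inf_of_le_left (show E ≤ W.toAddSubgroup from h)]
    exact Nat.le_mul_of_pos_right _ (by positivity)
  induction n with
  | zero =>
    refine fun W E h0 h1 h2 h3 => triv W E 0 fun v hv => by_contra fun c => ?_
    have := two_le (iso W v (h3 v hv) h1 (h2 v hv))
    rw [Submodule.finrank_sup_span_singleton c] at this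
    omega
  | succ n ih =>
    intro W E h0 h1 h2 h3
    by_cases c : ∀ v ∈ E, v ∈ W
    · exact triv W E _ c
    push Not at c
    obtain ⟨v, hv, c⟩ := c
    obtain ⟨f, f1, f2⟩ := LinearMap.exists_extend_of_notMem (0 : W →ₗ[F] F) c 1
    have f0 : ∀ w ∈ W, f w = 0 := fun w hw => LinearMap.congr_fun f1 ⟨w, hw⟩
    have i1 := ih (W ⊔ Submodule.span F {v}) (E ⊓ (hl φ v).toAddMonoidHom.ker)
      (by rw [Submodule.finrank_sup_span_singleton c]; omega) (iso W v (h3 v hv) h1 (h2 v hv))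
      (fun u hu => step W v (h3 v hv) u (h2 u hu.1) hu.2) fun u hu => h3 u hu.1
    set E' := E ⊓ (hl φ v).toAddMonoidHom.ker ⊓ (W ⊔ Submodule.span F {v}).toAddSubgroup
    have dec : ∀ y ∈ E', ∃ w ∈ W, y = w + f y • v := fun y hy => by
      obtain ⟨w, hw, _, hv, rfl⟩ := Submodule.mem_sup.1 hy.2
      obtain ⟨c, rfl⟩ := Submodule.mem_span_singleton.1 hv
      exact ⟨w, hw, by simp [f0 w hw, f2]⟩
    have k : Nat.card ↥(E' ⊓ f.toAddMonoidHom.ker) ≤ Nat.card ↥(E ⊓ W.toAddSubgroup) :=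
      AddSubgroup.card_le_of_le fun y hy => ⟨hy.1.1.1, by
        obtain ⟨w, hw, e⟩ := dec y hy.1
        rwa [e, show f y = 0 from hy.2, zero_smul, add_zero]⟩
    suffices ∃ a b, a * b = qq F ^ 2 ∧ Nat.card E ≤ Nat.card ↥(E ⊓ (hl φ v).toAddMonoidHom.ker) * a ∧
        Nat.card E' ≤ Nat.card ↥(E' ⊓ f.toAddMonoidHom.ker) * b by
      obtain ⟨a, b, e, h4, h5⟩ := this
      calc _ ≤ Nat.card ↥(E ⊓ W.toAddSubgroup) * b * qq F ^ (2 * n) * a := h4.trans (by
            gcongr; exact i1.trans (by gcongr; exact h5.trans (by gcongr)))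
        _ = _ := by rw [mul_add, pow_add, mul_one, ← e]; ring
    by_cases hb : ∀ y ∈ E', φ (f y) = f y
    · exact ⟨_, _, by rw [hp.card_fix, sq], card_le _ E fun y hy => fix hp h3 hy hv, card_le _ E' hb⟩
    push Not at hb
    obtain ⟨y, hy, hb⟩ := hb
    refine ⟨1, Nat.card {a : F // True}, by simp [hp.card], ?_, card_le _ E' fun _ _ => trivial⟩
    rw [mul_one, inf_of_le_left]
    intro u hu
    obtain ⟨w, hw, e⟩ := dec y hy
    have := fix hp h3 hu hy.1.1
    rw [e, hf_add_right, h2 u hu w hw, zero_add, hf_smul_right, map_mul, hp.ff, fix hp h3 hu hv] at this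
    exact (mul_eq_mul_right_iff.1 this).resolve_left hb.symm

end J0

/-- Induction along a chain of totally isotropic subspaces `W < W + F v`, `v ∈ E`. -/
theorem sing (hp : Pa m φ) {i : Fin m} (hi : Lo i) (E : AddSubgroup (Fin m → F))
    (h1 : ∀ v ∈ E, Mid i v) (h2 : ∀ v ∈ E, hf φ v v = 0) :
    Nat.card E ≤ qq F ^ (2 * (m / 2 - 1 - i)) := by
  let f := LinearMap.funLeft F F (Subtype.val : Finset.Ioi i → Fin m)
  have k : ∀ w ∈ LinearMap.ker f, ∀ j, i < j → w j = 0 := fun w hw j hj =>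
    congrFun hw ⟨j, Finset.mem_Ioi.2 hj⟩
  have d1 := f.finrank_range_add_finrank_ker
  have d2 := (LinearMap.range f).finrank_le
  simp only [Module.finrank_fintype_fun_eq_card, Fintype.card_fin, Fintype.card_coe, Fin.card_Ioi] at d1 d2
  have hi' : (i : ℕ) < m / 2 := hi
  have o : ∀ u : Fin m → F, (∀ j, i.rev ≤ j → u j = 0) → ∀ w ∈ LinearMap.ker f, hf φ u w = 0 :=
    fun u hu w hw => Finset.sum_eq_zero fun j _ => by
      by_cases c : i.rev ≤ j
      · rw [hu j c, zero_mul]
      · rw [k w hw _ (Fin.lt_rev_iff.2 (not_le.1 c)), map_zero, mul_zero]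
  have := J0.main hp (m / 2 - 1 - i) (LinearMap.ker f) E (by omega)
    (fun u hu => o u fun j hj => k u hu j (lt_of_lt_of_le (by rw [Fin.lt_def, Fin.val_rev]; omega) hj))
    (fun u hu => o u fun j hj => h1 u hu j fun c => c.2.not_ge hj) h2
  rwa [show E ⊓ (LinearMap.ker f).toAddSubgroup = ⊥ from eq_bot_iff.2 fun v hv => funext fun j => by
    by_cases c : i < j
    exacts [k v hv.2 j c, h1 v hv.1 j fun e => c e.1], AddSubgroup.card_bot, one_mul] at this

end CL.UM
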