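import Cfsg.Agent.INV.UM.Fr

/-!
The wreathed case: basic facts for an abstract quasisimple group (copy the proofs of INV/SC/W0; 2-elements are expressed by Two).
-/

set_option autoImplicit false
set_option linter.unusedSectionVars false
set_option linter.unusedVariables false

namespace CL.UM

open Matrix Subgroup CL.SC
open scoped commutatorElement

variable {H G : Type*} [Group H] [Finite H] [Group G] [Finite G] {ρ π : H →* G} {t : G}

theorem tu_tu (h : t * t = 1) : tu t (tu t π) = π := MonoidHom.ext fun a => by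
  rw [tu_apply, tu_apply]
  calc _ = t * t * π a * (t * t)⁻¹ := by group
    _ = _ := by rw [h]; group

theorem G0_swap (h : t * t = 1) : G0 t (tu t π) = G0 t π := by rw [G0, tu_tu h, sup_comm, G0]

theorem M0_swap (h : t * t = 1) : M0 t (tu t π) = M0 t π := by rw [M0, tu_tu h, inf_comm, M0]

theorem pq_swap (h : t * t = 1) (P R : Subgroup H) : pq t (tu t π) P R = pq t π R P := by rw [pq, tu_tu h, sup_comm, pq]

theorem pu_swap (h : t * t = 1) {w : G} : Pu t (tu t π) w ↔ Pu t π w := by rw [Pu, tu_tu h, or_comm, Pu]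

theorem Pu.mem {w : G} (h : Pu t π w) : w ∈ G0 t π := h.elim mem_sup_left mem_sup_right

theorem one_G0 (a : H) : π a ∈ G0 t π := mem_sup_left ⟨a, rfl⟩

theorem two_G0 (a : H) : tu t π a ∈ G0 t π := mem_sup_right ⟨a, rfl⟩

theorem pq_le_G0 (P R : Subgroup H) : pq t π P R ≤ G0 t π := sup_le_sup (map_le_range _ _) (map_le_range _ _)

theorem pq_mono {P R P' R' : Subgroup H} (h1 : P ≤ P') (h2 : R ≤ R') : pq t π P R ≤ pq t π P' R' := sup_le_sup (map_mono h1) (map_mono h2)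

theorem G0_ru (α : MulAut H) : G0 t (ru π α) = G0 t π := by rw [G0, G0, range_ru, range_tu, range_tu, range_ru]

theorem M0_ru (α : MulAut H) : M0 t (ru π α) = M0 t π := by rw [M0, M0, range_ru, range_tu, range_tu, range_ru]

theorem G0_eq_pq : G0 t π = pq t π ⊤ ⊤ := by rw [G0, pq, MonoidHom.range_eq_map, MonoidHom.range_eq_map]

theorem M0_le : M0 t π ≤ Mw t π := fun n hn => cj_eq_iff.1 (by
  rw [G0, cj, Subgroup.map_sup]
  exact congrArg₂ _ (cj_eq_iff.2 hn.1) (cj_eq_iff.2 hn.2))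

theorem Wa.tt (h : Wa ρ t π) : t * t = 1 := h.toSt.tt

theorem Wa.fr2 (h : Wa ρ t π) : Fu (tu t π) := h.frπ.tu t

theorem Wa.swap (h : Wa ρ t π) : Wa ρ t (tu t π) := ⟨h.toSt, h.fr2, fun a b => by rw [tu_tu h.tt]; exact (h.comm b a).symm,
    fun a => by rw [tu_tu h.tt, ← (h.comm a a).eq, h.diag]⟩

theorem Wa.ru (h : Wa ρ t π) (α : MulAut H) : Wa (CL.UM.ru ρ α) t (CL.UM.ru π α) := ⟨h.toSt.aut α, h.frπ.ru α, fun a b => h.comm _ _, fun a => h.diag _⟩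

theorem Wa.comm' (h : Wa ρ t π) {v w : G} (hv : v ∈ π.range) (hw : w ∈ (tu t π).range) :
    Commute v w := by
  obtain ⟨a, rfl⟩ := hv
  obtain ⟨b, rfl⟩ := hw
  exact h.comm a b

theorem Wa.mem_pq (h : Wa ρ t π) {P R : Subgroup H} {y : G} :
    y ∈ pq t π P R ↔ ∃ a ∈ P, ∃ b ∈ R, y = π a * tu t π b := by
  rw [pq, mem_sup_comm fun a ha b hb => h.comm' (map_le_range _ _ ha) (map_le_range _ _ hb)]
  constructor
  · rintro ⟨_, ⟨a, ha, rfl⟩, _, ⟨b, hb, rfl⟩, rfl⟩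
    exact ⟨a, ha, b, hb, rfl⟩
  · rintro ⟨a, ha, b, hb, rfl⟩
    exact ⟨_, ⟨a, ha, rfl⟩, _, ⟨b, hb, rfl⟩, rfl⟩

theorem Wa.mem_G0 (h : Wa ρ t π) {y : G} : y ∈ G0 t π ↔ ∃ a b, y = π a * tu t π b := by simp [G0_eq_pq, h.mem_pq]

theorem Wa.rho_mem (h : Wa ρ t π) (a : H) : ρ a ∈ G0 t π := h.mem_G0.2 ⟨a, a, (h.diag a).symm⟩

theorem Wa.mul (h : Wa ρ t π) (a b a' b' : H) :
    π a * tu t π b * (π a' * tu t π b') = π (a * a') * tu t π (b * b') := by rw [map_mul, map_mul, (h.comm a' b).symm.mul_mul_mul_comm]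

theorem Wa.pow (h : Wa ρ t π) (a b : H) (n : ℕ) :
    (π a * tu t π b) ^ n = π (a ^ n) * tu t π (b ^ n) := by rw [(h.comm a b).mul_pow, map_pow, map_pow]

theorem Wa.t_conj (h : Wa ρ t π) (a b : H) : t * (π a * tu t π b) * t⁻¹ = π b * tu t π a := by
  rw [← conj_mul, ← tu_apply, ← tu_apply t (tu t π), tu_tu h.tt, (h.comm b a).eq]

theorem Wa.inter (hq : Qs H) (h : Wa ρ t π) {a b : H} (hab : π a = tu t π b) :
    a ∈ center H ∧ b ∈ center H := ⟨h.frπ.center hq fun c => hab ▸ (h.comm c b).symm, h.fr2.center hq fun c => hab ▸ h.comm a c⟩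

theorem Wa.cen (hq : Qs H) (h : Wa ρ t π) {a b a' b' : H} (hab : π a * tu t π b = π a' * tu t π b') :
    a⁻¹ * a' ∈ center H ∧ b * b'⁻¹ ∈ center H := h.inter hq (by
    rw [map_mul, map_mul, map_inv, map_inv, inv_mul_eq_iff_eq_mul, ← mul_assoc, hab]; group)

theorem Wa.inj (hq : Qs H) (h : Wa ρ t π) {a b a' b' : H} (ha : Two a) (hb : Two b) (ha' : Two a')
    (hb' : Two b') (hab : π a * tu t π b = π a' * tu t π b') : a = a' ∧ b = b' := by
  have := Fu.inj (π := QuotientGroup.mk' (center H)) hq (QuotientGroup.ker_mk' _).le ha ha'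
    (QuotientGroup.eq.2 (h.cen hq hab).1)
  subst this
  exact ⟨rfl, h.fr2.inj hq hb hb' (mul_left_cancel hab)⟩

/-- replace `a`, `b` by their 2-parts (`exists_parts`) -/
theorem Wa.lift (hq : Qs H) (h : Wa ρ t π) {y : G} (hy : y ∈ G0 t π) (h2 : Two y) :
    ∃ a b : H, Two a ∧ Two b ∧ y = π a * tu t π b := by
  obtain ⟨a, b, rfl⟩ := h.mem_G0.1 hy
  obtain ⟨a1, ⟨i, rfl⟩, a2, ⟨i', rfl⟩, h3, h4, e⟩ := exists_parts a
  obtain ⟨b1, ⟨j, rfl⟩, b2, ⟨j', rfl⟩, h5, h6, e'⟩ := exists_parts b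
  refine ⟨_, _, h3, h5, ?_⟩
  have c : Commute (π (a ^ i) * tu t π (b ^ j)) (π a * tu t π b) := by
    rw [Commute, SemiconjBy, h.mul, h.mul, (Commute.self_zpow a i).eq, (Commute.self_zpow b j).eq]
  have e2 : π a * tu t π b = π (a ^ i) * tu t π (b ^ j) * (π (a ^ i') * tu t π (b ^ j')) := by
    rw [h.mul, ← e, ← e']
  have e3 : π (a ^ i') * tu t π (b ^ j') = 1 := Two.eq_one
    ((inv_mul_eq_iff_eq_mul.2 e2) ▸ ((h3.map π).mul (h5.map _) (h.comm _ _)).inv.mul h2 c.inv_left)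
    (((h4.of_dvd_nat (orderOf_map_dvd π _)).mul (h6.of_dvd_nat (orderOf_map_dvd (tu t π) _))).of_dvd_nat
      (h.comm _ _).orderOf_mul_dvd_mul_orderOf)
  rw [e2, e3, mul_one]

theorem Wa.lift_inv (hq : Qs H) (h : Wa ρ t π) {y : G} (hy : y ∈ G0 t π) (h2 : y * y = 1) :
    ∃ a b : H, a * a = 1 ∧ b * b = 1 ∧ y = π a * tu t π b := by
  obtain ⟨a, b, ha, hb, rfl⟩ := h.lift hq hy (two_of_sq h2)
  have := h.inj hq (ha.mul ha (Commute.refl a)) (hb.mul hb (Commute.refl b)) (two_of_sq (mul_one 1))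
    (two_of_sq (mul_one 1)) (by rw [← h.mul, h2, map_one, map_one, mul_one])
  exact ⟨a, b, this.1, this.2, rfl⟩

theorem Wa.eq_one_of_both (hq : Qs H) (h : Wa ρ t π) {y : G} (h1 : y ∈ π.range)
    (h2 : y ∈ (tu t π).range) (hy : y * y = 1) : y = 1 := by
  obtain ⟨a, ha, rfl⟩ := h.frπ.lift_inv hq h1 hy
  obtain ⟨b, hb⟩ := h2
  rw [hq.eq_one (h.inter hq hb.symm).1 (two_of_sq ha), map_one]

theorem Wa.snd_one (hq : Qs H) (h : Wa ρ t π) {a b : H} (hb : Two b)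
    (h1 : π a * tu t π b ∈ π.range) : b = 1 := by
  obtain ⟨c, hc⟩ := h1
  have := (h.cen hq (a := a) (b := b) (a' := c) (b' := 1) (by rw [map_one, mul_one, hc])).2
  rw [inv_one, mul_one] at this
  exact hq.eq_one this hb

theorem Wa.pq_inf (hq : Qs H) (h : Wa ρ t π) {P R : Subgroup H} (hR : IsPGroup 2 R) {y : G}
    (hy : y ∈ pq t π P R) (h1 : y ∈ π.range) : y ∈ P.map π := by
  obtain ⟨a, ha, b, hb, rfl⟩ := h.mem_pq.1 hy
  rw [h.snd_one hq (two_of_pgroup hR hb) h1, map_one, mul_one]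
  exact ⟨a, ha, rfl⟩

theorem Wa.card_pq (hq : Qs H) (h : Wa ρ t π) {P R : Subgroup H} (hP : IsPGroup 2 P)
    (hR : IsPGroup 2 R) : Nat.card (pq t π P R) = Nat.card P * Nat.card R := by
  rw [pq, card_sup_comm (fun a ha b hb => h.comm' (map_le_range _ _ ha) (map_le_range _ _ hb)),
    h.frπ.card_map hq hP, h.fr2.card_map hq hR]
  rintro _ ⟨a, ha, rfl⟩ ⟨b, -, hb⟩
  rw [hq.eq_one (h.inter hq hb.symm).1 (two_of_pgroup hP ha), map_one]

theorem Wa.pgroup_pq (h : Wa ρ t π) {P R : Subgroup H} (hP : IsPGroup 2 P) (hR : IsPGroup 2 R) :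
    IsPGroup 2 (pq t π P R) := pgroup_sup_norm (hP.map _) (hR.map _) fun b hb => centralizer_le_normalizer _ fun a ha =>
    h.comm' (map_le_range _ _ ha) (map_le_range _ _ hb)

theorem Wa.el_pq (h : Wa ρ t π) {P R : Subgroup H} (hP : El P) (hR : El R) : El (pq t π P R) := (hP.map _).sup (hR.map _) fun a ha b hb => h.comm' (map_le_range _ _ ha) (map_le_range _ _ hb)

theorem Wa.not_pu (hq : Qs H) (h : Wa ρ t π) {a b : H} (ha : a * a = 1) (ha1 : a ≠ 1)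
    (hb : b * b = 1) (hb1 : b ≠ 1) : ¬ Pu t π (π a * tu t π b) := by
  rintro (h1 | h1)
  · exact hb1 (h.snd_one hq (two_of_sq hb) h1)
  · refine ha1 (h.swap.snd_one hq (a := b) (two_of_sq ha) ?_)
    rwa [tu_tu h.tt, ← (h.comm a b).eq]

theorem Wa.not_pu' (hq : Qs H) (h : Wa ρ t π) {v w : G} (hv : v ∈ π.range) (hv2 : v * v = 1)
    (hv1 : v ≠ 1) (hw : w ∈ (tu t π).range) (hw2 : w * w = 1) (hw1 : w ≠ 1) : ¬ Pu t π (v * w) := by
  obtain ⟨a, ha, rfl⟩ := h.frπ.lift_inv hq hv hv2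
  obtain ⟨b, hb, rfl⟩ := h.fr2.lift_inv hq hw hw2
  exact h.not_pu hq ha (fun e => hv1 (by rw [e, map_one])) hb fun e => hw1 (by rw [e, map_one])

theorem Wa.cj_t (h : Wa ρ t π) : cj t (tu t π).range = π.range := by rw [← range_tu, tu_tu h.tt]

theorem Wa.t_mem (h : Wa ρ t π) : t ∈ Mw t π := cj_eq_iff.1 (by
  rw [G0, cj, Subgroup.map_sup, sup_comm]
  exact congrArg₂ _ h.cj_t (range_tu t π).symm)

/-- otherwise the range is abelian: `Fu.center`, `Qs.nt` -/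
theorem Wa.range_ne (hq : Qs H) (h : Wa ρ t π) : ¬ π.range ≤ (tu t π).range := fun e =>
  hq.nt (eq_top_iff.2 fun a _ => h.frπ.center hq fun b => h.comm' ⟨a, rfl⟩ (e ⟨b, rfl⟩))

theorem Wa.t_not_mem (hq : Qs H) (h : Wa ρ t π) : t ∉ normalizer (π.range : Set G) := fun e =>
  h.range_ne hq (by rw [range_tu, cj_eq_iff.2 e])

theorem Wa.au_pq (h : Wa ρ t π) (a b : H) : Au π (π a * tu t π b) (MulAut.conj a) ∧
    Au (tu t π) (π a * tu t π b) (MulAut.conj b) := ⟨mul_one (MulAut.conj a) ▸ (au_self π a).mul (au_one.2 fun c => (h.comm c b).symm),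
    one_mul (MulAut.conj b) ▸ (au_one.2 fun c => h.comm a c).mul (au_self _ b)⟩

theorem Wa.au_one (h : Wa ρ t π) (a : H) : Au (tu t π) (π a) 1 ∧ Au π (tu t π a) 1 := ⟨CL.UM.au_one.2 fun c => h.comm a c, CL.UM.au_one.2 fun c => (h.comm c a).symm⟩

theorem Wa.G0_le (h : Wa ρ t π) : G0 t π ≤ M0 t π := fun y hy => by
  obtain ⟨a, b, rfl⟩ := h.mem_G0.1 hy
  exact ⟨(h.au_pq a b).1.mem, (h.au_pq a b).2.mem⟩

theorem W0.mem_M0 {n : G} :
    n ∈ M0 t π ↔ cj n π.range = π.range ∧ cj n (tu t π).range = (tu t π).range := by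
  rw [cj_eq_iff, cj_eq_iff]; rfl

theorem Wa.t_inv (h : Wa ρ t π) : t⁻¹ = t := inv_eq_of_mul_eq_one_right h.tt

theorem Wa.t_norm (h : Wa ρ t π) : t ∈ normalizer (M0 t π : Set G) := mem_norm_of_le fun y hy => by
    rw [W0.mem_M0] at hy ⊢
    rw [h.t_inv, cj_mul', cj_mul', cj_mul', cj_mul', h.cj_t, hy.1, ← range_tu t π, hy.2, h.cj_t]
    exact ⟨rfl, rfl⟩

theorem Wa.odd_cent (hq : Qs H) (h : Wa ρ t π) : Odd (Nat.card (centralizer (G0 t π : Set G))) := by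
  refine h.toSt.odd_cent ?_ h.t_mem fun e => h.t_not_mem hq ?_
  · rintro _ ⟨a, rfl⟩
    exact h.rho_mem a
  · exact centralizer_le_normalizer _ (centralizer_le (SetLike.coe_subset_coe.2 le_sup_left) e)

theorem W0.comp1 (hq : Qs H) (hl : Lf H) (h : Wa ρ t π) {n : G} (hn : n ∈ Mw t π) :
    cj n π.range = π.range ∨ cj n π.range = (tu t π).range := by
  have hG : cj n (G0 t π) = G0 t π := cj_eq_iff.2 hn
  have le : cj n π.range ≤ G0 t π := hG ▸ map_mono le_sup_left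
  have nr : G0 t π ≤ normalizer (cj n π.range : Set G) := fun g hg => cj_eq_iff.1 (by
    have : n⁻¹ * g * n ∈ M0 t π := h.G0_le (mem_cj.1 (hG.symm ▸ hg))
    rw [← cj_mul', show g * n = n * (n⁻¹ * g * n) by group, cj_mul', (W0.mem_M0.1 this).1])
  rcases h.frπ.le_or_cent hq hl (le_sup_left.trans nr) (le.trans (h.G0_le.trans inf_le_left)) with
    h1 | h1
  · exact Or.inl (eq_of_le_of_card_ge h1 (card_cj _ _).le).symm
  rcases h.fr2.le_or_cent hq hl (le_sup_right.trans nr) (le.trans (h.G0_le.trans inf_le_right)) with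
    h2 | h2
  · exact Or.inr (eq_of_le_of_card_ge h2 (by rw [card_cj, range_tu, card_cj])).symm
  refine absurd (eq_top_iff.2 fun a _ => h.frπ.center hq fun b => ?_) hq.nt
  obtain ⟨c, d, e⟩ := h.mem_G0.1 (le (cj_mem ⟨b, rfl⟩))
  rw [← commute_cj (g := n), e]
  exact (h1 _ (cj_mem ⟨_, rfl⟩) c).mul_right (h2 _ (cj_mem ⟨_, rfl⟩) d)

theorem W0.cj_inj (g : G) {P R : Subgroup G} (h : cj g P = cj g R) : P = R :=
  Subgroup.map_injective (MulAut.conj g).injective h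

theorem Wa.comp (hq : Qs H) (hl : Lf H) (h : Wa ρ t π) {n : G} (hn : n ∈ Mw t π) :
    n ∈ M0 t π ∨ t * n ∈ M0 t π := by
  have h2 := W0.comp1 hq hl h.swap (n := n) (by rwa [Mw, G0_swap h.tt])
  rw [tu_tu h.tt] at h2
  simp only [W0.mem_M0, cj_mul']
  rcases W0.comp1 hq hl h hn with h1 | h1 <;> rcases h2 with h2 | h2
  · exact Or.inl ⟨h1, h2⟩
  · exact absurd (W0.cj_inj n (h1.trans h2.symm)).le (h.range_ne hq)
  · exact absurd (W0.cj_inj n (h1.trans h2.symm)).le (h.range_ne hq)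
  · exact Or.inr ⟨by rw [h1, h.cj_t], by rw [h2, range_tu]⟩

theorem Wa.mem_M0 (hq : Qs H) (hl : Lf H) (h : Wa ρ t π) {n : G} (hn : n ∈ Mw t π)
    (h1 : n ∈ normalizer (π.range : Set G)) : n ∈ M0 t π := (h.comp hq hl hn).elim id fun e => absurd ((mul_mem_cancel_right h1).1 e.1) (h.t_not_mem hq)

theorem Wa.norm_M0 (hq : Qs H) (hl : Lf H) (h : Wa ρ t π) : Mw t π ≤ normalizer (M0 t π : Set G) := fun n hn => (h.comp hq hl hn).elim (fun e => le_normalizer e)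
    fun e => (mul_mem_cancel_left h.t_norm).1 (le_normalizer e)

theorem Wa.au (hq : Qs H) (hl : Lf H) (h : Wa ρ t π) {n : G} (hn : n ∈ M0 t π) :
    ∃ α β, Au π n α ∧ Au (tu t π) n β := by
  obtain ⟨α, hα⟩ := h.frπ.exists_au hq hl hn.1
  obtain ⟨β, hβ⟩ := h.fr2.exists_au hq hl hn.2
  exact ⟨α, β, hα, hβ⟩

theorem Wa.sw (hq : Qs H) (hl : Lf H) (h : Wa ρ t π) {n : G} (hn : n ∈ Mw t π) (h0 : n ∉ M0 t π) :
    ∃ α β : MulAut H, (∀ a, n * π a * n⁻¹ = tu t π (α a)) ∧ ∀ a, n * tu t π a * n⁻¹ = π (β a) := by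
  obtain ⟨α, β, h1, h2⟩ := h.au hq hl ((h.comp hq hl hn).resolve_left h0)
  refine ⟨α, β, fun a => ?_, fun a => ?_⟩
  · rw [tu_apply, ← h1]
    calc _ = t * t * n * π a * (t * t * n)⁻¹ := by rw [h.tt]; group
      _ = _ := by group
  · have := h2 a
    rw [tu_apply t π (β a)] at this
    exact (MulAut.conj t).injective (by simpa only [MulAut.conj_apply, _root_.mul_inv_rev, mul_assoc] using this)

theorem Wa.au_t (h : Wa ρ t π) {n : G} {α β : MulAut H} (h1 : Au π n α) (h2 : Au (tu t π) n β) :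
    Au π (t * n * t⁻¹) β ∧ Au (tu t π) (t * n * t⁻¹) α := ⟨by simpa only [tu_tu h.tt] using h2.tu t, h1.tu t⟩

theorem Wa.inner (hq : Qs H) (h : Wa ρ t π) {n : G} (hn : n ∈ G0 t π) {α : MulAut H} (h1 : Au π n α) :
    ∃ a, α = MulAut.conj a := by
  obtain ⟨a, b, rfl⟩ := h.mem_G0.1 hn
  exact ⟨a, h1.unique hq h.frπ (h.au_pq a b).1⟩

theorem Wa.mem_cent (h : Wa ρ t π) {n : G} :
    n ∈ centralizer (G0 t π : Set G) ↔ Au π n 1 ∧ Au (tu t π) n 1 := ⟨fun hd => ⟨CL.UM.au_one.2 fun a => (hd _ (one_G0 a)).symm, CL.UM.au_one.2 fun a => (hd _ (two_G0 a)).symm⟩,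
    fun ⟨h1, h2⟩ y hy => by
    obtain ⟨a, b, rfl⟩ := h.mem_G0.1 hy
    exact ((CL.UM.au_one.1 h1 a).mul_right (CL.UM.au_one.1 h2 b)).symm⟩

theorem Wa.eq_one (hq : Qs H) (h : Wa ρ t π) {n : G} (hn : Two n) (h1 : Au π n 1)
    (h2 : Au (tu t π) n 1) : n = 1 := hn.eq_one ((h.odd_cent hq).of_dvd_nat (orderOf_dvd_natCard _ (h.mem_cent.2 ⟨h1, h2⟩)))

theorem Wa.inn' (hq : Qs H) (h : Wa ρ t π) {n : G} (hn : Two n) {a b : H} (ha : Two a) (hb : Two b)
    (h1 : Au π n (MulAut.conj a)) (h2 : Au (tu t π) n (MulAut.conj b)) : n = π a * tu t π b := by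
  have h3 := inv_mul_cancel (MulAut.conj a) ▸ (h.au_pq a b).1.inv.mul h1
  have h4 := inv_mul_cancel (MulAut.conj b) ▸ (h.au_pq a b).2.inv.mul h2
  have c : Commute (π a * tu t π b)⁻¹ n := by
    have := ((CL.UM.au_one.1 h3 a).mul_right (CL.UM.au_one.1 h4 b)).eq
    have : Commute n (π a * tu t π b) := by
      rw [Commute, SemiconjBy, ← inv_mul_cancel_left (π a * tu t π b)⁻¹ (n * _), inv_inv,
        ← mul_assoc _ n, this]
      group
    exact this.symm.inv_left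
  exact (inv_mul_eq_one.1 (h.eq_one hq (((ha.map π).mul (hb.map _) (h.comm a b)).inv.mul hn c) h3 h4)).symm

theorem Fu.exists_f (hq : Qs H) (hl : Lf H) (h : Fu π) {B : Subgroup G}
    (hB : B ≤ normalizer (π.range : Set G)) (hE : El B) :
    ∃ f : B →* MulAut H, (∀ e : B, Au π e (f e)) ∧ El f.range := by
  obtain ⟨θ, hθ⟩ := h.exists_hom hq hl
  have hf : ∀ e : B, Au π e (θ.comp (inclusion hB) e) := fun e => hθ (inclusion _ e)
  exact ⟨_, hf, by rintro _ ⟨e, rfl⟩; exact (hf e).sq hq h (hE e e.2)⟩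

/-- as `Wr.el_M0` -/
theorem Wa.el_M0 (hq : Qs H) (hl : Lf H) (h : Wa ρ t π) {n : ℕ}
    (hn : ∀ E : Subgroup (MulAut H), El E → Nat.card E ≤ n) {B : Subgroup G} (hB : B ≤ Mw t π)
    (hE : El B) (hc : 2 * n < Nat.card B) : B ≤ M0 t π := by
  intro b hb
  by_contra h0
  obtain ⟨α, β, -, h2⟩ := h.sw hq hl (hB hb) h0
  obtain ⟨f, hf, hf'⟩ := h.frπ.exists_f hq hl (B := B ⊓ M0 t π) (inf_le_right.trans inf_le_left)
    (hE.mono inf_le_left)
  have inj : Function.Injective f := (injective_iff_map_eq_one f).2 fun e he =>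
    Subtype.ext (h.eq_one hq (two_of_sq (hE e e.2.1)) (he ▸ hf e) (CL.UM.au_one.2 fun a => by
      have c := CL.UM.au_one.1 (he ▸ hf e) (β a)
      rw [← h2, ← (hE.comm hb e.2.1).mul_inv_cancel] at c
      exact commute_cj.1 c))
  have c1 := hn _ hf'
  rw [← Nat.card_congr (f.ofInjective inj).toEquiv] at c1
  have c2 : B = zpowers b ⊔ B ⊓ M0 t π := le_antisymm (fun y hy =>
    (mem_zsup (V := B ⊓ M0 t π) (hE b hb) fun v hv => hE.comm hb hv.1).2 (by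
      by_cases hy0 : y ∈ M0 t π
      · exact Or.inl ⟨hy, hy0⟩
      · refine Or.inr ⟨mul_mem hb hy, ?_⟩
        have := mul_mem (inv_mem ((h.comp hq hl (hB hb)).resolve_left h0))
          ((h.comp hq hl (hB hy)).resolve_left hy0)
        rwa [_root_.mul_inv_rev, mul_assoc, inv_mul_cancel_left,
          inv_eq_of_mul_eq_one_right (hE b hb)] at this))
    (sup_le (zpowers_le.2 hb) inf_le_left)
  rw [c2, card_zsup (V := B ⊓ M0 t π) (hE b hb) (fun v hv => hE.comm hb hv.1) fun e => h0 e.2] at hc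
  omega

/-- the first part of `Wr.k1` -/
theorem Wa.el_two (hq : Qs H) (hl : Lf H) (h : Wa ρ t π) {B : Subgroup G} (hB : B ≤ M0 t π)
    (hE : El B) : ∃ f g : B →* MulAut H, (∀ e : B, Au π e (f e)) ∧ (∀ e : B, Au (tu t π) e (g e)) ∧
      El f.range ∧ El g.range ∧ Nat.card B ≤ Nat.card f.range * Nat.card g.range := by
  obtain ⟨f, hf, hf'⟩ := h.frπ.exists_f hq hl (hB.trans inf_le_left) hE
  obtain ⟨g, hg, hg'⟩ := h.fr2.exists_f hq hl (hB.trans inf_le_right) hE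
  refine ⟨f, g, hf, hg, hf', hg', ?_⟩
  rw [← Nat.card_prod]
  refine Nat.card_le_card_of_injective (f.rangeRestrict.prod g.rangeRestrict)
    ((injective_iff_map_eq_one _).2 fun e he => Subtype.ext ?_)
  exact h.eq_one hq (two_of_sq (hE e e.2))
    ((show f e = 1 from congrArg (fun z => (z.1 : MulAut H)) he) ▸ hf e)
    ((show g e = 1 from congrArg (fun z => (z.2 : MulAut H)) he) ▸ hg e)

theorem Wa.conj_au (hq : Qs H) (hl : Lf H) (h : Wa ρ t π) {n : G} (hn : n ∈ Mw t π) :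
    ∃ α β : MulAut H, ((∀ a, n * π a * n⁻¹ = π (α a)) ∧
      ∀ a, n * tu t π a * n⁻¹ = tu t π (β a)) ∨ ((∀ a, n * π a * n⁻¹ = tu t π (α a)) ∧
      ∀ a, n * tu t π a * n⁻¹ = π (β a)) := by
  by_cases h0 : n ∈ M0 t π
  · obtain ⟨α, β, e⟩ := h.au hq hl h0
    exact ⟨α, β, Or.inl e⟩
  · obtain ⟨α, β, e⟩ := h.sw hq hl hn h0
    exact ⟨α, β, Or.inr e⟩

theorem Wa.pu_conj (hq : Qs H) (hl : Lf H) (h : Wa ρ t π) {n w : G} (hn : n ∈ Mw t π)
    (hw : Pu t π w) : Pu t π (n * w * n⁻¹) := by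
  obtain ⟨α, β, e | e⟩ := h.conj_au hq hl hn <;> rcases hw with ⟨a, rfl⟩ | ⟨a, rfl⟩
  exacts [Or.inl ⟨_, (e.1 a).symm⟩, Or.inr ⟨_, (e.2 a).symm⟩, Or.inr ⟨_, (e.1 a).symm⟩,
    Or.inl ⟨_, (e.2 a).symm⟩]

theorem Wa.pu_comm (hq : Qs H) (h : Wa ρ t π) {w : G} (hw : Pu t π w) (h2 : w * w = 1)
    (hc : Commute w t) : w = 1 := by
  have e : w ∈ cj t (zpowers w) := by
    have := cj_mem (g := t) (mem_zpowers w)
    rwa [hc.symm.mul_inv_cancel] at this
  rcases hw with hw | hw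
  · exact h.eq_one_of_both hq hw (range_tu t π ▸ map_mono (zpowers_le.2 hw) e) h2
  · exact h.eq_one_of_both hq (h.cj_t ▸ map_mono (zpowers_le.2 hw) e) hw h2

theorem Wa.commute_fst (hq : Qs H) (h : Wa ρ t π) {a b u : H} (ha : Two a)
    (hc : Commute (π u) (π a * tu t π b)) : Commute a u := h.frπ.commute hq ha (by simpa using hc.symm.mul_left (h.comm u b).symm.inv_left)

theorem Wa.conj_pq (h : Wa ρ t π) (s s' a b : H) :
    π s * tu t π s' * (π a * tu t π b) * (π s * tu t π s')⁻¹ =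
      π (s * a * s⁻¹) * tu t π (s' * b * s'⁻¹) := by
  rw [← conj_mul, (h.au_pq s s').1, (h.au_pq s s').2, MulAut.conj_apply, MulAut.conj_apply]

theorem Wa.com_eq (h : Wa ρ t π) {y : G} {α β : MulAut H} (h1 : Au π y α) (h2 : Au (tu t π) y β)
    (a b : H) : y * (π a * tu t π b) * y⁻¹ * (π a * tu t π b)⁻¹ =
      π (α a * a⁻¹) * tu t π (β b * b⁻¹) := by
  rw [← conj_mul, h1, h2, ← h.mul, map_inv, map_inv, ← _root_.mul_inv_rev, (h.comm a b).eq]

theorem W0.cj_sq {a : G} (h : a * a = 1) (g : G) : g * a * g⁻¹ * (g * a * g⁻¹) = 1 := by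
  rw [conj_mul, h, mul_one, mul_inv_cancel]

theorem W0.icj (a g : G) : IsConj a (g * a * g⁻¹) := isConj_iff.2 ⟨g, rfl⟩

/-- as `Wr.partner` in INV/SC/Pur2 -/
theorem Wa.partner (hq : Qs H) (h : Wa ρ t π) {w : G} (hw : w * w = 1) {β : MulAut H} (h1 : Au π w 1)
    (h2 : Au (tu t π) w β) : ∃ u w', IsConj t u ∧ u ∈ Mw t π ∧ IsConj w w' ∧ Commute w w' ∧
      Commute (w * w') u ∧ Au π w' β ∧ Au (tu t π) w' 1 := by
  have tt := h.tt
  have ti := h.t_inv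
  have b2 := h2.sq hq h.fr2 hw
  obtain ⟨t1, t2⟩ := h.au_t h1 h2
  have e : (w * t) ^ 2 ^ 2 = w * (t * w * t⁻¹) * (w * (t * w * t⁻¹)) := by
    rw [ti, show 2 ^ 2 = 4 from rfl]; simp only [pow_succ, pow_zero, mul_assoc, one_mul]
  obtain ⟨d, hd, e1⟩ := exists_adjust (j := 2) hw tt (h.odd_cent hq) (by
    rw [e]
    have k1 := (h1.mul t1).mul (h1.mul t1)
    have k2 := (h2.mul t2).mul (h2.mul t2)
    rw [one_mul, b2] at k1
    rw [mul_one, b2] at k2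
    exact h.mem_cent.2 ⟨k1, k2⟩)
  obtain ⟨d1, d2⟩ := h.mem_cent.1 hd
  have u2 := W0.cj_sq tt d
  obtain ⟨c1, c2⟩ := h.au_t ((d1.inv.mul h1).mul d1) ((d2.inv.mul h2).mul d2)
  have c3 := (d1.mul c1).mul d1.inv
  have c4 := (d2.mul c2).mul d2.inv
  rw [show d * (t * (d⁻¹ * w * d) * t⁻¹) * d⁻¹ = d * t * d⁻¹ * w * (d * t * d⁻¹)⁻¹ by group] at c3 c4
  have uM : d * t * d⁻¹ ∈ Mw t π :=
    mul_mem (mul_mem (centralizer_le_normalizer _ hd) h.t_mem) (inv_mem (centralizer_le_normalizer _ hd))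
  have uc := W0.icj t d
  generalize d * t * d⁻¹ = u at *
  have ui : u⁻¹ = u := inv_eq_of_mul_eq_one_right u2
  have cm : Commute w (u * w * u⁻¹) := by
    have : w * (u * w * u⁻¹) * (w * (u * w * u⁻¹)) = 1 := by
      rw [ui, ← e1, show 2 ^ 2 = 4 from rfl]; simp only [pow_succ, pow_zero, mul_assoc, one_mul]
    rw [Commute, SemiconjBy, eq_inv_of_mul_eq_one_left this, _root_.mul_inv_rev,
      inv_eq_of_mul_eq_one_right hw, inv_eq_of_mul_eq_one_right (W0.cj_sq hw u)]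
  refine ⟨u, u * w * u⁻¹, uc, uM, W0.icj w u, cm, ?_, by simpa using c3, by simpa using c4⟩
  refine (mul_inv_eq_iff_eq_mul.1 ?_ : Commute u _).symm
  rw [← conj_mul, cm.eq, ui]
  congr 1
  calc u * (u * w * u) * u = u * u * w * (u * u) := by group
    _ = w := by rw [u2, one_mul, mul_one]

/-- the doubling defined by an involution exchanging the factors -/
theorem Wa.dbl (hq : Qs H) (h : Wa ρ t π) {u : G} (hu : u * u = 1) {γ : MulAut H}
    (h1 : ∀ a, u * π a * u⁻¹ = tu t π (γ a)) : ∃ ρ' : H →* G, Fu ρ' ∧ (∀ a, Commute (ρ' a) u) ∧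
      (∀ a, ρ' a = π a * tu t π (γ a)) ∧
      ∀ P, El P → Dbl u (P.map ρ') (pq t π P (P.map γ.toMonoidHom)) := by
  have h2 : ∀ a b, u * (π a * tu t π (γ b)) * u⁻¹ = π b * tu t π (γ a) := fun a b => by
    rw [← conj_mul, h1, ← h1 b, (h.comm b _).eq]
    congr 1
    calc u * (u * π b * u⁻¹) * u⁻¹ = u * u * π b * (u * u)⁻¹ := by group
      _ = π b := by rw [hu]; group
  refine ⟨MonoidHom.mk' (fun a => π a * tu t π (γ a)) fun a b => by rw [h.mul, map_mul γ],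
    fun a ha => ?_, fun a => (mul_inv_eq_iff_eq_mul.1 (h2 a a) : Commute u _).symm, fun a => rfl,
    fun P hP => ⟨?_, h.el_pq hP (hP.map _), fun y hy => ?_, fun y hy hc => ?_, ?_⟩⟩
  · have := (h.cen hq (a := 1) (b := 1) (a' := a) (b' := γ a) (by rw [map_one, map_one, mul_one]; exact ha.symm)).1
    rwa [inv_one, one_mul] at this
  · rintro _ ⟨a, ha, rfl⟩
    exact h.mem_pq.2 ⟨a, ha, _, ⟨a, ha, rfl⟩, rfl⟩
  · obtain ⟨a, ha, _, ⟨b, hb, rfl⟩, rfl⟩ := h.mem_pq.1 hy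
    refine ⟨a * b, mul_mem ha hb, ?_⟩
    have e := inv_eq_of_mul_eq_one_right (h.el_pq hP (hP.map _) _ hy)
    rw [e, mul_assoc, mul_assoc, ← mul_assoc u]
    exact ((congrArg _ (h2 a b)).trans (by
      change _ = π (a * b) * tu t π (γ (a * b))
      rw [h.mul, congrArg γ (hP.comm ha hb).eq, map_mul γ]; rfl)).symm
  · obtain ⟨a, ha, _, ⟨b, hb, rfl⟩, rfl⟩ := h.mem_pq.1 hy
    obtain rfl := (h.inj hq (two_of_sq (hP a ha)) ((two_of_sq (hP b hb)).map γ.toMonoidHom)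
      (two_of_sq (hP b hb)) ((two_of_sq (hP a ha)).map γ.toMonoidHom)
      (hc.symm.mul_inv_cancel.symm.trans (h2 a b))).1
    exact ⟨a, ha, rfl⟩
  · rintro _ ⟨a, ha, rfl⟩
    refine ⟨π a, mem_sup_left ⟨a, ha, rfl⟩, ?_⟩
    rw [← map_inv, inv_eq_of_mul_eq_one_right (hP a ha), mul_assoc, mul_assoc, ← mul_assoc u, h1]
    rfl

/-- as `Ws.false` in INV/SC/W5 -/
theorem Wa.not_normal (hq : Qs H) (hl : Lf H) (h : Wa ρ t π) {N : Subgroup G} (hN : Al N) :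
    ¬ (G0 t π).Normal := by
  intro hn
  have := hN.nrm
  have := hN.simple
  obtain ⟨a, ha⟩ : ∃ a, a ∉ center H := not_forall.1 fun e => hq.nt (eq_top_iff.2 fun a _ => e a)
  have a2 : tu t π a ≠ 1 := fun e => ha (h.fr2 e)
  have le := (hN.le_of_normal hn fun e => a2 (mem_bot.1 (e ▸ two_G0 a))).trans h.G0_le
  have nr : N ≤ normalizer ((tu t π).range : Set G) := le.trans inf_le_right
  rcases h.fr2.le_or_cent hq hl (N := N) (le_normalizer_of_normal) nr with k | k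
  · rcases ((normal_subgroupOf_iff_le_normalizer k).2 nr).eq_bot_or_eq_top with e | e
    · have : (⟨_, k ⟨a, rfl⟩⟩ : N) ∈ (tu t π).range.subgroupOf N := ⟨a, rfl⟩
      rw [e, mem_bot] at this
      exact a2 (congrArg Subtype.val this)
    · refine h.range_ne hq (le_trans ?_ (subgroupOf_eq_top.1 e))
      rintro _ ⟨a, rfl⟩
      have := hN.nrm.conj_mem _ (k ⟨a, rfl⟩) t⁻¹
      rwa [tu_apply, show t⁻¹ * (t * π a * t⁻¹) * t⁻¹⁻¹ = π a by group] at this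
  · have : tu t π a ∈ centralizer (N : Set G) := mem_centralizer_iff.2 fun y hy => (k y hy _).eq
    rw [hN.cen, mem_bot] at this
    exact a2 this

end CL.UM
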