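import Cfsg.Agent.INV.UM.Bas

/-!
The unitary group: Weyl group and torus.
-/

set_option autoImplicit false
set_option linter.unusedSectionVars false
set_option linter.unusedVariables false
set_option maxHeartbeats 200000
set_option linter.unusedSimpArgs false
set_option linter.unnecessarySimpa false

namespace CL.UM

open Matrix Subgroup CL.SC
open scoped commutatorElement

variable {m : ℕ} [NeZero m] {F : Type*} [Field F] [Finite F] [CharP F 2] {φ : F ≃+* F}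

theorem wy_one : Wy (1 : Equiv.Perm (Fin m)) :=
  fun _ => rfl

theorem Wy.mul {w w' : Equiv.Perm (Fin m)} (h : Wy w) (h' : Wy w') : Wy (w * w') :=
  fun i => by rw [Equiv.Perm.mul_apply, h', h, Equiv.Perm.mul_apply]

theorem Wy.inv {w : Equiv.Perm (Fin m)} (h : Wy w) : Wy w⁻¹ :=
  fun i => w.injective (by rw [h]; simp)

theorem wy_flip (r : Fin m) : Wy (flip r) :=
  fun i => by
  simp only [flip, Equiv.swap_apply_def]; grind [Fin.rev_rev]

theorem wy_dsw {a b : Fin m} (h : Ind a b) : Wy (dsw a b) :=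
  fun i => by
  unfold Ind at h
  simp only [dsw, Equiv.Perm.mul_apply, Equiv.swap_apply_def]; grind [Fin.rev_rev]

theorem Wy.ind {w : Equiv.Perm (Fin m)} (h : Wy w) {a b : Fin m} : Ind (w a) (w b) ↔ Ind a b := by simp only [Ind, ← h a, ← h b, ne_eq, EmbeddingLike.apply_eq_iff_eq]

theorem Wy.mid {w : Equiv.Perm (Fin m)} (h : Wy w) {o : Fin m} (ho : o.rev = o) : w o = o :=
  mid_unique (by rw [← h, ho]) ho

theorem dsw_left {a b : Fin m} (h : Ind a b) : dsw a b a = b := by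
  unfold Ind at h
  simp only [dsw, Equiv.Perm.mul_apply, Equiv.swap_apply_def]; grind [Fin.rev_rev]

theorem dsw_right {a b : Fin m} (h : Ind a b) : dsw a b b = a := by
  unfold Ind at h
  simp only [dsw, Equiv.Perm.mul_apply, Equiv.swap_apply_def]; grind [Fin.rev_rev]

theorem dsw_of_ne {a b c : Fin m} (h1 : c ≠ a) (h2 : c ≠ b) (h3 : c ≠ a.rev) (h4 : c ≠ b.rev) :
    dsw a b c = c := by rw [dsw, Equiv.Perm.mul_apply, Equiv.swap_apply_of_ne_of_ne h3 h4, Equiv.swap_apply_of_ne_of_ne h1 h2]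

theorem Wey.mv {a a' : Fin m} (ha : a ≠ a.rev) (ha' : a' ≠ a'.rev) : ∃ w, Wy w ∧ w a = a' ∧
    ∀ c, Ind c a → Ind c a' → w c = c := by
  by_cases e : a = a'
  · exact ⟨1, wy_one, e, fun _ _ _ => rfl⟩
  by_cases e' : a = a'.rev
  · exact ⟨flip a, wy_flip a, by rw [flip, Equiv.swap_apply_left, e', Fin.rev_rev],
      fun c h _ => Equiv.swap_apply_of_ne_of_ne h.1 h.2.1⟩
  exact ⟨dsw a a', wy_dsw ⟨e, e', ha, ha'⟩, dsw_left ⟨e, e', ha, ha'⟩,
    fun c h h' => dsw_of_ne h.1 h'.1 h.2.1 h'.2.1⟩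

theorem Wey.wy2 {a b a' b' : Fin m} (h : Ind a b) (h' : Ind a' b') :
    ∃ w, Wy w ∧ w a = a' ∧ w b = b' := by
  obtain ⟨w, hw, rfl, -⟩ := Wey.mv h.2.2.1 h'.2.2.1
  obtain ⟨v, hv, e, k⟩ := Wey.mv (hw.ind.2 h).2.2.2 h'.2.2.2
  exact ⟨v * w, hv.mul hw, k _ (hw.ind.2 h) h', e⟩

/-- move `a` to `a'` by `1`, `flip a` or `dsw a a'`; then `b`, then `c` -/
theorem exists_wy3 {a b c a' b' c' : Fin m} (h : Ind3 a b c) (h' : Ind3 a' b' c') :
    ∃ w, Wy w ∧ w a = a' ∧ w b = b' ∧ w c = c' := by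
  obtain ⟨w, hw, rfl, rfl⟩ := Wey.wy2 h.1 h'.1
  obtain ⟨v, hv, e, k⟩ := Wey.mv (hw.ind.2 h.2.1).2.2.2 h'.2.1.2.2.2
  exact ⟨v * w, hv.mul hw, k _ (hw.ind.2 h.2.2) h'.2.2, k _ (hw.ind.2 h.2.1) h'.2.1, e⟩

theorem exists_wy2 {a b a' b' : Fin m} (h : Ind a b) (h' : Ind a' b') :
    ∃ w, Wy w ∧ w a = a' ∧ w b = b' :=
  Wey.wy2 h h'

/-- a product of flips: for a set `s` of non-middle indices without a pair `i, i'` let `w` be the
involution exchanging `i, i'` exactly if `i' ∈ s`, `Lo i` or `i ∈ s`, `Lo i'` -/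
theorem exists_wy_lo (s : Set (Fin m)) (h1 : ∀ i ∈ s, i ≠ i.rev) (h2 : ∀ i ∈ s, i.rev ∉ s) :
    ∃ w, Wy w ∧ ∀ i ∈ s, Lo (w⁻¹ i) := by
  classical
  let f : Fin m → Fin m := fun i => if (i.rev ∈ s ∧ Lo i) ∨ (i ∈ s ∧ Lo i.rev) then i.rev else i
  have hf : Function.Involutive f := fun i => by
    by_cases e : (i.rev ∈ s ∧ Lo i) ∨ (i ∈ s ∧ Lo i.rev)
    · simp only [f, if_pos e, Fin.rev_rev, if_pos e.symm]
    · simp only [f, if_neg e]
  refine ⟨hf.toPerm f, fun i => ?_, fun i hi => ?_⟩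
  · simp only [Function.Involutive.coe_toPerm, f, Fin.rev_rev, or_comm]
    split_ifs <;> simp
  · change Lo (f i)
    rcases lo_or i with e | e | e
    · simpa only [f, h2 i hi, false_and, e.rev, and_false, or_self, if_false] using e
    · simpa only [f, hi, e, and_self, or_true, if_true] using e
    · exact absurd e.symm (h1 i hi)

/-- Induction on the number of moved points: if `w r ≠ r` multiply by `flip r` or `dsw r (w r)`. -/
theorem wy_induction {a b : Fin m} (hab : Ind a b) {p : Equiv.Perm (Fin m) → Prop} (h1 : p 1)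
    (hf : ∀ w r, p w → r ≠ r.rev → r ≠ a → r ≠ a.rev → r ≠ b → r ≠ b.rev → p (flip r * w))
    (hd : ∀ w r s, p w → Ind r s → Ind a r → Ind a s → Ind b r → Ind b s → p (dsw r s * w))
    {w : Equiv.Perm (Fin m)} (hw : Wy w) (ha : w a = a) (hb : w b = b) : p w := by
  classical
  generalize hn : w.support.card = n
  induction n using Nat.strong_induction_on generalizing w with | _ n ih => ?_
  by_cases e : w = 1
  · exact e ▸ h1
  obtain ⟨r, hr⟩ : ∃ r, w r ≠ r := by by_contra! k; exact e (Equiv.ext k)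
  have key : ∀ v, Wy v → v * v = 1 → v (w r) = r → (∀ c, w c = c → v c = c) → (p (v * w) → p (v * (v * w))) → p w :=
    fun v hv vv e1 e2 k => by
      have lt : (v * w).support.card < w.support.card := Finset.card_lt_card ⟨fun c hc => by
        rw [Equiv.Perm.mem_support] at hc ⊢
        exact fun k => hc ((congrArg v k).trans (e2 c k)),
        fun k => Equiv.Perm.mem_support.1 (k (Equiv.Perm.mem_support.2 hr)) e1⟩
      have := k (ih _ (hn ▸ lt) (hv.mul hw)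
        ((congrArg v ha).trans (e2 a ha)) ((congrArg v hb).trans (e2 b hb)) rfl)
      rwa [← mul_assoc, vv, one_mul] at this
  have n1 : ∀ c, w c = c → c ≠ r ∧ c ≠ r.rev ∧ c ≠ w r ∧ c ≠ (w r).rev := fun c hc => by
    have := hw c
    have := hw r
    have := @w.injective
    grind [Fin.rev_rev]
  have r1 : r ≠ r.rev := fun k => hr (hw.mid k.symm)
  have ha' := n1 a ha
  have hb' := n1 b hb
  by_cases e' : w r = r.rev
  · refine key (flip r) (wy_flip r) (Equiv.swap_mul_self _ _) (by rw [e', flip, Equiv.swap_apply_right])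
      (fun c hc => Equiv.swap_apply_of_ne_of_ne (n1 c hc).1 (n1 c hc).2.1) fun k =>
        hf _ r k r1 ha'.1.symm ?_ hb'.1.symm ?_ <;> grind [Fin.rev_rev]
  · have r2 : w r ≠ (w r).rev := fun k => r1 (w.injective (k.trans (hw r).symm))
    have i : Ind r (w r) := ⟨hr.symm, by grind [Fin.rev_rev], r1, r2⟩
    refine key (dsw r (w r)) (wy_dsw i) (Equiv.ext fun c => ?_) (dsw_right i)
      (fun c hc => dsw_of_ne (n1 c hc).1 (n1 c hc).2.2.1 (n1 c hc).2.1 (n1 c hc).2.2.2) fun k =>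
        hd _ r _ k i ⟨ha'.1, ha'.2.1, hab.2.2.1, r1⟩ ⟨ha'.2.2.1, ha'.2.2.2, hab.2.2.1, r2⟩
          ⟨hb'.1, hb'.2.1, hab.2.2.2, r1⟩ ⟨hb'.2.2.1, hb'.2.2.2, hab.2.2.2, r2⟩
    unfold Ind at i
    simp only [dsw, Equiv.Perm.mul_apply, Equiv.swap_apply_def, Equiv.Perm.one_apply]; grind [Fin.rev_rev]

/-- Two transversals are connected by flips outside the common part (induction on the number of
`i` with `Lo (w⁻¹ i)`, `¬ Lo (w'⁻¹ i)`; such an `i` is `w r`, `Lo r`; replace `w` by `w * flip r`). -/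
theorem va_induction {a b : Fin m} {p : Equiv.Perm (Fin m) → Prop} {w w' : Equiv.Perm (Fin m)}
    (hw : Va w a b) (hw' : Va w' a b) (h0 : p w)
    (h1 : ∀ v v', Va v a b → Va v' a b → (∀ i, Lo (v⁻¹ i) ↔ Lo (v'⁻¹ i)) → p v → p v')
    (h2 : ∀ v r, Va v a b → Lo r → r ≠ v⁻¹ a → r ≠ v⁻¹ b.rev → p v → p (v * flip r)) : p w' := by
  classical
  generalize hn : (Finset.univ.filter fun i => Lo (w⁻¹ i) ∧ ¬ Lo (w'⁻¹ i)).card = n
  induction n using Nat.strong_induction_on generalizing w with | _ n ih => ?_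
  by_cases e : ∀ i, Lo (w⁻¹ i) → Lo (w'⁻¹ i)
  · refine h1 w w' hw hw' (fun i => ⟨e i, fun k => ?_⟩) h0
    rcases lo_or (w⁻¹ i) with l | l | l
    · exact l
    · rw [← hw.1.inv] at l
      exact absurd (hw'.1.inv i ▸ e _ l) k.rev
    · have l' : i.rev = i := by rw [← hw.1.inv] at l; exact w⁻¹.injective l
      rw [hw'.1.inv.mid l'] at k
      exact absurd (l'.symm ▸ k) k.rev
  push Not at e
  obtain ⟨i, l, l'⟩ := e
  have ia : w⁻¹ i ≠ w⁻¹ a := fun k => l' (w⁻¹.injective k ▸ hw'.2.1)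
  have ib : w⁻¹ i ≠ w⁻¹ b.rev := fun k => l' (w⁻¹.injective k ▸ hw'.2.2)
  have fi : ∀ j, (w * flip (w⁻¹ i))⁻¹ j = flip (w⁻¹ i) (w⁻¹ j) := fun j => by
    rw [_root_.mul_inv_rev, Equiv.Perm.mul_apply, flip, Equiv.swap_inv]
  refine ih _ (hn ▸ Finset.card_lt_card ⟨fun j => ?s1, fun k => ?s2⟩) (w := w * flip (w⁻¹ i))
    ⟨hw.1.mul (wy_flip _), ?s3, ?s4⟩ (h2 w _ hw l ia ib h0) rfl
  case s1 =>
    simp only [Finset.mem_filter, Finset.mem_univ, true_and, fi]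
    simp only [flip, Equiv.swap_apply_def]
    rintro ⟨k, k'⟩
    refine ⟨?_, k'⟩
    split_ifs at k with e1 e2
    · exact absurd k l.rev
    · rw [← hw.1.inv] at e2
      obtain rfl := w⁻¹.injective e2
      rw [hw'.1.inv] at k'
      rcases lo_or (w'⁻¹ i) with z | z | z
      exacts [absurd z l', absurd z k', by
        have l2 : i.rev = i := by rw [← hw'.1.inv] at z; exact w'⁻¹.injective z
        rwa [l2]]
    · exact k
  case s2 =>
    have := k (Finset.mem_filter.2 ⟨Finset.mem_univ i, l, l'⟩)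
    rw [Finset.mem_filter, fi, flip, Equiv.swap_apply_left] at this
    exact l.rev this.2.1
  case s3 => rw [fi, flip, Equiv.swap_apply_of_ne_of_ne ia.symm (hw.2.1.ne_rev l)]; exact hw.2.1
  case s4 => rw [fi, flip, Equiv.swap_apply_of_ne_of_ne ib.symm (hw.2.2.ne_rev l)]; exact hw.2.2

theorem Wey.su_conj (g : SU m φ) (a : SL m F) :
    g * su φ a * g⁻¹ = su φ ((g : SL m F) * a * (g : SL m F)⁻¹) := by
  by_cases h : a ∈ SU m φ
  · rw [← su_coe (g * su φ a * g⁻¹), coe_mul, coe_mul, coe_inv, su_val h]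
  · have h' : (g : SL m F) * a * (g : SL m F)⁻¹ ∉ SU m φ := fun k =>
      h (by simpa [mul_assoc] using mul_mem (mul_mem (inv_mem g.2) k) g.2)
    unfold su
    rw [dif_neg h, dif_neg h', mul_one, mul_inv_cancel]

theorem Wey.pm_dg (s : Equiv.Perm (Fin m)) {d : Fin m → F} (h : ∏ i, d i = 1) :
    pm F s * dg d * (pm F s)⁻¹ = dg fun i => d (s⁻¹ i) := Subtype.ext (Matrix.ext fun k l => by
  refine (pm_conj s _ k l).trans ?_
  rw [dg_val h, dg_val ((Equiv.prod_comp s⁻¹ d).trans h)]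
  simp only [diagonal_apply, EmbeddingLike.apply_eq_iff_eq])

theorem Wey.cj_cl {G : Type*} [Group G] (g : G) {s s' : Set G} (h : ∀ y ∈ s, g * y * g⁻¹ ∈ s')
    (h' : ∀ y ∈ s', ∃ z ∈ s, g * z * g⁻¹ = y) : cj g (closure s) = closure s' := by
  rw [cj, MonoidHom.map_closure]
  exact congrArg _ (Set.ext fun y => ⟨by rintro ⟨z, hz, rfl⟩; exact h z hz, h' y⟩)

theorem pw_val {w : Equiv.Perm (Fin m)} (h : Wy w) : (pw φ w : SL m F) = pm F w :=
  su_val (mem_Fx.2 (by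
  change fld φ (gr (pm F w)) = _
  rw [gr_pm, fld_pm]
  exact congrArg _ (Equiv.ext fun i => by simp [h i])))

theorem pw_one : pw φ (1 : Equiv.Perm (Fin m)) = 1 :=
  Subtype.ext ((pw_val wy_one).trans pm_one)

theorem pw_mul {w w' : Equiv.Perm (Fin m)} (h : Wy w) (h' : Wy w') :
    pw φ (w * w') = pw φ w * pw φ w' :=
  Subtype.ext (by rw [coe_mul, pw_val h, pw_val h', pw_val (h.mul h'), pm_mul])

theorem pw_inv {w : Equiv.Perm (Fin m)} (h : Wy w) : (pw φ w)⁻¹ = pw φ w⁻¹ :=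
  Subtype.ext (by rw [coe_inv, pw_val h, pw_val h.inv, pm_inv])

theorem pw_mulVec {w : Equiv.Perm (Fin m)} (h : Wy w) (v : Fin m → F) :
    ((pw φ w : SL m F) : Matrix (Fin m) (Fin m) F) *ᵥ v = fun i => v (w⁻¹ i) := by
  ext i
  rw [pw_val h, mulVec, dotProduct, Finset.sum_eq_single (w⁻¹ i) (fun j _ hj => ?_) (by simp)]
  · change (pm F w : SL m F) _ _ * _ = _
    simp [pm_apply]
  · change (pm F w : SL m F) _ _ * _ = _
    rw [pm_apply, if_neg (fun k => hj (by simp [k])), zero_mul]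

theorem pw_xs (hp : Pa m φ) {w : Equiv.Perm (Fin m)} (h : Wy w) {a b : Fin m} (hab : Ind a b)
    (u : F) : pw φ w * xs φ a b u * (pw φ w)⁻¹ = xs φ (w a) (w b) u := by rw [xs, Wey.su_conj, pw_val h, ← conj_mul, pm_x, pm_x, h, h, xs]

theorem pw_zl {w : Equiv.Perm (Fin m)} (h : Wy w) (a : Fin m) (c : F) :
    pw φ w * zl φ a c * (pw φ w)⁻¹ = zl φ (w a) c := by rw [zl, Wey.su_conj, pw_val h, pm_x, h, zl]

theorem pw_us (hp : Pa m φ) {w : Equiv.Perm (Fin m)} (h : Wy w) {o a : Fin m} (ho : o.rev = o)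
    (ha : a ≠ a.rev) (c d : F) : pw φ w * us φ o a c d * (pw φ w)⁻¹ = us φ o (w a) c d := by rw [us, Wey.su_conj, pw_val h, ← conj_mul, ← conj_mul, pm_x, pm_x, pm_x, h, h.mid ho, us]

theorem cj_pw_Xs (hp : Pa m φ) {w : Equiv.Perm (Fin m)} (h : Wy w) {a b : Fin m} (hab : Ind a b) :
    cj (pw φ w) (Xs φ a b) = Xs φ (w a) (w b) :=
  Wey.cj_cl _ (by rintro _ ⟨u, rfl⟩; exact ⟨u, pw_xs hp h hab u⟩)
    (by rintro _ ⟨u, rfl⟩; exact ⟨_, ⟨u, rfl⟩, pw_xs hp h hab u⟩)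

theorem pw_flip {r : Fin m} (h : r ≠ r.rev) :
    pw φ (flip r) = zl φ r 1 * zl φ r.rev 1 * zl φ r 1 :=
  Subtype.ext (by
  rw [pw_val (wy_flip r), coe_mul, coe_mul, zl_val h (map_one φ), zl_val (by rwa [Fin.rev_rev, ne_comm]) (map_one φ),
    Fin.rev_rev, flip, pm_swap h])

theorem Wey.six {G : Type*} [Group G] {A B C D : G} (h1 : Commute C A) (h2 : Commute C B) (h3 : Commute D A) :
    A * C * (B * D) * (A * C) = A * B * A * (C * D * C) := by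
  calc _ = A * (C * B) * (D * A) * C := by group
    _ = A * B * (C * A) * D * C := by rw [h2.eq, h3.eq]; group
    _ = _ := by rw [h1.eq]; group

theorem Wey.xs3 (hp : Pa m φ) {a b : Fin m} (h : Ind a b) (c d : F) :
    ((xs φ a b c * xs φ b a d * xs φ a b c : SU m φ) : SL m F) = x a b c * x b a d * x a b c *
      (x b.rev a.rev (φ c) * x a.rev b.rev (φ d) * x b.rev a.rev (φ c)) := by
  rw [coe_mul, coe_mul, xs_val hp h, xs_val hp h.symm]
  unfold Ind at h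
  apply Wey.six <;> apply x_comm <;> grind [Fin.rev_rev]

theorem pw_dsw (hp : Pa m φ) {a b : Fin m} (h : Ind a b) :
    pw φ (dsw a b) = xs φ a b 1 * xs φ b a 1 * xs φ a b 1 :=
  Subtype.ext (by
  rw [Wey.xs3 hp h, map_one, pw_val (wy_dsw h), dsw, pm_mul, pm_swap h.1, Equiv.swap_comm,
    pm_swap (Fin.rev_injective.ne h.1.symm)])

theorem Dg.ne {d : Fin m → F} (h : Dg φ d) (i : Fin m) : d i ≠ 0 :=
  left_ne_zero_of_mul_eq_one (h.1 i)

theorem dg_one : D1 φ (1 : Fin m → F) :=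
  ⟨⟨fun _ => by simp, by simp⟩, fun _ => rfl⟩

theorem Dg.mul {d e : Fin m → F} (h : Dg φ d) (h' : Dg φ e) : Dg φ (d * e) :=
  ⟨fun i => by rw [Pi.mul_apply, Pi.mul_apply, map_mul, mul_mul_mul_comm, h.1, h'.1, one_mul], by
    simp only [Pi.mul_apply, Finset.prod_mul_distrib, h.2, h'.2, one_mul]⟩

theorem Dg.inv {d : Fin m → F} (h : Dg φ d) : Dg φ d⁻¹ :=
  ⟨fun i => by rw [Pi.inv_apply, Pi.inv_apply, map_inv₀, ← mul_inv, h.1, inv_one], by
    simp only [Pi.inv_apply, Finset.prod_inv_distrib, h.2, inv_one]⟩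

theorem D1.mul {d e : Fin m → F} (h : D1 φ d) (h' : D1 φ e) : D1 φ (d * e) :=
  ⟨h.1.mul h'.1, fun i => by rw [Pi.mul_apply, Pi.mul_apply, h.2, h'.2]⟩

theorem D1.inv {d : Fin m → F} (h : D1 φ d) : D1 φ d⁻¹ :=
  ⟨h.1.inv, fun i => by rw [Pi.inv_apply, Pi.inv_apply, h.2]⟩

theorem D1.norm {d : Fin m → F} (h : D1 φ d) (i : Fin m) : d i * φ (d i) = 1 := by rw [← h.1.1 i, h.2]

theorem Dg.wy {d : Fin m → F} (h : Dg φ d) {w : Equiv.Perm (Fin m)} (hw : Wy w) :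
    Dg φ fun i => d (w i) :=
  ⟨fun i => by simpa only [hw i] using h.1 (w i), (Equiv.prod_comp w d).trans h.2⟩

theorem D1.wy {d : Fin m → F} (h : D1 φ d) {w : Equiv.Perm (Fin m)} (hw : Wy w) :
    D1 φ fun i => d (w i) :=
  ⟨h.1.wy hw, fun i => by simp only [hw i, h.2]⟩

theorem dh_val (hp : Pa m φ) {d : Fin m → F} (h : Dg φ d) : (dh φ d : SL m F) = dg d :=
  su_val (mem_SU'.2 fun i j => by
  rw [dg_inv h.2]
  rw [dg_val h.2, dg_val (by rw [Finset.prod_inv_distrib, h.2, inv_one])]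
  by_cases e : i = j
  · subst e
    rw [diagonal_apply_eq, diagonal_apply_eq, map_inv₀, eq_comm]
    exact eq_inv_of_mul_eq_one_left (h.1 i)
  · rw [diagonal_apply_ne _ e, diagonal_apply_ne _ (Fin.rev_injective.ne (Ne.symm e)), map_zero])

theorem dh_mul (hp : Pa m φ) {d e : Fin m → F} (h : Dg φ d) (h' : Dg φ e) :
    dh φ (d * e) = dh φ d * dh φ e :=
  Subtype.ext (by rw [coe_mul, dh_val hp h, dh_val hp h', dh_val hp (h.mul h'), dg_mul h.2 h'.2])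

theorem dh_inv (hp : Pa m φ) {d : Fin m → F} (h : Dg φ d) : (dh φ d)⁻¹ = dh φ d⁻¹ :=
  Subtype.ext (by rw [coe_inv, dh_val hp h, dh_val hp h.inv, dg_inv h.2]; rfl)

theorem dh_comm (hp : Pa m φ) {d e : Fin m → F} (h : Dg φ d) (h' : Dg φ e) :
    Commute (dh φ d) (dh φ e) := by rw [Commute, SemiconjBy, ← dh_mul hp h h', ← dh_mul hp h' h, mul_comm]

theorem Wey.dh_one (hp : Pa m φ) : dh φ (1 : Fin m → F) = 1 :=
  mul_eq_left.1 (by rw [← dh_mul hp dg_one.1 dg_one.1, one_mul])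

theorem Wey.dh_pow (hp : Pa m φ) {d : Fin m → F} (h : Dg φ d) (n : ℕ) :
    Dg φ (d ^ n) ∧ dh φ d ^ n = dh φ (d ^ n) := by
  induction n with
  | zero => rw [pow_zero, pow_zero]; exact ⟨dg_one.1, (Wey.dh_one hp).symm⟩
  | succ n ih => rw [pow_succ, pow_succ, ih.2, dh_mul hp ih.1 h]; exact ⟨ih.1.mul h, rfl⟩

theorem dh_odd (hp : Pa m φ) {d : Fin m → F} (h : Dg φ d) : Odd (orderOf (dh φ d)) := by
  have := Fintype.ofFinite F
  refine (odd_card_sub (F := F)).of_dvd_nat (orderOf_dvd_of_pow_eq_one ?_)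
  rw [(Wey.dh_pow hp h _).2, ← Wey.dh_one hp, Nat.card_eq_fintype_card]
  exact congrArg _ (funext fun i => FiniteField.pow_card_sub_one_eq_one _ (h.ne i))

theorem dh_mulVec (hp : Pa m φ) {d : Fin m → F} (h : Dg φ d) (v : Fin m → F) :
    ((dh φ d : SL m F) : Matrix (Fin m) (Fin m) F) *ᵥ v = d * v := by
  ext i
  rw [dh_val hp h, dg_val h.2, mulVec_diagonal, Pi.mul_apply]

theorem dh_xs (hp : Pa m φ) {d : Fin m → F} (h : Dg φ d) {a b : Fin m} (hab : Ind a b) (u : F) :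
    dh φ d * xs φ a b u * (dh φ d)⁻¹ = xs φ a b (d a * u * (d b)⁻¹) := by
  rw [xs, Wey.su_conj, dh_val hp h, ← conj_mul, dg_x h.2, dg_x h.2, xs]
  have e1 := h.1 b.rev
  have e2 := h.1 a.rev
  rw [Fin.rev_rev] at e1 e2
  rw [eq_inv_of_mul_eq_one_left e1, ← eq_inv_of_mul_eq_one_right e2, map_mul, map_mul, map_inv₀]
  congr 3; ring

theorem dh_zl (hp : Pa m φ) {d : Fin m → F} (h : Dg φ d) {a : Fin m} (ha : a ≠ a.rev) {c : F}
    (hc : φ c = c) : dh φ d * zl φ a c * (dh φ d)⁻¹ = zl φ a (d a * φ (d a) * c) := by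
  rw [zl, Wey.su_conj, dh_val hp h, dg_x h.2, zl]
  have e2 := h.1 a.rev
  rw [Fin.rev_rev] at e2
  rw [← eq_inv_of_mul_eq_one_right e2]
  congr 2; ring

theorem pw_dh (hp : Pa m φ) {w : Equiv.Perm (Fin m)} (hw : Wy w) {d : Fin m → F} (h : Dg φ d) :
    pw φ w * dh φ d * (pw φ w)⁻¹ = dh φ fun i => d (w⁻¹ i) := by rw [dh, Wey.su_conj, pw_val hw, Wey.pm_dg w h.2, dh]

theorem mem_H1 (hp : Pa m φ) {g : SU m φ} : g ∈ H1 m φ ↔ ∃ d, D1 φ d ∧ g = dh φ d :=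
  ⟨fun h => closure_induction (fun _ h => h) ⟨1, dg_one, (Wey.dh_one hp).symm⟩
    (by rintro _ _ _ _ ⟨d, h, rfl⟩ ⟨e, h', rfl⟩; exact ⟨_, h.mul h', (dh_mul hp h.1 h'.1).symm⟩)
    (by rintro _ _ ⟨d, h, rfl⟩; exact ⟨_, h.inv, dh_inv hp h.1⟩) h, fun h => subset_closure h⟩

theorem mem_H2 (hp : Pa m φ) {a b : Fin m} {g : SU m φ} :
    g ∈ H2 φ a b ↔ ∃ d, D1 φ d ∧ d a = d b ∧ g = dh φ d :=
  ⟨fun h => closure_induction (fun _ h => h) ⟨1, dg_one, rfl, (Wey.dh_one hp).symm⟩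
    (by
      rintro _ _ _ _ ⟨d, h, k, rfl⟩ ⟨e, h', k', rfl⟩
      exact ⟨_, h.mul h', by rw [Pi.mul_apply, k, k', Pi.mul_apply], (dh_mul hp h.1 h'.1).symm⟩)
    (by
      rintro _ _ ⟨d, h, k, rfl⟩
      exact ⟨_, h.inv, by rw [Pi.inv_apply, k, Pi.inv_apply], dh_inv hp h.1⟩) h, fun h => subset_closure h⟩

theorem H2_le (a b : Fin m) : H2 φ a b ≤ H1 m φ :=
  closure_mono fun _ ⟨d, h, _, e⟩ => ⟨d, h, e⟩

theorem H2_symm (a b : Fin m) : H2 φ b a = H2 φ a b := by simp only [H2, eq_comm]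

theorem H2_rev (a b : Fin m) : H2 φ a b.rev = H2 φ a b :=
  congrArg Subgroup.closure (Set.ext fun _ => exists_congr fun d => and_congr_right fun h => by rw [h.2])

theorem H1_comm (hp : Pa m φ) {g g' : SU m φ} (h : g ∈ H1 m φ) (h' : g' ∈ H1 m φ) : Commute g g' := by
  obtain ⟨d, k, rfl⟩ := (mem_H1 hp).1 h
  obtain ⟨e, k', rfl⟩ := (mem_H1 hp).1 h'
  exact dh_comm hp k.1 k'.1

theorem H1_odd (hp : Pa m φ) : Odd (Nat.card (H1 m φ)) :=
  Nat.not_even_iff_odd.1 fun h => by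
    have : Fact (Nat.Prime 2) := ⟨Nat.prime_two⟩
    obtain ⟨⟨g, hg⟩, e⟩ := exists_prime_orderOf_dvd_card' 2 h.two_dvd
    obtain ⟨d, k, rfl⟩ := (mem_H1 hp).1 hg
    have := dh_odd hp k.1
    rw [orderOf_mk] at e
    rw [e] at this
    exact absurd this (by decide)

theorem cj_pw_H1 (hp : Pa m φ) {w : Equiv.Perm (Fin m)} (hw : Wy w) :
    cj (pw φ w) (H1 m φ) = H1 m φ :=
  Wey.cj_cl _ (by rintro _ ⟨d, h, rfl⟩; exact ⟨_, h.wy hw.inv, pw_dh hp hw h.1⟩)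
    (by rintro _ ⟨d, h, rfl⟩; exact ⟨_, ⟨_, h.wy hw, rfl⟩, by simp [pw_dh hp hw (h.1.wy hw)]⟩)

theorem cj_pw_H2 (hp : Pa m φ) {w : Equiv.Perm (Fin m)} (hw : Wy w) (a b : Fin m) :
    cj (pw φ w) (H2 φ a b) = H2 φ (w a) (w b) :=
  Wey.cj_cl _ (by rintro _ ⟨d, h, k, rfl⟩; exact ⟨_, h.wy hw.inv, by simpa using k, pw_dh hp hw h.1⟩)
    (by rintro _ ⟨d, h, k, rfl⟩; exact ⟨_, ⟨_, h.wy hw, k, rfl⟩, by simp [pw_dh hp hw (h.1.wy hw)]⟩)

/-- the coroot -/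
def hd (φ : F ≃+* F) (a b : Fin m) (c : F) : Fin m → F := fun l =>
  if l = a then c else if l = b then c⁻¹ else if l = a.rev then (φ c)⁻¹ else
    if l = b.rev then φ c else 1

theorem Wey.prod2 {i j : Fin m} (h : i ≠ j) {c : F} (hc : c ≠ 0) :
    ∏ l, (fun l => if l = i then c else if l = j then c⁻¹ else 1) l = 1 := by
  have := (Matrix.SpecialLinearGroup.diag2n h c hc).2
  rwa [Matrix.SpecialLinearGroup.diag2n_coe, det_diagonal] at this

theorem Wey.hd_eq {a b : Fin m} (h : Ind a b) (c : F) : hd φ a b c =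
    (fun l => if l = a then c else if l = b then c⁻¹ else 1) *
      fun l => if l = b.rev then φ c else if l = a.rev then (φ c)⁻¹ else 1 := funext fun l => by
  unfold Ind at h
  simp only [hd, Pi.mul_apply]; grind [Fin.rev_rev]

theorem Wey.hd_a (a b : Fin m) (c : F) : hd φ a b c a = c := if_pos rfl

theorem Wey.hd_b {a b : Fin m} (h : Ind a b) (c : F) : hd φ a b c b = c⁻¹ := by
  rw [hd, if_neg h.1.symm, if_pos rfl]

theorem Wey.hd_o {a b i : Fin m} (h1 : i ≠ a) (h2 : i ≠ a.rev) (h3 : i ≠ b) (h4 : i ≠ b.rev) (c : F) :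
    hd φ a b c i = 1 := by rw [hd, if_neg h1, if_neg h3, if_neg h2, if_neg h4]

theorem Wey.hd_i {a b i : Fin m} (h : Ind i a) (h' : Ind i b) (c : F) : hd φ a b c i = 1 :=
  Wey.hd_o h.1 h.2.1 h'.1 h'.2.1 c

theorem dg_hd (hp : Pa m φ) {a b : Fin m} (h : Ind a b) {c : F} (hc : c ≠ 0) : Dg φ (hd φ a b c) := by
  have c0 : φ c ≠ 0 := (map_ne_zero φ).2 hc
  refine ⟨fun i => ?_, ?_⟩
  · unfold Ind at h
    simp only [hd, apply_ite φ, map_inv₀, hp.ff, map_one]; grind [Fin.rev_rev]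
  · simp only [Wey.hd_eq h, Pi.mul_apply, Finset.prod_mul_distrib]
    rw [Wey.prod2 h.1 hc, Wey.prod2 (Fin.rev_injective.ne h.1.symm) c0, one_mul]

theorem d1_hd (hp : Pa m φ) {a b : Fin m} (h : Ind a b) {c : F} (hc : c * φ c = 1) :
    D1 φ (hd φ a b c) :=
  ⟨dg_hd hp h (left_ne_zero_of_mul_eq_one hc), fun i => by
    unfold Ind at h
    simp only [hd, eq_inv_of_mul_eq_one_right hc, inv_inv]; grind [Fin.rev_rev]⟩

theorem hd_mul {a b : Fin m} (c d : F) : hd φ a b (c * d) = hd φ a b c * hd φ a b d :=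
  funext fun l => by
    simp only [hd, Pi.mul_apply, map_mul, mul_inv]; split_ifs <;> simp

theorem hd_tri {a b c : Fin m} (h : Ind3 a b c) {s : F} (hs : s ≠ 0) :
    hd φ a c s = hd φ a b s * hd φ b c s :=
  funext fun l => by
    have c0 : φ s ≠ 0 := (map_ne_zero φ).2 hs
    unfold Ind3 Ind at h
    simp only [hd, Pi.mul_apply]; grind [Fin.rev_rev]

/-- `x_weyl` twice -/
theorem xs_weyl (hp : Pa m φ) {a b : Fin m} (h : Ind a b) {c : F} (hc : c ≠ 0) :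
    xs φ a b c * xs φ b a c⁻¹ * xs φ a b c = dh φ (hd φ a b c) * pw φ (dsw a b) :=
  Subtype.ext (by
  have c0 : φ c ≠ 0 := (map_ne_zero φ).2 hc
  have n := Fin.rev_injective.ne h.1.symm
  rw [Wey.xs3 hp h, map_inv₀, x_weyl h.1 hc, x_weyl n c0, coe_mul, dh_val hp (dg_hd hp h hc), pw_val (wy_dsw h), dsw,
    pm_mul, Equiv.swap_comm a.rev, Wey.hd_eq h, dg_mul (Wey.prod2 h.1 hc) (Wey.prod2 n c0)]
  have := Wey.pm_dg (Equiv.swap a b) (Wey.prod2 n c0)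
  rw [mul_inv_eq_iff_eq_mul] at this
  rw [mul_assoc, ← mul_assoc (pm F _), this, mul_assoc, mul_assoc]
  congr 3
  funext l
  unfold Ind at h
  simp only [Equiv.swap_inv, Equiv.swap_apply_def]; grind [Fin.rev_rev])

theorem hd_mem_Lv (hp : Pa m φ) {a b : Fin m} (ha : Lo a) (hb : Lo b) (h : a ≠ b) {c : F}
    (hc : c ≠ 0) : dh φ (hd φ a b c) ∈ Lv m φ := by
  have i := (Ind.of_lo ha hb h).1
  have k : ∀ u, xs φ a b u ∈ Lv m φ := fun u => subset_closure ⟨a, b, u, ha, hb, h, rfl⟩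
  have k' : ∀ u, xs φ b a u ∈ Lv m φ := fun u => subset_closure ⟨b, a, u, hb, ha, h.symm, rfl⟩
  rw [← mul_inv_eq_iff_eq_mul.2 (xs_weyl hp i hc), pw_dsw hp i]
  exact mul_mem (mul_mem (mul_mem (k _) (k' _)) (k _)) (inv_mem (mul_mem (mul_mem (k _) (k' _)) (k _)))

/-- `hd 0 1 s` with `s * φ s = c` -/
theorem exists_dh_zl (hp : Pa m φ) {c : F} (hc : φ c = c) (h0 : c ≠ 0) :
    ∃ d : Fin m → F, Dg φ d ∧ dh φ d ∈ Lv m φ ∧ dh φ d * zl φ 0 1 * (dh φ d)⁻¹ = zl φ 0 c := by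
  obtain ⟨s, rfl⟩ := exists_norm hp.ne hp.sq hc
  obtain ⟨i, -, l0, li, -, e, -⟩ := exists_lo3 hp
  have n : (0 : Fin m) ≠ i := fun k => by rw [← k] at e; simp at e
  have s0 := left_ne_zero_of_mul h0
  have d := dg_hd hp (Ind.of_lo l0 li n).1 s0
  exact ⟨_, d, hd_mem_Lv hp l0 li n s0, by rw [dh_zl hp d (l0.ne_rev l0) (map_one φ), Wey.hd_a, mul_one]⟩

/-- `hd a b ω` -/
theorem sep0 (hp : Pa m φ) {a b : Fin m} (h : Ind a b) : ∃ d : Fin m → F, D1 φ d ∧ d a ≠ d b ∧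
    d a ≠ 1 ∧ d b ≠ 1 ∧ ∀ i, i ≠ a → i ≠ a.rev → i ≠ b → i ≠ b.rev → d i = 1 := by
  obtain ⟨ω, e, n⟩ := hp.om
  refine ⟨_, d1_hd hp h e, ?_, ?_, ?_, fun i h1 h2 h3 h4 => Wey.hd_o h1 h2 h3 h4 ω⟩ <;>
    simp only [Wey.hd_a, Wey.hd_b h]
  · exact fun k => n (eq_one_of_pow (n := 1) (by
      rw [pow_one, sq]; nth_rewrite 1 [k]; exact inv_mul_cancel₀ (left_ne_zero_of_mul_eq_one e)))
  · exact n
  · exact inv_ne_one.2 n

/-- `m = 6`: `ω, ω, ω⁻¹ ^ 2` with `ω ^ 3 ≠ 1` (`om3`); `m = 7`: `ω` at `c, c'`, `ω⁻¹ ^ 2` in the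
middle; `m ≥ 8`: `sep0` for `c` and a fourth pair -/
theorem sep1 (hp : Pa m φ) {a b c : Fin m} (h : Ind3 a b c) :
    ∃ d : Fin m → F, D1 φ d ∧ d a = d b ∧ d b ≠ d c := by
  classical
  by_cases h4 : Nat.card F = 4
  · have : 6 < m := lt_of_le_of_ne hp.six fun k => hp.ex ⟨k.symm, h4⟩
    obtain ⟨e, -, he⟩ := Finset.exists_mem_notMem_of_card_lt_card
      (s := {a, a.rev, b, b.rev, c, c.rev}) (t := Finset.univ) (Finset.card_le_six.trans_lt (by simpa using this))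
    simp only [Finset.mem_insert, Finset.mem_singleton, not_or] at he
    unfold Ind3 Ind at h
    by_cases o : e = e.rev
    · obtain ⟨ω, k, n⟩ := hp.om
      have w0 := left_ne_zero_of_mul_eq_one k
      have k' := eq_inv_of_mul_eq_one_right k
      refine ⟨(fun l => if l = c then ω else if l = e then ω⁻¹ else 1) *
        fun l => if l = c.rev then ω else if l = e then ω⁻¹ else 1, ⟨⟨fun i => ?_, ?_⟩, fun i => ?_⟩, ?_, ?_⟩
      · simp only [Pi.mul_apply, map_mul, apply_ite φ, map_inv₀, map_one, k']; grind [Fin.rev_rev]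
      · simp only [Pi.mul_apply, Finset.prod_mul_distrib]
        rw [Wey.prod2 (Ne.symm he.2.2.2.2.1) w0, Wey.prod2 (Ne.symm he.2.2.2.2.2) w0, one_mul]
      all_goals simp only [Pi.mul_apply]; grind [Fin.rev_rev]
    · obtain ⟨d, hd, -, n, -, k⟩ := sep0 hp (a := c) (b := e) (by unfold Ind; grind [Fin.rev_rev])
      have ka : d a = 1 := k a (by grind) (by grind) (by grind) (by grind [Fin.rev_rev])
      have kb : d b = 1 := k b (by grind) (by grind) (by grind) (by grind [Fin.rev_rev])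
      exact ⟨d, hd, ka.trans kb.symm, kb ▸ n.symm⟩
  · obtain ⟨ω, e, n⟩ := hp.om3 h4
    have w0 := left_ne_zero_of_mul_eq_one e
    refine ⟨_, (d1_hd hp h.2.2 e).mul (d1_hd hp h.2.1 e), ?_, ?_⟩ <;>
      simp only [Pi.mul_apply, Wey.hd_a, Wey.hd_b h.2.2, Wey.hd_b h.2.1, Wey.hd_i h.1 h.2.2, Wey.hd_i h.1.symm h.2.1,
        mul_one, one_mul]
    exact fun k => n (by grind)

/-- `hd a e ω * hd b e ω * hd c e ω` -/
theorem sep2 (hp : Pa m φ) {a b c e : Fin m} (h : Ind3 a b c) (h1 : Ind a e) (h2 : Ind b e)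
    (h3 : Ind c e) : ∃ d : Fin m → F, D1 φ d ∧ d a = d b ∧ d b = d c ∧ d c ≠ d e := by
  obtain ⟨ω, k, n⟩ := hp.om
  have w0 := left_ne_zero_of_mul_eq_one k
  refine ⟨_, ((d1_hd hp h1 k).mul (d1_hd hp h2 k)).mul (d1_hd hp h3 k), ?_, ?_, ?_⟩ <;>
    simp only [Pi.mul_apply, Wey.hd_a, Wey.hd_b h1, Wey.hd_b h2, Wey.hd_b h3, Wey.hd_i h.1 h1, Wey.hd_i h.2.2 h1,
      Wey.hd_i h.1.symm h2, Wey.hd_i h.2.1 h2, Wey.hd_i h.2.2.symm h3, Wey.hd_i h.2.1.symm h3, mul_one, one_mul]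
  exact fun k => n (eq_one_of_pow (n := 2) (by grind))

theorem Wey.i3 {a b c : Fin m} (ha : Lo a) (hb : Lo b) (hc : Lo c) (h1 : a ≠ b) (h2 : b ≠ c) (h3 : a ≠ c) :
    Ind3 a b c := ⟨(Ind.of_lo ha hb h1).1, (Ind.of_lo hb hc h2).1, (Ind.of_lo ha hc h3).1⟩

theorem Wey.sep0' (hp : Pa m φ) {c e : Fin m} (hc : Lo c) (he : Lo e) (h : c ≠ e) :
    ∃ d : Fin m → F, D1 φ d ∧ d c ≠ d e ∧ ∀ i, Lo i → i ≠ c → i ≠ e → d i = 1 :=
  let ⟨d, h1, h2, _, _, k⟩ := sep0 hp (Ind.of_lo hc he h).1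
  ⟨d, h1, h2, fun i l n n' => k i n (l.ne_rev hc) n' (l.ne_rev he)⟩

/-- Distinct roots are separated: `sep1` if they share a pair, otherwise
`hd a c ω * hd b e ω`-type or `sep0`. -/
theorem sep3 (hp : Pa m φ) {a b c e : Fin m} (ha : Lo a) (hb : Lo b) (hc : Lo c) (he : Lo e)
    (hab : a ≠ b) (hce : c ≠ e) (h : ¬ (c = a ∧ e = b)) (h' : ¬ (c = b ∧ e = a)) :
    ∃ d : Fin m → F, D1 φ d ∧ d a = d b ∧ d c ≠ d e := by
  by_cases k : c = a ∨ c = b
  · obtain ⟨d, h1, h2, h3⟩ := sep1 hp (Wey.i3 ha hb he hab (by grind) (by grind))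
    exact ⟨d, h1, h2, by grind⟩
  by_cases k' : e = a ∨ e = b
  · obtain ⟨d, h1, h2, h3⟩ := sep1 hp (Wey.i3 ha hb hc hab (by grind) (by grind))
    exact ⟨d, h1, h2, by grind⟩
  obtain ⟨d, h1, h2, h3⟩ := Wey.sep0' hp hc he hce
  exact ⟨d, h1, by rw [h3 a ha (by grind) (by grind), h3 b hb (by grind) (by grind)], h2⟩

/-- If `c = e` or `{c, e} = {a, b}` use `sep1`; otherwise one of `c, e` is new: `sep2`, `sep0`. -/
theorem sep4 (hp : Pa m φ) {a b j c e : Fin m} (ha : Lo a) (hb : Lo b) (hj : Lo j) (hc : Lo c)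
    (he : Lo e) (hab : a ≠ b) (haj : a ≠ j) (hbj : b ≠ j)
    (h1 : ¬ (c = a ∧ e = j)) (h2 : ¬ (c = j ∧ e = a)) (h3 : ¬ (c = b ∧ e = j))
    (h4 : ¬ (c = j ∧ e = b)) : ∃ d : Fin m → F, D1 φ d ∧ d a = d b ∧
      ((d c = d e ∧ d b ≠ d j) ∨ (d b = d j ∧ d c ≠ d e)) := by
  have i := Wey.i3 ha hb hj hab hbj haj
  by_cases k0 : c = e ∨ (c = a ∧ e = b) ∨ (c = b ∧ e = a)
  · obtain ⟨d, k1, k2, k3⟩ := sep1 hp i
    exact ⟨d, k1, k2, .inl ⟨by grind, k3⟩⟩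
  by_cases k : c = a ∨ c = b ∨ c = j
  · obtain ⟨d, k1, k2, k3, k4⟩ := sep2 hp i (Ind.of_lo ha he (by grind)).1 (Ind.of_lo hb he (by grind)).1
      (Ind.of_lo hj he (by grind)).1
    exact ⟨d, k1, k2, .inr ⟨k3, by grind⟩⟩
  by_cases k' : e = a ∨ e = b ∨ e = j
  · obtain ⟨d, k1, k2, k3, k4⟩ := sep2 hp i (Ind.of_lo ha hc (by grind)).1 (Ind.of_lo hb hc (by grind)).1
      (Ind.of_lo hj hc (by grind)).1
    exact ⟨d, k1, k2, .inr ⟨k3, by grind⟩⟩
  obtain ⟨d, k1, k2, k3⟩ := Wey.sep0' hp hc he (by grind)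
  have ka := k3 a ha (by grind) (by grind)
  have kb := k3 b hb (by grind) (by grind)
  have kj := k3 j hj (by grind) (by grind)
  exact ⟨d, k1, ka.trans kb.symm, .inr ⟨kb.trans kj.symm, k2⟩⟩

end CL.UM
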